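import Cfsg.Agent.Lib.DefOne.GalFinal

/-!
# Counting the characters of degree prime to `p` when `p` divides the group order once
-/

set_option autoImplicit false
set_option linter.unusedSectionVars false
set_option linter.unusedVariables false

namespace Cfsg.Agent.Lib.DefOne

open Cfsg Cfsg.Agent.Lib.Char Cfsg.Agent.Lib.Blocks Finset
open scoped ComplexConjugate

universe u

attribute [local instance] fintypeOfSubgroup

variable {G : Type u} [Group G] [Fintype G] {p : ℕ} [hp : Fact p.Prime] {P : Sylow p G} {M : Ideal AlgInt}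

local notation "𝐐" => ((P : Subgroup G))
local notation "𝐂" => (Subgroup.centralizer (((P : Subgroup G)) : Set G))
local notation "𝐍" => (Subgroup.normalizer (((P : Subgroup G)) : Set G))

/-- The inertial index. -/
noncomputable def eT (θ : IrrCharacter 𝐂) : ℕ := Nat.card (stabT θ) / Nat.card 𝐂

theorem card_dvd_stabT (θ : IrrCharacter 𝐂) : Nat.card 𝐂 ∣ Nat.card (stabT θ) := by
  have hle : 𝐂 ≤ (stabT θ).map 𝐍.subtype := by
    intro c hc
    exact ⟨toN ⟨c, hc⟩, toN_mem_stabT _ θ, rfl⟩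
  have h1 := Subgroup.card_dvd_of_le hle
  rwa [Subgroup.card_map_of_injective 𝐍.subtype_injective] at h1

theorem card_stabT_eq (θ : IrrCharacter 𝐂) : Nat.card (stabT θ) = eT θ * Nat.card 𝐂 :=
  (Nat.div_mul_cancel (card_dvd_stabT θ)).symm

theorem card_normalizer_eq : Nat.card 𝐍 = (Nat.card 𝐍 / Nat.card 𝐂) * Nat.card 𝐂 :=
  (Nat.div_mul_cancel (Subgroup.card_dvd_of_le (centralizer_le_normalizer_coe (𝐐 : Subgroup G)))).symm

theorem card_stabT_cjI (n : 𝐍) (θ : IrrCharacter 𝐂) : Nat.card (stabT (cjI n θ)) = Nat.card (stabT θ) := by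
  refine Nat.card_congr ⟨fun m => ⟨n⁻¹ * m.1 * n, ?_⟩, fun m => ⟨n * m.1 * n⁻¹, ?_⟩, fun m => ?_, fun m => ?_⟩
  · have h := mem_stabT.mp m.2
    rw [mem_stabT, cjI_mul, cjI_mul, h]
    exact cjI_inv_cjI n θ
  · have h := mem_stabT.mp m.2
    rw [mem_stabT, cjI_mul, cjI_mul, cjI_inv_cjI, h]
  · apply Subtype.ext
    show n * (n⁻¹ * m.1 * n) * n⁻¹ = m.1
    group
  · apply Subtype.ext
    show n⁻¹ * (n * m.1 * n⁻¹) * n = m.1
    group

theorem eT_cjI (n : 𝐍) (θ : IrrCharacter 𝐂) : eT (cjI n θ) = eT θ := by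
  simp only [eT, card_stabT_cjI]

/-- The induced central character does not see conjugation by the normalizer. -/
theorem inducedCentralChar_cjI (n : 𝐍) (θ : IrrCharacter 𝐂) (g : G) :
    inducedCentralChar 𝐂 (cjI n θ : 𝐂 → ℂ) g = inducedCentralChar 𝐂 (θ : 𝐂 → ℂ) g := by
  classical
  simp only [inducedCentralChar]
  have hone : (cjI n θ : 𝐂 → ℂ) 1 = (θ : 𝐂 → ℂ) 1 := by
    rw [cjI_coe, map_one]
  refine finsum_mem_eq_of_bijOn (cjC n) ⟨?_, ?_, ?_⟩ ?_
  · intro h hh
    refine hh.trans ?_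
    rw [coe_cjC]
    exact isConj_iff.mpr ⟨(n : G)⁻¹, by simp⟩
  · exact (cjEquiv n).injective.injOn
  · intro h hh
    refine ⟨cjC n⁻¹ h, ?_, cjC_cjC_inv n h⟩
    refine Set.mem_setOf_eq ▸ (?_ : IsConj g ((cjC n⁻¹ h : 𝐂) : G))
    refine IsConj.trans hh ?_
    rw [coe_cjC]
    exact isConj_iff.mpr ⟨((n⁻¹ : 𝐍) : G)⁻¹, by simp⟩
  · intro h hh
    rw [hone, cjI_coe]

/-- The block induced by a block of `C_G(P)` does not change under conjugation. -/
theorem isInducedBlock_cjI (hM : IsPModular p M) {B : Set (IrrCharacter G)} {θ : IrrCharacter 𝐂}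
    (hind : IsInducedBlock M 𝐂 (blockOf M (θ : 𝐂 → ℂ)) B) (n : 𝐍) :
    IsInducedBlock M 𝐂 (blockOf M (cjI n θ : 𝐂 → ℂ)) B := by
  have := isPrime_of_modular hM
  obtain ⟨χ, hχ⟩ := IsPBlock.nonempty hind.2.1
  refine isInducedBlock_of_mem 𝐂 (isPBlock_blockOf _) hind.2.1 (self_mem_blockOf _) hχ fun g => ?_
  rw [inducedCentralChar_cjI]
  exact hind.2.2 θ (self_mem_blockOf θ) χ hχ g

/-- A block of positive defect: `P` is a defect group of it. -/
theorem isDefectGroup_of_pos (hM : IsPModular p M) (hP : Nat.card (P : Subgroup G) = p) {B : Set (IrrCharacter G)}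
    (hB : IsPBlock M B) (hd : 0 < blockDefect p B) : IsDefectGroup p M B 𝐐 := by
  classical
  have hpp : p.Prime := hp.out
  have := isPrime_of_modular hM
  obtain ⟨D, hD⟩ := IsPBlock.exists_isDefectGroup hM hB
  have hDc := card_defectGroup hM hB hD
  have hDp : IsPGroup p D := IsDefectGroup.isPGroup hD
  obtain ⟨S, hS⟩ := hDp.exists_le_sylow
  obtain ⟨g, hg⟩ := MulAction.exists_smul_eq G P S
  have hcards : Nat.card (S : Subgroup G) = p := by
    rw [S.card_eq_multiplicity, ← P.card_eq_multiplicity]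
    exact hP
  have hDS : D = S := by
    apply Subgroup.eq_of_le_of_card_ge hS
    rw [hcards, hDc]
    have h1 := Subgroup.card_dvd_of_le hS
    rw [hDc, hcards] at h1
    calc p = p ^ 1 := (pow_one p).symm
      _ ≤ p ^ blockDefect p B := Nat.pow_le_pow_right hpp.pos hd
  have hconj : conjS g (P : Subgroup G) = (S : Subgroup G) := by
    rw [← hg, Sylow.coe_subgroup_smul]
    rfl
  have h2 := IsDefectGroup.conj hD g⁻¹
  rw [hDS, ← hconj, conjS_conjS, inv_mul_cancel, conjS_one] at h2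
  exact h2

/-- A character of degree prime to `p` lies in a block of positive defect and conversely. -/
theorem not_dvd_iff_pos (hM : IsPModular p M) (hP : Nat.card (P : Subgroup G) = p) (χ : IrrCharacter G) :
    ¬ p ∣ charDegree (χ : G → ℂ) ↔ 0 < blockDefect p (blockOf M (χ : G → ℂ)) := by
  classical
  have hpp : p.Prime := hp.out
  have := isPrime_of_modular hM
  have hfac : (Nat.card G).factorization p = 1 := by
    have h1 := P.card_eq_multiplicity
    rw [hP] at h1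
    have h2 : p ^ 1 = p ^ (Nat.card G).factorization p := by rw [pow_one]; exact h1
    exact (Nat.pow_right_injective hpp.two_le h2).symm
  have hdeg0 : charDegree (χ : G → ℂ) ≠ 0 := (charDegree_pos χ.2).ne'
  constructor
  · intro h
    have h0 : (charDegree (χ : G → ℂ)).factorization p = 0 := Nat.factorization_eq_zero_of_not_dvd h
    have h1 : sInf ((fun ψ : IrrCharacter G => (charDegree (ψ : G → ℂ)).factorization p) '' blockOf M (χ : G → ℂ)) = 0 := by
      apply Nat.le_zero.mp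
      rw [← h0]
      exact Nat.sInf_le ⟨χ, self_mem_blockOf χ, rfl⟩
    rw [blockDefect, h1, hfac]
    norm_num
  · intro hd hdvd
    have h1 : ¬ p ∣ Nat.card G / charDegree (χ : G → ℂ) := by
      intro h2
      have h3 : p * p ∣ charDegree (χ : G → ℂ) * (Nat.card G / charDegree (χ : G → ℂ)) := mul_dvd_mul hdvd h2
      rw [Nat.mul_div_cancel' (charDegree_dvd_card χ.2)] at h3
      have h4 : 2 ≤ (Nat.card G).factorization p := by
        apply (hpp.pow_dvd_iff_le_factorization Nat.card_pos.ne').mp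
        rwa [pow_two]
      omega
    have h2 := (not_dvd_iff_blockOf_singleton hM χ).mp h1
    rw [blockDefect, h2, Set.image_singleton, csInf_singleton, hfac] at hd
    have h3 : 1 ≤ (charDegree (χ : G → ℂ)).factorization p := (hpp.dvd_iff_one_le_factorization hdeg0).mp hdvd
    omega

/-- All members of a block of positive defect have degree prime to `p`. -/
theorem not_dvd_of_mem_pos (hM : IsPModular p M) (hP : Nat.card (P : Subgroup G) = p) {B : Set (IrrCharacter G)}
    (hB : IsPBlock M B) (hd : 0 < blockDefect p B) {χ : IrrCharacter G} (hχ : χ ∈ B) :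
    ¬ p ∣ charDegree (χ : G → ℂ) := by
  have := isPrime_of_modular hM
  rw [not_dvd_iff_pos hM hP χ, ← blockOf_eq_of_mem hB hχ]
  exact hd

/-- A block induced from a block of `C_G(P)` has positive defect. -/
theorem pos_of_induced (hM : IsPModular p M) (hP : Nat.card (P : Subgroup G) = p) {B : Set (IrrCharacter G)}
    {b : Set (IrrCharacter 𝐂)} (hind : IsInducedBlock M 𝐂 b B) : 0 < blockDefect p B := by
  classical
  have hpp : p.Prime := hp.out
  have := isPrime_of_modular hM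
  obtain ⟨D, hD⟩ := IsPBlock.exists_isDefectGroup hM hind.1
  have h1 := IsDefectGroup.pCore_le hM hind.1 hD
  obtain ⟨E, hE, hDE⟩ := IsInducedBlock.exists_defect_le 𝐂 hM hind hD
  haveI : Fact p.Prime := hp
  have hex : ∃ u : 𝐐, u ≠ 1 := by
    haveI : Nontrivial 𝐐 := Finite.one_lt_card_iff_nontrivial.mp (by rw [hP]; exact hpp.one_lt)
    exact exists_ne 1
  obtain ⟨u, hu⟩ := hex
  have hu1 : (u : G) ≠ 1 := fun h => hu (Subtype.ext h)
  let c : 𝐂 := ⟨u, le_cent hP u.2⟩
  have hc : c ∈ D := by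
    apply h1
    apply mem_pCore_of_central
    · intro w
      exact comm_cent hP u.2 w
    · have hPg : IsPGroup p 𝐐 := P.isPGroup'
      obtain ⟨k, hk⟩ := IsPGroup.iff_orderOf.mp hPg u
      refine ⟨k, ?_⟩
      rw [← hk]
      show orderOf c = orderOf u
      rw [← Subgroup.orderOf_coe c, ← Subgroup.orderOf_coe u]
  have huE : (u : G) ∈ E := hDE ⟨c, hc, rfl⟩
  have hEc := card_defectGroup hM hind.2.1 hE
  by_contra h
  have h0 : blockDefect p B = 0 := by omega
  rw [h0, pow_zero] at hEc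
  have h3 : E = ⊥ := Subgroup.card_eq_one.mp hEc
  rw [h3] at huE
  exact hu1 (Subgroup.mem_bot.mp huE)

/-- Every `P`-trivial character determines a block of positive defect. -/
theorem exists_induced_of_PT (hM : IsPModular p M) (hP : Nat.card (P : Subgroup G) = p) (θ : IrrCharacter 𝐂) :
    ∃ B : Set (IrrCharacter G), IsPBlock M B ∧ 0 < blockDefect p B ∧ IsInducedBlock M 𝐂 (blockOf M (θ : 𝐂 → ℂ)) B := by
  have := isPrime_of_modular hM
  obtain ⟨B, hB⟩ := exists_isInducedBlock 𝐂 hM (P.isPGroup') (le_cent hP) le_rfl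
    (centralizer_le_normalizer_coe _) (isPBlock_blockOf θ)
  exact ⟨B, hB.2.1, pos_of_induced hM hP hB, hB⟩

/-- The size of a block. -/
theorem card_block (hM : IsPModular p M) (hP : Nat.card (P : Subgroup G) = p) {B : Set (IrrCharacter G)}
    (hB : IsPBlock M B) (hPB : IsDefectGroup p M B 𝐐) {θ : IrrCharacter 𝐂} (hθ : PT θ)
    (hind : IsInducedBlock M 𝐂 (blockOf M (θ : 𝐂 → ℂ)) B) :
    ∃ r : ℕ, r * eT θ = p - 1 ∧ Nat.card B = r + eT θ := by
  classical
  letI := fintypeDual (P := P) hP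
  obtain ⟨r, rep, idx, X, μ, δ, ε, hre, hr, hrep, hidx, hiff, hinj, hdis, hXc, hBeq, hδ, hε, hv, hdeg⟩ :=
    defOne_main hM hP hB hPB hθ hind (card_stabT_eq θ) card_normalizer_eq
  have hdisj : Disjoint (X : Set (IrrCharacter G)) (Set.range μ) := by
    rw [Set.disjoint_left]
    rintro χ hχ ⟨i, rfl⟩
    exact hdis _ hχ i rfl
  refine ⟨r, hre, ?_⟩
  rw [hBeq, Nat.card_coe_set_eq, Set.ncard_union_eq hdisj X.finite_toSet (Set.finite_range μ),
    Set.ncard_coe_finset, ← Nat.card_coe_set_eq (Set.range μ), Nat.card_range_of_injective hinj, hXc, add_comm]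
  simp

/-- The conjugation action. -/
@[instance_reducible] noncomputable def cjAction : MulAction 𝐍 (IrrCharacter 𝐂) where
  smul n θ := cjI n θ
  one_smul θ := cjI_one θ
  mul_smul n m θ := cjI_mul n m θ

/-- Orbit-stabilizer for the conjugation action. -/
theorem ncard_orbit_mul (θ : IrrCharacter 𝐂) :
    {θ' : IrrCharacter 𝐂 | ∃ n : 𝐍, cjI n θ = θ'}.ncard * Nat.card (stabT θ) = Nat.card 𝐍 := by
  classical
  letI := cjAction (P := P)
  have h1 := MulAction.index_stabilizer 𝐍 θ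
  have h2 : MulAction.stabilizer 𝐍 θ = stabT θ := by
    ext n
    rfl
  have h3 : MulAction.orbit 𝐍 θ = {θ' : IrrCharacter 𝐂 | ∃ n : 𝐍, cjI n θ = θ'} := by
    ext θ'
    rfl
  rw [h2, h3] at h1
  rw [← h1]
  exact Subgroup.index_mul_card _

/-- The counting formula for the characters of degree prime to `p`. -/
theorem count_formula (hM : IsPModular p M) (hP : Nat.card (P : Subgroup G) = p) :
    Nat.card {χ : IrrCharacter G // ¬ p ∣ charDegree (χ : G → ℂ)} * (Nat.card 𝐍 / Nat.card 𝐂) =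
      ∑ θ : {θ : IrrCharacter 𝐂 // PT θ}, (eT θ.1 ^ 2 + (p - 1)) := by
  classical
  have := isPrime_of_modular hM
  let BB := {B : Set (IrrCharacter G) // IsPBlock M B ∧ 0 < blockDefect p B}
  letI : Fintype BB := Fintype.ofFinite _
  let bl : {χ : IrrCharacter G // ¬ p ∣ charDegree (χ : G → ℂ)} → BB := fun χ =>
    ⟨blockOf M (χ.1 : G → ℂ), isPBlock_blockOf χ.1, (not_dvd_iff_pos hM hP χ.1).mp χ.2⟩
  have hF : Nat.card {χ : IrrCharacter G // ¬ p ∣ charDegree (χ : G → ℂ)} = ∑ B : BB, Nat.card B.1 := by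
    rw [Nat.card_congr (Equiv.sigmaFiberEquiv bl).symm, Nat.card_sigma]
    refine sum_congr rfl fun B _ => ?_
    apply Nat.card_congr
    refine ⟨fun x => ⟨x.1.1, ?_⟩, fun χ => ⟨⟨χ.1, not_dvd_of_mem_pos hM hP B.2.1 B.2.2 χ.2⟩, ?_⟩, ?_, ?_⟩
    · have h1 : (bl x.1).1 = B.1 := congrArg Subtype.val x.2
      rw [← h1]
      exact self_mem_blockOf x.1.1
    · exact Subtype.ext (blockOf_eq_of_mem B.2.1 χ.2).symm
    · intro x
      rfl
    · intro χ
      rfl
  let Φ : {θ : IrrCharacter 𝐂 // PT θ} → BB := fun θ =>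
    ⟨(exists_induced_of_PT hM hP θ.1).choose, (exists_induced_of_PT hM hP θ.1).choose_spec.1,
      (exists_induced_of_PT hM hP θ.1).choose_spec.2.1⟩
  have hΦ : ∀ θ : {θ : IrrCharacter 𝐂 // PT θ}, IsInducedBlock M 𝐂 (blockOf M (θ.1 : 𝐂 → ℂ)) (Φ θ).1 :=
    fun θ => (exists_induced_of_PT hM hP θ.1).choose_spec.2.2
  have hΦeq : ∀ (θ : {θ : IrrCharacter 𝐂 // PT θ}) (B : BB),
      IsInducedBlock M 𝐂 (blockOf M (θ.1 : 𝐂 → ℂ)) B.1 → Φ θ = B :=
    fun θ B h => Subtype.ext (IsInducedBlock.unique 𝐂 (hΦ θ) h)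
  rw [hF, Finset.sum_mul, ← Finset.sum_fiberwise (s := univ) (g := Φ)]
  refine sum_congr rfl fun B _ => ?_
  have hPB := isDefectGroup_of_pos hM hP B.2.1 B.2.2
  obtain ⟨θ₀, e, f', hθ₀, hind₀, -, -⟩ := exists_block_data hM hP B.2.1 hPB
  obtain ⟨r, hr, hcard⟩ := card_block hM hP B.2.1 hPB hθ₀ hind₀
  set A := (univ : Finset {θ : IrrCharacter 𝐂 // PT θ}).filter (fun θ => Φ θ = B) with hA
  have hAe : ∀ θ ∈ A, eT θ.1 = eT θ₀ := by
    intro θ hθ
    have h1 : Φ θ = B := (mem_filter.mp hθ).2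
    have h2 := hΦ θ
    rw [h1] at h2
    obtain ⟨n, hn⟩ := conj_of_same_induced hM hP B.2.1 hPB hθ₀ θ.2 hind₀ h2
    rw [← hn, eT_cjI]
  rw [sum_congr rfl (fun θ hθ => by rw [hAe θ hθ]), sum_const, smul_eq_mul]
  have hAO : ((A.map ⟨Subtype.val, Subtype.val_injective⟩ : Finset (IrrCharacter 𝐂)) : Set (IrrCharacter 𝐂)) =
      {θ' : IrrCharacter 𝐂 | ∃ n : 𝐍, cjI n θ₀ = θ'} := by
    ext θ'
    simp only [coe_map, Set.mem_image, mem_coe, Set.mem_setOf_eq, Function.Embedding.coeFn_mk]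
    constructor
    · rintro ⟨θ, hθ, rfl⟩
      have h1 : Φ θ = B := (mem_filter.mp hθ).2
      have h2 := hΦ θ
      rw [h1] at h2
      exact conj_of_same_induced hM hP B.2.1 hPB hθ₀ θ.2 hind₀ h2
    · rintro ⟨n, rfl⟩
      refine ⟨⟨cjI n θ₀, hθ₀.cjI n⟩, mem_filter.mpr ⟨mem_univ _, hΦeq _ _ (isInducedBlock_cjI hM hind₀ n)⟩, rfl⟩
  have hAc : A.card = {θ' : IrrCharacter 𝐂 | ∃ n : 𝐍, cjI n θ₀ = θ'}.ncard := by
    rw [← hAO, Set.ncard_coe_finset, card_map]
  have horb := ncard_orbit_mul θ₀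
  rw [← hAc, card_stabT_eq θ₀] at horb
  set f := Nat.card 𝐍 / Nat.card 𝐂 with hf
  have hfeq : Nat.card 𝐍 = f * Nat.card 𝐂 := card_normalizer_eq
  have hC0 : 0 < Nat.card 𝐂 := Nat.card_pos
  have h1 : A.card * eT θ₀ = f := by
    rw [hfeq, ← mul_assoc] at horb
    exact Nat.eq_of_mul_eq_mul_right hC0 horb
  rw [hcard, ← hr, ← h1]
  ring

end Cfsg.Agent.Lib.DefOne
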