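import Cfsg.Agent.Lib.Char.Exceptional

/-!
# The lattice argument behind blocks of defect one

Integer vectors `v i` with Gram matrix `e + δ_ij`, vanishing on a set of "regular" elements, supported
exactly on a set `B` of irreducible characters, and such that `B` has rank at least `e` on the regular
elements: then `B` splits as `X ⊔ {μ i}` with `v i = ∑_X δ χ + ε μ i`.
-/

set_option autoImplicit false
set_option linter.unusedSectionVars false
set_option linter.unusedVariables false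

namespace Cfsg.Agent.Lib.DefOne

open Cfsg Cfsg.Agent.Lib.Char Finset
open scoped ComplexConjugate

universe u

variable {G : Type u} [Group G] [Fintype G]

/-- Coefficient extraction for the abstract lemma: sum of squares at least the support size. -/
theorem card_le_sum_sq {ι : Type*} (S : Finset ι) (f : ι → ℤ) (hf : ∀ x ∈ S, f x ≠ 0) :
    (S.card : ℤ) ≤ ∑ x ∈ S, f x ^ 2 := by
  rw [Finset.card_eq_sum_ones]
  push_cast
  refine Finset.sum_le_sum fun x hx => ?_
  have h1 := hf x hx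
  have h2 : 0 < f x ^ 2 := by positivity
  omega

theorem sq_eq_one_of_sum {ι : Type*} (S : Finset ι) (f : ι → ℤ) (hf : ∀ x ∈ S, f x ≠ 0)
    (h : ∑ x ∈ S, f x ^ 2 = (S.card : ℤ)) : ∀ x ∈ S, f x = 1 ∨ f x = -1 := by
  intro x hx
  have h1 : ∑ y ∈ S, (f y ^ 2 - 1) = 0 := by
    rw [Finset.sum_sub_distrib, h]
    simp
  have h2 := (Finset.sum_eq_zero_iff_of_nonneg (fun y hy => ?_)).mp h1 x hx
  · have h3 : (f x - 1) * (f x + 1) = 0 := by linarith
    rcases mul_eq_zero.mp h3 with h4 | h4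
    · left
      omega
    · right
      omega
  · have h3 := hf y hy
    have h4 : 0 < f y ^ 2 := by positivity
    omega

/-- The case of one vector. -/
theorem abs_one {e : ℕ} (a : IrrCharacter G → ℤ) (ha : ∀ g, (∑ χ, (a χ : ℂ) * (χ : G → ℂ) g) = ∑ χ, (a χ : ℂ) * (χ : G → ℂ) g)
    (hnorm : ∑ χ, a χ ^ 2 = (e : ℤ) + 1)
    (R : G → Prop)
    (hreg : ∀ g, R g → ∑ χ, (a χ : ℂ) * (χ : G → ℂ) g = 0)
    (B : Set (IrrCharacter G))
    (hB : ∀ χ, χ ∈ B ↔ a χ ≠ 0)
    (hrank : ∀ X : Finset (IrrCharacter G), (∀ χ ∈ B, ∃ c : IrrCharacter G → ℂ, ∀ g, R g →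
      (χ : G → ℂ) g = ∑ ξ ∈ X, c ξ * (ξ : G → ℂ) g) → e ≤ X.card) :
    ∃ (X : Finset (IrrCharacter G)) (μ₀ : IrrCharacter G), μ₀ ∉ X ∧ X.card = e ∧
      B = (X : Set (IrrCharacter G)) ∪ {μ₀} ∧ (∀ χ ∈ X, a χ = 1 ∨ a χ = -1) ∧ (a μ₀ = 1 ∨ a μ₀ = -1) ∧
      ∀ χ, χ ∉ X → χ ≠ μ₀ → a χ = 0 := by
  classical
  set S : Finset (IrrCharacter G) := univ.filter (fun χ => a χ ≠ 0) with hS
  have hSmem : ∀ χ, χ ∈ S ↔ a χ ≠ 0 := fun χ => by simp [hS]
  have hsum : ∑ χ ∈ S, a χ ^ 2 = (e : ℤ) + 1 := by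
    rw [← hnorm]
    refine Finset.sum_subset (subset_univ _) fun χ _ hχ => ?_
    have : a χ = 0 := by
      by_contra h
      exact hχ ((hSmem χ).mpr h)
    rw [this]
    ring
  have hSne : S.Nonempty := by
    by_contra h
    rw [Finset.not_nonempty_iff_eq_empty] at h
    rw [h] at hsum
    simp at hsum
    omega
  obtain ⟨μ₀, hμ₀⟩ := hSne
  have hμa : a μ₀ ≠ 0 := (hSmem μ₀).mp hμ₀
  have hμc : (a μ₀ : ℂ) ≠ 0 := by exact_mod_cast hμa
  set X := S.erase μ₀ with hX
  have hsumS : ∀ g, ∑ χ ∈ S, (a χ : ℂ) * (χ : G → ℂ) g = ∑ χ, (a χ : ℂ) * (χ : G → ℂ) g := by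
    intro g
    refine Finset.sum_subset (subset_univ _) fun χ _ hχ => ?_
    have : a χ = 0 := by
      by_contra h
      exact hχ ((hSmem χ).mpr h)
    rw [this]
    simp
  have hcard : e ≤ X.card := by
    refine hrank X fun χ hχ => ?_
    by_cases hχμ : χ = μ₀
    · subst hχμ
      refine ⟨fun ξ => -(a ξ : ℂ) / (a χ : ℂ), fun g hg => ?_⟩
      have h1 := hreg g hg
      rw [← hsumS, ← Finset.add_sum_erase _ _ hμ₀] at h1
      rw [← hX] at h1
      have h2 : ∑ ξ ∈ X, -(a ξ : ℂ) / (a χ : ℂ) * (ξ : G → ℂ) g = -(∑ ξ ∈ X, (a ξ : ℂ) * (ξ : G → ℂ) g) / (a χ : ℂ) := by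
        rw [neg_div, Finset.sum_div, ← Finset.sum_neg_distrib]
        refine Finset.sum_congr rfl fun ξ _ => ?_
        ring
      rw [h2]
      field_simp
      linear_combination h1
    · refine ⟨fun ξ => if ξ = χ then 1 else 0, fun g _ => ?_⟩
      have hχX : χ ∈ X := Finset.mem_erase.mpr ⟨hχμ, (hSmem χ).mpr ((hB χ).mp hχ)⟩
      rw [Finset.sum_eq_single χ]
      · simp
      · intro b _ hb
        simp [hb]
      · intro h
        exact absurd hχX h
  have hcardS : S.card = X.card + 1 := by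
    rw [hX, Finset.card_erase_of_mem hμ₀]
    have : 0 < S.card := Finset.card_pos.mpr ⟨μ₀, hμ₀⟩
    omega
  have h1 := card_le_sum_sq S a (fun x hx => (hSmem x).mp hx)
  have hXe : X.card = e := by
    have : (X.card : ℤ) + 1 ≤ (e : ℤ) + 1 := by
      rw [← hsum]
      calc (X.card : ℤ) + 1 = (S.card : ℤ) := by rw [hcardS]; push_cast; ring
        _ ≤ _ := h1
    omega
  have hall := sq_eq_one_of_sum S a (fun x hx => (hSmem x).mp hx) (by
    rw [hsum, hcardS, hXe]
    push_cast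
    ring)
  refine ⟨X, μ₀, Finset.notMem_erase _ _, hXe, ?_, fun χ hχ => hall χ (Finset.mem_of_mem_erase hχ), hall μ₀ hμ₀, ?_⟩
  · ext χ
    rw [hB, ← hSmem]
    simp only [Set.mem_union, Finset.mem_coe, Set.mem_singleton_iff, hX, Finset.mem_erase]
    constructor
    · intro h
      by_cases h2 : χ = μ₀
      · exact Or.inr h2
      · exact Or.inl ⟨h2, h⟩
    · rintro (h | rfl)
      · exact h.2
      · exact hμ₀
  · intro χ h1 h2
    by_contra h3
    exact h1 (Finset.mem_erase.mpr ⟨h2, (hSmem χ).mpr h3⟩)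

/-- The numerical heart: `r c² + 2 E c + S = e` with `S ≥ e`. -/
theorem arith_core {r c E S e : ℤ} (hr : 2 ≤ r) (hE : E = 1 ∨ E = -1) (h : r * c ^ 2 + 2 * E * c + S = e) (hS : e ≤ S) :
    S = e ∧ r * c ^ 2 + 2 * E * c = 0 := by
  have h1 : 0 ≤ r * c ^ 2 + 2 * E * c := by
    have h2 : 0 ≤ (r - 2) * c ^ 2 := mul_nonneg (by omega) (by positivity)
    have h3 : 0 ≤ 2 * (c ^ 2 + E * c) := by
      rcases hE with rfl | rfl
      · have : 0 ≤ c * (c + 1) := by
          rcases le_or_gt c (-1) with h4 | h4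
          · exact mul_nonneg_of_nonpos_of_nonpos (by omega) (by omega)
          · exact mul_nonneg (by omega) (by omega)
        nlinarith
      · have : 0 ≤ c * (c - 1) := by
          rcases le_or_gt c 0 with h4 | h4
          · exact mul_nonneg_of_nonpos_of_nonpos (by omega) (by omega)
          · exact mul_nonneg (by omega) (by omega)
        nlinarith
    nlinarith
  constructor <;> linarith

/-- The main abstract lemma. -/
theorem defOne_abstract {r e : ℕ} (hr : 1 ≤ r) (v : Fin r → G → ℂ)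
    (hgen : ∀ i, IsGeneralizedCharacter G (v i))
    (hgram : ∀ i j, classInner (v i) (v j) = (e : ℂ) + if i = j then 1 else 0)
    (R : G → Prop) (hR1 : R 1) (hreg : ∀ i g, R g → v i g = 0)
    (B : Set (IrrCharacter G))
    (hBout : ∀ i, ∀ χ : IrrCharacter G, χ ∉ B → classInner (v i) (χ : G → ℂ) = 0)
    (hBin : ∀ χ ∈ B, ∃ i, classInner (v i) (χ : G → ℂ) ≠ 0)
    (hrank : ∀ X : Finset (IrrCharacter G), (∀ χ ∈ B, ∃ c : IrrCharacter G → ℂ, ∀ g, R g →
      (χ : G → ℂ) g = ∑ ξ ∈ X, c ξ * (ξ : G → ℂ) g) → e ≤ X.card) :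
    ∃ (X : Finset (IrrCharacter G)) (μ : Fin r → IrrCharacter G) (δ : IrrCharacter G → ℤ) (ε : ℤ),
      Function.Injective μ ∧ (∀ χ ∈ X, ∀ i, χ ≠ μ i) ∧ X.card = e ∧
      B = (X : Set (IrrCharacter G)) ∪ Set.range μ ∧ (∀ χ ∈ X, δ χ = 1 ∨ δ χ = -1) ∧ (ε = 1 ∨ ε = -1) ∧
      ∀ i, v i = fun g => ∑ χ ∈ X, (δ χ : ℂ) * (χ : G → ℂ) g + (ε : ℂ) * (μ i : G → ℂ) g := by
  classical
  have hcf : ∀ i, IsClassFunction G (v i) := by
    intro i
    obtain ⟨χ, φ, hχ, hφ, h⟩ := hgen i
    rw [h]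
    exact IsClassFunction.sub (IsCharacter.isClassFunction hχ) (IsCharacter.isClassFunction hφ)
  choose a ha ha2 using fun i => IsGeneralizedCharacter.exists_int_coeffs (hgen i)
  have hval : ∀ i g, v i g = ∑ χ, (a i χ : ℂ) * (χ : G → ℂ) g := by
    intro i g
    conv_lhs => rw [ha2 i]
    simp [Finset.sum_apply]
  have hgramZ : ∀ i j, ∑ χ, a i χ * a j χ = (e : ℤ) + if i = j then 1 else 0 := by
    intro i j
    have h3 := classInner_eq_sum_coeffs (v i) (v j) (hcf i) (hcf j)
    rw [hgram] at h3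
    simp only [ha, map_intCast] at h3
    have h4 : ((∑ χ, a i χ * a j χ : ℤ) : ℂ) = (((e : ℤ) + if i = j then 1 else 0 : ℤ) : ℂ) := by
      push_cast
      rw [h3]
    exact_mod_cast h4
  have hregZ : ∀ i g, R g → ∑ χ, (a i χ : ℂ) * (χ : G → ℂ) g = 0 := by
    intro i g hg
    rw [← hval, hreg i g hg]
  have hBa : ∀ i χ, χ ∉ B → a i χ = 0 := by
    intro i χ hχ
    have := hBout i χ hχ
    rw [ha] at this
    exact_mod_cast this
  by_cases hr1 : r = 1
  · -- one vector
    subst hr1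
    let i₀ : Fin 1 := 0
    have hall : ∀ i : Fin 1, i = i₀ := fun i => Subsingleton.elim _ _
    have hnorm : ∑ χ, a i₀ χ ^ 2 = (e : ℤ) + 1 := by
      have := hgramZ i₀ i₀
      rw [if_pos rfl] at this
      rw [← this]
      refine Finset.sum_congr rfl fun χ _ => ?_
      ring
    have hBiff : ∀ χ, χ ∈ B ↔ a i₀ χ ≠ 0 := by
      intro χ
      constructor
      · intro h
        obtain ⟨i, hi⟩ := hBin χ h
        rw [hall i, ha] at hi
        intro h0
        rw [h0] at hi
        simp at hi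
      · intro h
        by_contra h2
        exact h (hBa i₀ χ h2)
    obtain ⟨X, μ₀, hμX, hXe, hBeq, hX1, hμ1, hzero⟩ := abs_one (a i₀) (fun _ => rfl) hnorm R (hregZ i₀) B hBiff hrank
    refine ⟨X, fun _ => μ₀, a i₀, a i₀ μ₀, fun i j _ => Subsingleton.elim _ _, ?_, hXe, ?_, hX1, hμ1, ?_⟩
    · rintro χ hχ i rfl
      exact hμX hχ
    · rw [hBeq]
      simp
    · intro i
      rw [hall i]
      funext g
      rw [hval]
      have h1 : ∑ χ, (a i₀ χ : ℂ) * (χ : G → ℂ) g = ∑ χ ∈ insert μ₀ X, (a i₀ χ : ℂ) * (χ : G → ℂ) g := by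
        symm
        refine Finset.sum_subset (subset_univ _) fun χ _ hχ => ?_
        rw [Finset.mem_insert, not_or] at hχ
        rw [hzero χ hχ.2 hχ.1]
        simp
      rw [h1, Finset.sum_insert hμX, add_comm]
  -- at least two vectors
  have hr2 : 2 ≤ r := by omega
  let i₀ : Fin r := ⟨0, by omega⟩
  let i₁ : Fin r := ⟨1, by omega⟩
  have hi01 : i₀ ≠ i₁ := by
    intro h
    have := congrArg Fin.val h
    simp [i₀, i₁] at this
  let τ : Fin r → G → ℂ := fun i => v i - v i₀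
  have hτgen : ∀ i, IsGeneralizedCharacter G (τ i) := by
    intro i
    obtain ⟨χ, φ, hχ, hφ, h⟩ := hgen i
    obtain ⟨χ', φ', hχ', hφ', h'⟩ := hgen i₀
    refine ⟨χ + φ', φ + χ', IsCharacter.add hχ hφ', IsCharacter.add hφ hχ', ?_⟩
    simp only [τ]
    rw [h, h']
    abel
  have hτone : ∀ i, τ i 1 = 0 := by
    intro i
    simp only [τ, Pi.sub_apply]
    rw [hreg i 1 hR1, hreg i₀ 1 hR1, sub_self]
  have hτgram : ∀ i j, i ≠ i₀ → j ≠ i₀ → classInner (τ i) (τ j) = if i = j then 2 else 1 := by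
    intro i j hi hj
    simp only [τ]
    rw [classInner_sub_left, classInner_sub_right, classInner_sub_right, hgram, hgram, hgram, hgram,
      if_neg hi, if_neg hj.symm, if_pos rfl]
    by_cases hij : i = j
    · simp only [hij, if_true]
      ring
    · simp only [hij, if_false]
      ring
  obtain ⟨ε₀, hε₀, μf, hμf, hinj, hτ⟩ := exists_irr_of_gram i₀ τ (by
    funext g
    simp [τ]) hτgen hτone hτgram
  let μ : Fin r → IrrCharacter G := fun i => ⟨μf i, hμf i⟩
  have hμinj : Function.Injective μ := fun i j h => hinj (congrArg Subtype.val h)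
  let E : ℤ := if ε₀ = 1 then 1 else -1
  have hEε : (E : ℂ) = ε₀ := by
    rcases hε₀ with rfl | rfl
    · simp [E]
    · have : (-1 : ℂ) ≠ 1 := by norm_num
      simp [E, this]
  have hES : E = 1 ∨ E = -1 := by
    simp only [E]
    split_ifs
    · exact Or.inl rfl
    · exact Or.inr rfl
  have hEE : E * E = 1 := by
    rcases hES with h | h <;> rw [h] <;> norm_num
  -- the function `f`
  let f : IrrCharacter G → ℤ := fun χ => a i₀ χ - if χ = μ i₀ then E else 0
  have hform : ∀ i χ, a i χ = f χ + if χ = μ i then E else 0 := by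
    intro i χ
    have h1 : classInner (v i) (χ : G → ℂ) = classInner (v i₀) (χ : G → ℂ) + classInner (τ i) (χ : G → ℂ) := by
      simp only [τ]
      rw [classInner_sub_left]
      ring
    rw [hτ i, ha, ha, classInner_smul_left, classInner_sub_left, ← hEε] at h1
    have hirr : ∀ k, classInner (μf k) (χ : G → ℂ) = if χ = μ k then 1 else 0 := by
      intro k
      by_cases h2 : χ = μ k
      · rw [if_pos h2, h2]
        exact classInner_irr_self (hμf k)
      · rw [if_neg h2]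
        exact classInner_irr_of_ne (hμf k) χ.2 (fun h3 => h2 (Subtype.ext h3.symm))
    rw [hirr, hirr] at h1
    have h2 : ((a i χ : ℤ) : ℂ) = ((f χ + if χ = μ i then E else 0 : ℤ) : ℂ) := by
      rw [h1]
      simp only [f]
      split_ifs <;> push_cast <;> ring
    exact_mod_cast h2
  -- Gram relations for `f`
  have hgf : ∀ i j, ∑ χ, f χ ^ 2 + E * (f (μ i) + f (μ j)) = (e : ℤ) := by
    intro i j
    have h1 := hgramZ i j
    have h2 : ∑ χ, a i χ * a j χ = ∑ χ, (f χ ^ 2 + (if χ = μ i then E * f χ else 0) + (if χ = μ j then E * f χ else 0) +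
        (if χ = μ i then (if χ = μ j then E * E else 0) else 0)) := by
      refine Finset.sum_congr rfl fun χ _ => ?_
      rw [hform i χ, hform j χ]
      split_ifs <;> ring
    rw [h2, Finset.sum_add_distrib, Finset.sum_add_distrib, Finset.sum_add_distrib,
      Finset.sum_ite_eq' , Finset.sum_ite_eq'] at h1
    simp only [Finset.mem_univ, if_true] at h1
    have h5 : ∑ χ, (if χ = μ i then (if χ = μ j then E * E else 0) else 0) = if i = j then 1 else 0 := by
      rw [Finset.sum_ite_eq']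
      simp only [Finset.mem_univ, if_true]
      by_cases h6 : i = j
      · simp [h6, hEE]
      · rw [if_neg (fun h7 => h6 (hμinj h7)), if_neg h6]
    rw [h5] at h1
    have h6 : ∑ χ, f χ ^ 2 + E * f (μ i) + E * f (μ j) = (e : ℤ) := by linarith
    linarith
  have hEne : E ≠ 0 := by
    rcases hES with h | h <;> rw [h] <;> norm_num
  set c := f (μ i₀) with hc
  have hcall : ∀ i, f (μ i) = c := by
    intro i
    have h1 := hgf i i
    have h2 := hgf i₀ i₀
    have h3 : E * (f (μ i) + f (μ i)) = E * (c + c) := by linarith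
    have h4 := mul_left_cancel₀ hEne h3
    omega
  -- the set `X`
  let Y : Finset (IrrCharacter G) := univ.image μ
  have hYmem : ∀ χ, χ ∈ Y ↔ ∃ i, μ i = χ := fun χ => by simp [Y]
  let X : Finset (IrrCharacter G) := univ.filter (fun χ => χ ∉ Y ∧ f χ ≠ 0)
  have hXmem : ∀ χ, χ ∈ X ↔ χ ∉ Y ∧ f χ ≠ 0 := fun χ => by simp [X]
  have hYcard : Y.card = r := by
    simp only [Y]
    rw [Finset.card_image_of_injective _ hμinj]
    simp
  have hXY : Disjoint X Y := by
    rw [Finset.disjoint_left]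
    intro χ h1 h2
    exact ((hXmem χ).mp h1).1 h2
  have hfout : ∀ χ, χ ∉ X → χ ∉ Y → f χ = 0 := by
    intro χ h1 h2
    by_contra h3
    exact h1 ((hXmem χ).mpr ⟨h2, h3⟩)
  have hsplit : ∀ F : IrrCharacter G → ℤ, (∀ χ, χ ∉ X → χ ∉ Y → F χ = 0) →
      ∑ χ, F χ = ∑ χ ∈ X, F χ + ∑ i, F (μ i) := by
    intro F hF
    have h1 : ∑ χ, F χ = ∑ χ ∈ X ∪ Y, F χ := by
      symm
      refine Finset.sum_subset (subset_univ _) fun χ _ hχ => ?_
      rw [Finset.mem_union, not_or] at hχ
      exact hF χ hχ.1 hχ.2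
    rw [h1, Finset.sum_union hXY]
    congr 1
    simp only [Y]
    rw [Finset.sum_image (fun a _ b _ h => hμinj h)]
  have hsum : ∑ χ, f χ ^ 2 = ∑ χ ∈ X, f χ ^ 2 + (r : ℤ) * c ^ 2 := by
    rw [hsplit (fun χ => f χ ^ 2) (fun χ h1 h2 => by rw [hfout χ h1 h2]; ring)]
    congr 1
    simp only [hcall]
    simp
  -- membership in `B`
  have hrc : (r : ℤ) * c + E ≠ 0 := by
    intro h
    have h1 : (r : ℤ) ∣ E := ⟨-c, by linarith⟩
    have h2 : (r : ℤ) ∣ 1 := by
      rcases hES with h3 | h3 <;> rw [h3] at h1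
      · exact h1
      · simpa using h1
    have h3 := Int.le_of_dvd one_pos h2
    have : (2 : ℤ) ≤ r := by exact_mod_cast hr2
    omega
  have hYB : ∀ i, μ i ∈ B := by
    intro i
    by_contra hi
    obtain ⟨j, hj⟩ : ∃ j, j ≠ i := by
      by_cases h : i = i₀
      · exact ⟨i₁, by rw [h]; exact hi01.symm⟩
      · exact ⟨i₀, fun h' => h h'.symm⟩
    have h1 := hBa i (μ i) hi
    have h2 := hBa j (μ i) hi
    rw [hform, if_pos rfl, hcall] at h1
    rw [hform, if_neg (fun h3 => hj (hμinj h3).symm), hcall] at h2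
    rcases hES with h3 | h3 <;> rw [h3] at h1 <;> omega
  have hXB : ∀ χ ∈ X, χ ∈ B := by
    intro χ hχ
    by_contra h
    obtain ⟨h1, h2⟩ := (hXmem χ).mp hχ
    have h3 := hBa i₀ χ h
    rw [hform, if_neg (fun h4 => h1 ((hYmem χ).mpr ⟨i₀, h4.symm⟩)), add_zero] at h3
    exact h2 h3
  have hBXY : ∀ χ ∈ B, χ ∈ X ∨ χ ∈ Y := by
    intro χ hχ
    by_contra hcon
    rw [not_or] at hcon
    obtain ⟨i, hi⟩ := hBin χ hχ
    rw [ha, hform, if_neg (fun h4 => hcon.2 ((hYmem χ).mpr ⟨i, h4.symm⟩)), hfout χ hcon.1 hcon.2] at hi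
    simp at hi
  -- regular elements
  have hμreg : ∀ i j g, R g → (μ i : G → ℂ) g = (μ j : G → ℂ) g := by
    have h1 : ∀ i g, R g → (μ i : G → ℂ) g = (μ i₀ : G → ℂ) g := by
      intro i g hg
      have h2 := congrFun (hτ i) g
      simp only [τ, Pi.sub_apply, Pi.smul_apply, smul_eq_mul] at h2
      rw [hreg i g hg, hreg i₀ g hg, sub_self] at h2
      have h3 : ε₀ ≠ 0 := by
        rcases hε₀ with rfl | rfl <;> norm_num
      have h4 := (mul_eq_zero.mp h2.symm).resolve_left h3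
      exact sub_eq_zero.mp h4
    intro i j g hg
    rw [h1 i g hg, h1 j g hg]
  have hsumC : ∀ g, ∑ χ, (f χ : ℂ) * (χ : G → ℂ) g =
      ∑ χ ∈ X, (f χ : ℂ) * (χ : G → ℂ) g + ∑ i, (c : ℂ) * (μ i : G → ℂ) g := by
    intro g
    have h1 : ∑ χ, (f χ : ℂ) * (χ : G → ℂ) g = ∑ χ ∈ X ∪ Y, (f χ : ℂ) * (χ : G → ℂ) g := by
      symm
      refine Finset.sum_subset (subset_univ _) fun χ _ hχ => ?_
      rw [Finset.mem_union, not_or] at hχ
      rw [hfout χ hχ.1 hχ.2]
      simp
    rw [h1, Finset.sum_union hXY]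
    congr 1
    simp only [Y]
    rw [Finset.sum_image (fun a _ b _ h => hμinj h)]
    simp only [hcall]
  have hvform : ∀ i g, v i g = ∑ χ, (f χ : ℂ) * (χ : G → ℂ) g + (E : ℂ) * (μ i : G → ℂ) g := by
    intro i g
    rw [hval]
    have h1 : ∀ χ : IrrCharacter G, (a i χ : ℂ) * (χ : G → ℂ) g = (f χ : ℂ) * (χ : G → ℂ) g +
        if χ = μ i then (E : ℂ) * (χ : G → ℂ) g else 0 := by
      intro χ
      rw [hform]
      by_cases h2 : χ = μ i <;> simp [h2, add_mul]
    rw [Finset.sum_congr rfl (fun χ _ => h1 χ), Finset.sum_add_distrib, Finset.sum_ite_eq']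
    simp
  have hregX : ∀ g, R g → ∑ χ ∈ X, (f χ : ℂ) * (χ : G → ℂ) g + (((r : ℤ) * c + E : ℤ) : ℂ) * (μ i₀ : G → ℂ) g = 0 := by
    intro g hg
    have h1 := hreg i₀ g hg
    rw [hvform, hsumC] at h1
    simp only [hμreg _ i₀ g hg] at h1
    rw [Finset.sum_const, Finset.card_univ, Fintype.card_fin, nsmul_eq_mul] at h1
    push_cast
    linear_combination h1
  have hXcard : e ≤ X.card := by
    refine hrank X fun χ hχ => ?_
    rcases hBXY χ hχ with h1 | h1
    · refine ⟨fun ξ => if ξ = χ then 1 else 0, fun g _ => ?_⟩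
      rw [Finset.sum_eq_single χ]
      · simp
      · intro b _ hb
        simp [hb]
      · intro h
        exact absurd h1 h
    · obtain ⟨i, rfl⟩ := (hYmem χ).mp h1
      have hrcC : (((r : ℤ) * c + E : ℤ) : ℂ) ≠ 0 := by exact_mod_cast hrc
      refine ⟨fun ξ => -(f ξ : ℂ) / (((r : ℤ) * c + E : ℤ) : ℂ), fun g hg => ?_⟩
      have h2 := hregX g hg
      have h3 : ∑ ξ ∈ X, -(f ξ : ℂ) / (((r : ℤ) * c + E : ℤ) : ℂ) * (ξ : G → ℂ) g =
          -(∑ ξ ∈ X, (f ξ : ℂ) * (ξ : G → ℂ) g) / (((r : ℤ) * c + E : ℤ) : ℂ) := by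
        rw [neg_div, Finset.sum_div, ← Finset.sum_neg_distrib]
        refine Finset.sum_congr rfl fun ξ _ => ?_
        ring
      rw [h3, hμreg i i₀ g hg]
      field_simp
      linear_combination h2
  -- the numbers
  have hrZ : (2 : ℤ) ≤ (r : ℤ) := by exact_mod_cast hr2
  have hmain := hgf i₀ i₀
  rw [hsum] at hmain
  have hXS : (X.card : ℤ) ≤ ∑ χ ∈ X, f χ ^ 2 := card_le_sum_sq X f (fun x hx => ((hXmem x).mp hx).2)
  have heX : (e : ℤ) ≤ X.card := by exact_mod_cast hXcard
  obtain ⟨hS, hnum⟩ := arith_core (r := (r : ℤ)) (c := c) (E := E) (S := ∑ χ ∈ X, f χ ^ 2) (e := e) hrZ hES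
    (by rw [← hmain, hcall]; ring) (by linarith)
  have hXe : X.card = e := by
    have : (X.card : ℤ) = e := by linarith
    exact_mod_cast this
  have hX1 : ∀ χ ∈ X, f χ = 1 ∨ f χ = -1 :=
    sq_eq_one_of_sum X f (fun x hx => ((hXmem x).mp hx).2) (by rw [hS, hXe])
  have hBeq : B = (X : Set (IrrCharacter G)) ∪ Set.range μ := by
    ext χ
    constructor
    · intro h
      rcases hBXY χ h with h1 | h1
      · exact Or.inl h1
      · obtain ⟨i, rfl⟩ := (hYmem χ).mp h1
        exact Or.inr ⟨i, rfl⟩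
    · rintro (h | ⟨i, rfl⟩)
      · exact hXB χ h
      · exact hYB i
  have hXne : ∀ χ ∈ X, ∀ i, χ ≠ μ i := by
    intro χ hχ i h
    exact ((hXmem χ).mp hχ).1 ((hYmem χ).mpr ⟨i, h.symm⟩)
  -- two cases for `c`
  by_cases hc0 : c = 0
  · refine ⟨X, μ, f, E, hμinj, hXne, hXe, hBeq, hX1, hES, ?_⟩
    intro i
    funext g
    rw [hvform, hsumC, hc0]
    simp
  · have h1 : (r : ℤ) * c = -(2 * E) := by
      have : c * ((r : ℤ) * c + 2 * E) = 0 := by linarith
      rcases mul_eq_zero.mp this with h2 | h2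
      · exact absurd h2 hc0
      · linarith
    have h2 : (r : ℤ) ∣ 2 := by
      have h3 : (r : ℤ) ∣ -(2 * E) := ⟨c, h1.symm⟩
      rcases hES with h4 | h4 <;> rw [h4] at h3
      · simpa using h3
      · simpa using h3
    have h3 : (r : ℤ) ≤ 2 := Int.le_of_dvd (by norm_num) h2
    have hr2' : r = 2 := by omega
    have hcE : c = -E := by
      rw [hr2'] at h1
      push_cast at h1
      linarith
    subst hr2'
    refine ⟨X, μ ∘ Equiv.swap i₀ i₁, f, -E, hμinj.comp (Equiv.injective _), ?_, hXe, ?_, hX1, ?_, ?_⟩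
    · intro χ hχ i
      exact hXne χ hχ _
    · rw [hBeq, (Equiv.swap i₀ i₁).surjective.range_comp]
    · rcases hES with h | h <;> rw [h]
      · right; rfl
      · left; norm_num
    · intro i
      funext g
      rw [hvform, hsumC, hcE]
      have hsumFin : ∀ F : Fin 2 → ℂ, ∑ j, F j = F i + F (Equiv.swap i₀ i₁ i) := by
        intro F
        have hi : i = i₀ ∨ i = i₁ := by
          have h5 : i.val < 2 := i.isLt
          rcases (by omega : i.val = 0 ∨ i.val = 1) with h6 | h6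
          · left
            exact Fin.ext h6
          · right
            exact Fin.ext h6
        rcases hi with rfl | rfl
        · rw [Equiv.swap_apply_left]
          exact Fin.sum_univ_two F
        · rw [Equiv.swap_apply_right, add_comm]
          exact Fin.sum_univ_two F
      rw [hsumFin]
      simp only [Function.comp_apply]
      push_cast
      ring

end Cfsg.Agent.Lib.DefOne
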