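import Cfsg.Agent.Lib.DefOne.Gram
import Cfsg.Agent.Lib.Blocks.AdExtend
import Cfsg.Agent.Lib.Blocks.Extended
import Cfsg.Agent.Lib.Blocks.NormalCentral
import Cfsg.Agent.Lib.Blocks.DefectZero

/-!
# Block theory for the characters of the centralizer of a Sylow subgroup of prime order
-/

set_option autoImplicit false
set_option linter.unusedSectionVars false
set_option linter.unusedVariables false

namespace Cfsg.Agent.Lib.DefOne

open Cfsg Cfsg.Agent.Lib.Char Cfsg.Agent.Lib.Blocks Finset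
open scoped ComplexConjugate

universe u

attribute [local instance] fintypeOfSubgroup

variable {G : Type u} [Group G] [Fintype G] {p : ℕ} [hp : Fact p.Prime] {P : Sylow p G} {M : Ideal AlgInt}

local notation "𝐐" => ((P : Subgroup G))
local notation "𝐂" => (Subgroup.centralizer (((P : Subgroup G)) : Set G))
local notation "𝐍" => (Subgroup.normalizer (((P : Subgroup G)) : Set G))

theorem LL_pow (hP : Nat.card (P : Subgroup G) = p) (a : 𝐐 →* ℂˣ) (c : 𝐂) : (((LL hP a c : ℂˣ) : ℂ)) ^ p = 1 := by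
  obtain ⟨u, y, rfl, hu, hy⟩ := exists_decomp hP c
  rw [map_mul, LL_reg hP a y hy, mul_one, LL_mem hP a u hu, ← Units.val_pow_eq_pow_val, ← map_pow]
  have h1 : (⟨u, hu⟩ : 𝐐) ^ p = 1 := Subtype.ext (by simpa using pow_p_of_mem hP hu)
  rw [h1]
  simp

theorem LL_sub_one (hM : IsPModular p M) (hP : Nat.card (P : Subgroup G) = p) (a : 𝐐 →* ℂˣ) (c : 𝐂) :
    MemLocalIdeal M (((LL hP a c : ℂˣ) : ℂ) - 1) := by
  have := isPrime_of_modular hM
  have hpp : p.Prime := hp.out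
  apply ad_eq_one_of_pow_prime hM (ad_root_local hpp.ne_zero (LL_pow hP a c))
  rw [LL_pow, sub_self]
  exact memLocalIdeal_zero

theorem tw_one_val (hP : Nat.card (P : Subgroup G) = p) (a : 𝐐 →* ℂˣ) (θ : IrrCharacter 𝐂) :
    (tw hP a θ : 𝐂 → ℂ) 1 = (θ : 𝐂 → ℂ) 1 := by
  rw [tw_coe, map_one]
  simp

theorem tw_sameBlock (hM : IsPModular p M) (hP : Nat.card (P : Subgroup G) = p) (a : 𝐐 →* ℂˣ) (θ : IrrCharacter 𝐂) :
    SameBlock M (tw hP a θ : 𝐂 → ℂ) (θ : 𝐂 → ℂ) := by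
  have := isPrime_of_modular hM
  intro c
  have h2 : centralChar (tw hP a θ : 𝐂 → ℂ) c - centralChar (θ : 𝐂 → ℂ) c =
      (((LL hP a c : ℂˣ) : ℂ) - 1) * centralChar (θ : 𝐂 → ℂ) c := by
    simp only [centralChar]
    rw [tw_one_val, tw_coe]
    ring
  rw [h2]
  exact MemLocalIdeal.mul_right (LL_sub_one hM hP a c) (centralChar_memLocalRing θ c)

/-- The block of a `P`-trivial character contains only one `P`-trivial character. -/
theorem PT_unique (hM : IsPModular p M) (hP : Nat.card (P : Subgroup G) = p) {θ θ' : IrrCharacter 𝐂} (hθ : PT θ) (hθ' : PT θ')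
    (h : SameBlock M (θ : 𝐂 → ℂ) (θ' : 𝐂 → ℂ)) : θ = θ' := by
  classical
  have := isPrime_of_modular hM
  have hpp : p.Prime := hp.out
  let P₀ : Subgroup 𝐂 := 𝐐.subgroupOf 𝐂
  have hcardP₀ : Nat.card P₀ = p := by
    rw [Nat.card_congr (Subgroup.subgroupOfEquivOfLe (le_cent hP)).toEquiv, hP]
  have hP₀ : IsPGroup p P₀ := IsPGroup.of_card (n := 1) (by rw [hcardP₀, pow_one])
  have hG : P₀ ⊔ Subgroup.centralizer (P₀ : Set 𝐂) = ⊤ := by
    rw [eq_top_iff]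
    intro c _
    apply Subgroup.mem_sup_right
    rw [Subgroup.mem_centralizer_iff]
    intro u hu
    exact (comm_cent hP (Subgroup.mem_subgroupOf.mp hu) c).symm
  have hB : IsPBlock M (blockOf M (θ : 𝐂 → ℂ)) := isPBlock_blockOf θ
  have hD : IsDefectGroup p M (blockOf M (θ : 𝐂 → ℂ)) P₀ := by
    obtain ⟨D', hD'⟩ := IsPBlock.exists_isDefectGroup hM hB
    have hle : P₀ ≤ D' := by
      intro x hx
      refine IsDefectGroup.pCore_le hM hB hD' (mem_pCore_of_central (fun w => comm_cent hP (Subgroup.mem_subgroupOf.mp hx) w) ?_)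
      obtain ⟨k, hk⟩ := IsPGroup.iff_orderOf.mp hP₀ ⟨x, hx⟩
      exact ⟨k, (Subgroup.orderOf_mk x hx).symm.trans hk⟩
    have hD'p := IsDefectGroup.isPGroup hD'
    have hc1 : Nat.card D' ≤ p := by
      have h3 : IsPGroup p (D'.map 𝐂.subtype) := hD'p.map _
      obtain ⟨S, hS⟩ := h3.exists_le_sylow
      have h4 : Nat.card (D'.map 𝐂.subtype) ≤ Nat.card S := Subgroup.card_le_of_le hS
      rw [Subgroup.card_map_of_injective Subtype.val_injective] at h4
      have h5 : Nat.card S = p := by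
        rw [Sylow.card_eq_multiplicity, ← Sylow.card_eq_multiplicity P]
        exact hP
      omega
    have heq : P₀ = D' := Subgroup.eq_of_le_of_card_ge hle (by rw [hcardP₀]; exact hc1)
    rw [heq]
    exact hD'
  haveI hP₀n : P₀.Normal := ⟨fun n hn g => by
    have h1 := (comm_cent hP (Subgroup.mem_subgroupOf.mp hn) g).eq
    have h2 : g * n * g⁻¹ = n := by rw [h1]; group
    rw [h2]
    exact hn⟩
  obtain ⟨θ₀, Ψ, hθ₀, hker, -, -, -, huniq⟩ := normal_central_block_struct hM hP₀ hG hB hD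
  have h1 : θ = θ₀ := huniq θ (self_mem_blockOf θ) (fun x hx => hθ x (Subgroup.mem_subgroupOf.mp hx))
  have h2 : θ' = θ₀ := huniq θ' h (fun x hx => hθ' x (Subgroup.mem_subgroupOf.mp hx))
  rw [h1, h2]

theorem tw_mem_blockOf_iff (hM : IsPModular p M) (hP : Nat.card (P : Subgroup G) = p) {θ θ' : IrrCharacter 𝐂} (hθ : PT θ) (hθ' : PT θ')
    (a : 𝐐 →* ℂˣ) : tw hP a θ' ∈ blockOf M (θ : 𝐂 → ℂ) ↔ θ' = θ := by
  have := isPrime_of_modular hM
  constructor
  · intro h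
    have h1 : SameBlock M (θ : 𝐂 → ℂ) (θ' : 𝐂 → ℂ) := SameBlock.trans' h (tw_sameBlock hM hP a θ')
    exact (PT_unique hM hP hθ hθ' h1).symm
  · rintro rfl
    exact SameBlock.symm' (tw_sameBlock hM hP a θ')

/-- The restriction of the section function to a twisted character. -/
theorem classInner_sec (hP : Nat.card (P : Subgroup G) = p) {θ : IrrCharacter 𝐂} (hθ : PT θ) (χ : IrrCharacter G) (a : 𝐐 →* ℂˣ)
    (x : 𝐐) :
    classInner (fun c : 𝐂 => (χ : G → ℂ) ((x : G) * c)) (tw hP a θ : 𝐂 → ℂ) =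
      linVal a x * mu (χ : G → ℂ) (tw hP a θ : 𝐂 → ℂ) := by
  have hx' : (x : G) ∈ 𝐂 := le_cent hP x.2
  have key : ∑ c : 𝐂, (χ : G → ℂ) ((x : G) * c) * conj ((tw hP a θ : 𝐂 → ℂ) c) =
      linVal a x * ∑ c : 𝐂, (χ : G → ℂ) c * conj ((tw hP a θ : 𝐂 → ℂ) c) := by
    rw [mul_sum]
    refine Fintype.sum_equiv (Equiv.mulLeft (⟨x, hx'⟩ : 𝐂)) (fun c : 𝐂 => (χ : G → ℂ) ((x : G) * c) * conj ((tw hP a θ : 𝐂 → ℂ) c))
      (fun c : 𝐂 => linVal a x * ((χ : G → ℂ) c * conj ((tw hP a θ : 𝐂 → ℂ) c))) fun c => ?_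
    simp only [Equiv.coe_mulLeft]
    have h1 : (tw hP a θ : 𝐂 → ℂ) (⟨x, hx'⟩ * c) = linVal a x * (tw hP a θ : 𝐂 → ℂ) c := by
      rw [tw_coe, tw_coe, map_mul, LL_mem hP a ⟨x, hx'⟩ x.2, hθ.mul_left hP (u := ⟨x, hx'⟩) x.2]
      simp only [Units.val_mul, linVal]
      ring
    have h2 : linVal a x * conj (linVal a x) = 1 := by
      rw [← linVal_inv, ← linVal_mul, mul_inv_cancel, linVal_one]
    have h3 : ((⟨x, hx'⟩ * c : 𝐂) : G) = (x : G) * c := rfl
    rw [h1, map_mul, h3]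
    linear_combination (-((χ : G → ℂ) ((x : G) * c) * conj ((tw hP a θ : 𝐂 → ℂ) c))) * h2
  simp only [classInner, mu]
  rw [key]
  ring

/-- The second main theorem for a variable copy of the centralizer. -/
theorem second_var (hM : IsPModular p M) {x : G} (hx : ∃ k, orderOf x = p ^ k)
    {B : Set (IrrCharacter G)} (hB : IsPBlock M B) {χ : IrrCharacter G} (hχ : χ ∈ B)
    {C : Subgroup G} (hC : C = Subgroup.centralizer ({x} : Set G)) [Fintype C]
    {b : Set (IrrCharacter C)} (hb : IsPBlock M b)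
    (hnot : ¬ IsInducedBlock M C b B) {y : C} (hy : ¬ p ∣ orderOf y) :
    blockPart b (fun c : C => (χ : G → ℂ) (x * (c : G))) y = 0 := by
  subst hC
  exact second_main_blockPart hM hx hB hχ hb hnot hy

theorem sec_isClassFunction (hP : Nat.card (P : Subgroup G) = p) (χ : IrrCharacter G) (x : 𝐐) :
    IsClassFunction 𝐂 (fun c : 𝐂 => (χ : G → ℂ) ((x : G) * c)) := by
  intro c g
  have h1 : (x : G) * ((g * c * g⁻¹ : 𝐂) : G) = (g : G) * ((x : G) * c) * (g : G)⁻¹ := by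
    have h2 := (Subgroup.mem_centralizer_iff.mp g.2 x x.2)
    simp only [Subgroup.coe_mul, Subgroup.coe_inv]
    calc (x : G) * ((g : G) * c * (g : G)⁻¹) = ((x : G) * g) * c * (g : G)⁻¹ := by group
      _ = (g * (x : G)) * c * (g : G)⁻¹ := by rw [h2]
      _ = _ := by group
  simp only [h1]
  exact IsCharacter.isClassFunction (IsIrrCharacter.isCharacter χ.2) _ _

/-- The multiplicities of the twists of a `P`-trivial character, Fourier transformed. -/
theorem sum_twist_zero (hM : IsPModular p M) (hP : Nat.card (P : Subgroup G) = p) [Fintype (𝐐 →* ℂˣ)]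
    {θ : IrrCharacter 𝐂} (hθ : PT θ) (χ : IrrCharacter G)
    (hnot : ¬ IsInducedBlock M 𝐂 (blockOf M (θ : 𝐂 → ℂ)) (blockOf M (χ : G → ℂ))) {x : 𝐐} (hx : x ≠ 1) :
    ∑ a : 𝐐 →* ℂˣ, linVal a x * mu (χ : G → ℂ) (tw hP a θ : 𝐂 → ℂ) = 0 := by
  classical
  have := isPrime_of_modular hM
  have hpp : p.Prime := hp.out
  have hx1 : (x : G) ≠ 1 := fun h => hx (Subtype.ext h)
  have hCx : 𝐂 = Subgroup.centralizer ({(x : G)} : Set G) :=
    (Small.BD.centralizer_singleton_eq (p := p) 𝐐 hP x.2 hx1).symm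
  have hordx : ∃ k, orderOf (x : G) = p ^ k := by
    have hPg : IsPGroup p 𝐐 := P.isPGroup'
    obtain ⟨k, hk⟩ := IsPGroup.iff_orderOf.mp hPg x
    exact ⟨k, by rw [← hk, Subgroup.orderOf_coe]⟩
  have h1 := second_var hM hordx (isPBlock_blockOf χ) (self_mem_blockOf χ) hCx (isPBlock_blockOf θ) hnot (y := 1) (by simpa using hpp.one_lt.ne')
  rw [blockPart_eq_projOp _ (sec_isClassFunction hP χ x), projOp_eq_sum _ (sec_isClassFunction hP χ x), sum_irr_cent hP] at h1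
  rw [Finset.sum_eq_single (⟨θ, hθ⟩ : {θ : IrrCharacter 𝐂 // PT θ})] at h1
  · have h2 : ∀ a : 𝐐 →* ℂˣ, indic (blockOf M (θ : 𝐂 → ℂ)) (tw hP a θ) *
        (classInner (fun c : 𝐂 => (χ : G → ℂ) ((x : G) * c)) (tw hP a θ : 𝐂 → ℂ) * (tw hP a θ : 𝐂 → ℂ) 1) =
        (θ : 𝐂 → ℂ) 1 * (linVal a x * mu (χ : G → ℂ) (tw hP a θ : 𝐂 → ℂ)) := by
      intro a
      rw [indic_apply_of_mem ((tw_mem_blockOf_iff hM hP hθ hθ a).mpr rfl), one_mul, classInner_sec hP hθ, tw_one_val]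
      ring
    simp only [h2] at h1
    rw [← mul_sum] at h1
    exact (mul_eq_zero.mp h1).resolve_left (IsIrrCharacter.apply_one_ne_zero θ.2)
  · intro θ' _ hne
    refine Finset.sum_eq_zero fun a _ => ?_
    have h3 : tw hP a θ'.1 ∉ blockOf M (θ : 𝐂 → ℂ) := fun h =>
      hne (Subtype.ext ((tw_mem_blockOf_iff hM hP hθ θ'.2 a).mp h))
    rw [indic_apply_of_notMem h3, zero_mul]
  · intro h
    exact absurd (Finset.mem_univ _) h

/-- The multiplicities are constant if the block of the character does not induce the block of `χ`. -/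
theorem mu_const (hM : IsPModular p M) (hP : Nat.card (P : Subgroup G) = p) [Fintype (𝐐 →* ℂˣ)]
    {θ : IrrCharacter 𝐂} (hθ : PT θ) (χ : IrrCharacter G)
    (hnot : ¬ IsInducedBlock M 𝐂 (blockOf M (θ : 𝐂 → ℂ)) (blockOf M (χ : G → ℂ))) (a : 𝐐 →* ℂˣ) :
    mu (χ : G → ℂ) (tw hP a θ : 𝐂 → ℂ) = mu (χ : G → ℂ) (θ : 𝐂 → ℂ) := by
  classical
  let m : (𝐐 →* ℂˣ) → ℂ := fun a => mu (χ : G → ℂ) (tw hP a θ : 𝐂 → ℂ)
  have hc : (Nat.card 𝐐 : ℂ) ≠ 0 := by exact_mod_cast Nat.card_pos.ne'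
  have key : ∀ a₀, (Nat.card 𝐐 : ℂ) * m a₀ = ∑ a, m a := by
    intro a₀
    have h1 : ∑ x : 𝐐, (∑ a, linVal a x * m a) * conj (linVal a₀ x) = ∑ a, m a := by
      rw [Finset.sum_eq_single (1 : 𝐐)]
      · simp
      · intro x _ hx
        rw [sum_twist_zero hM hP hθ χ hnot hx, zero_mul]
      · intro h
        exact absurd (Finset.mem_univ _) h
    rw [← h1]
    simp only [sum_mul]
    rw [sum_comm]
    have h2 : ∀ a : 𝐐 →* ℂˣ, ∑ x : 𝐐, linVal a x * m a * conj (linVal a₀ x) = (if a = a₀ then (Nat.card 𝐐 : ℂ) else 0) * m a := by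
      intro a
      rw [← sum_linVal_mul_conj a a₀, sum_mul]
      refine sum_congr rfl fun x _ => ?_
      ring
    simp only [h2, ite_mul, zero_mul, Finset.sum_ite_eq', Finset.mem_univ, if_true]
  have h1 := key a
  have h2 := key 1
  have h3 : m 1 = mu (χ : G → ℂ) (θ : 𝐂 → ℂ) := by
    simp only [m]
    rw [tw_one]
  rw [← h3]
  exact mul_left_cancel₀ hc (h1.trans h2.symm)

theorem inner_vv_eq_zero (hM : IsPModular p M) (hP : Nat.card (P : Subgroup G) = p) [Fintype (𝐐 →* ℂˣ)]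
    {θ : IrrCharacter 𝐂} (hθ : PT θ) (χ : IrrCharacter G)
    (hnot : ¬ IsInducedBlock M 𝐂 (blockOf M (θ : 𝐂 → ℂ)) (blockOf M (χ : G → ℂ))) (a : 𝐐 →* ℂˣ) :
    classInner (vv hP a θ) (χ : G → ℂ) = 0 := by
  rw [vv_inner, mu_const hM hP hθ χ hnot, sub_self]

/-- The extended first main theorem for a variable copy of `P C_G(P)`. -/
theorem extended_var (hM : IsPModular p M) {Q : Subgroup G} {B : Set (IrrCharacter G)} (hB : IsPBlock M B)
    (hPB : IsDefectGroup p M B Q) {L : Subgroup G} (hL : L = Q ⊔ Subgroup.centralizer (Q : Set G))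
    {b b' : Set (IrrCharacter L)} (hb : IsInducedBlock M L b B) (hb' : IsInducedBlock M L b' B) :
    ∃ n ∈ Subgroup.normalizer (Q : Set G), ∀ θ ∈ b, ∃ θ' ∈ b', ∀ x : L, ∀ hx : n * (x : G) * n⁻¹ ∈ L,
      (θ' : L → ℂ) x = (θ : L → ℂ) ⟨n * (x : G) * n⁻¹, hx⟩ := by
  subst hL
  exact extended_first_main_ii hM hB hPB hb hb'

/-- Two `P`-trivial characters whose blocks induce the same block are conjugate. -/
theorem conj_of_same_induced (hM : IsPModular p M) (hP : Nat.card (P : Subgroup G) = p) {B : Set (IrrCharacter G)} (hB : IsPBlock M B)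
    (hPB : IsDefectGroup p M B 𝐐) {θ θ' : IrrCharacter 𝐂} (hθ : PT θ) (hθ' : PT θ')
    (h1 : IsInducedBlock M 𝐂 (blockOf M (θ : 𝐂 → ℂ)) B) (h2 : IsInducedBlock M 𝐂 (blockOf M (θ' : 𝐂 → ℂ)) B) :
    ∃ n : 𝐍, cjI n θ = θ' := by
  have := isPrime_of_modular hM
  have hL : 𝐂 = 𝐐 ⊔ Subgroup.centralizer (𝐐 : Set G) := (sup_eq_right.mpr (le_cent hP)).symm
  obtain ⟨n, hn, h⟩ := extended_var hM hB hPB hL h1 h2
  obtain ⟨θ'', hθ'', h3⟩ := h θ (self_mem_blockOf θ)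
  let n' : 𝐍 := ⟨n, hn⟩
  have h4 : θ'' = cjI n'⁻¹ θ := by
    apply Subtype.ext
    funext c
    rw [cjI_coe]
    have h5 : ((cjC n'⁻¹ c : 𝐂) : G) = n * (c : G) * n⁻¹ := by
      rw [coe_cjC]
      simp [n']
    have h6 : n * (c : G) * n⁻¹ ∈ 𝐂 := by rw [← h5]; exact (cjC n'⁻¹ c).2
    rw [h3 c h6]
    have h7 : (⟨n * (c : G) * n⁻¹, h6⟩ : 𝐂) = cjC n'⁻¹ c := Subtype.ext h5.symm
    rw [h7]
  refine ⟨n'⁻¹, ?_⟩
  rw [← h4]
  have h5 : PT θ'' := by
    rw [h4]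
    exact hθ.cjI _
  exact (PT_unique hM hP hθ' h5 hθ'').symm

end Cfsg.Agent.Lib.DefOne
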