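import Cfsg.Agent.Lib.DefOne.Deg
import Cfsg.Agent.Lib.Char.FRamA

/-!
# The irreducible characters of `N_G(P)` over a `P`-trivial character of the centralizer
-/

set_option autoImplicit false
set_option linter.unusedSectionVars false
set_option linter.unusedVariables false

namespace Cfsg.Agent.Lib.DefOne

open Cfsg Cfsg.Agent.Lib.Char Cfsg.Agent.Lib.Blocks Finset
open scoped ComplexConjugate

universe u

attribute [local instance] fintypeOfSubgroup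

variable {G : Type u} [Group G] [Fintype G] {p : ℕ} [hp : Fact p.Prime] {P : Sylow p G}

local notation "𝐐" => ((P : Subgroup G))
local notation "𝐂" => (Subgroup.centralizer (((P : Subgroup G)) : Set G))
local notation "𝐍" => (Subgroup.normalizer (((P : Subgroup G)) : Set G))

theorem finite_dual_of_comm {A : Type*} [Group A] [Finite A] (hcomm : ∀ a b : A, a * b = b * a) : Finite (A →* ℂˣ) := by
  letI : CommGroup A := { (inferInstance : Group A) with mul_comm := hcomm }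
  exact Finite.of_equiv A (CommGroup.monoidHom_mulEquiv_of_hasEnoughRootsOfUnity A ℂ).some.toEquiv.symm

theorem isCyclic_mulAut_of_prime (hP : Nat.card (P : Subgroup G) = p) : IsCyclic (MulAut 𝐐) := by
  haveI hcyc : IsCyclic 𝐐 := isCyclic_of_prime_card hP
  have e := IsCyclic.mulAutMulEquiv 𝐐
  rw [hP] at e
  exact isCyclic_of_surjective e.symm.toMonoidHom e.symm.surjective

theorem exists_chars_over (hP : Nat.card (P : Subgroup G) = p) {θ : IrrCharacter 𝐂} (hθ : PT θ) {e : ℕ}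
    (hTe : Nat.card (stabT θ) = e * Nat.card 𝐂) :
    ∃ Ω : Fin e → 𝐍 → ℂ, (∀ i, IsIrrCharacter 𝐍 (Ω i)) ∧ (∀ i (z : 𝐍), (z : G) ∈ 𝐐 → Ω i z = Ω i 1) ∧
      (∀ i j, i ≠ j → Ω i ≠ Ω j) ∧
      (∀ i (φ : G → ℂ), IsClassFunction G φ → ∑ c : 𝐂, φ c * Ω i (toN c) =
        (Ω i 1 / (θ : 𝐂 → ℂ) 1) * ∑ c : 𝐂, φ c * (θ : 𝐂 → ℂ) c) := by
  classical
  have hle : 𝐂 ≤ 𝐍 := fun c hc => centralizer_le_normalizer_coe _ hc
  let N₁ : Subgroup 𝐍 := 𝐂.subgroupOf 𝐍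
  have hN₁mem : ∀ n : 𝐍, n ∈ N₁ ↔ (n : G) ∈ 𝐂 := fun n => Subgroup.mem_subgroupOf
  haveI hN₁n : N₁.Normal := ⟨fun n hn g => by
    rw [hN₁mem] at hn ⊢
    have h1 := (cjC g⁻¹ ⟨n, hn⟩ : 𝐂).2
    rw [coe_cjC] at h1
    simpa using h1⟩
  let e₁ : N₁ ≃* 𝐂 := Subgroup.subgroupOfEquivOfLe hle
  let θ₁ : N₁ → ℂ := (θ : 𝐂 → ℂ) ∘ e₁
  have hθ₁ : IsIrrCharacter N₁ θ₁ := isIrrCharacter_comp_mulEquiv e₁ θ.2
  have hθ₁v : ∀ (m : N₁) (hm : ((m : 𝐍) : G) ∈ 𝐂), θ₁ m = (θ : 𝐂 → ℂ) ⟨m, hm⟩ := fun m hm => rfl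
  let T : Subgroup 𝐍 := inertia N₁ θ₁
  have hTmem : ∀ n : 𝐍, n ∈ T ↔ n ∈ stabT θ := by
    intro n
    show Cfsg.Agent.Lib.Char.conjFun N₁ n θ₁ = θ₁ ↔ cjI n θ = θ
    constructor
    · intro h
      apply Subtype.ext
      funext c
      rw [cjI_coe]
      have hcN : (c : G) ∈ 𝐍 := hle c.2
      have h2 := congrFun h ⟨⟨c, hcN⟩, (hN₁mem _).mpr c.2⟩
      simp only [Cfsg.Agent.Lib.Char.conjFun_apply] at h2
      exact h2
    · intro h
      funext m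
      simp only [Cfsg.Agent.Lib.Char.conjFun_apply]
      have h2 := congrArg (fun ξ : IrrCharacter 𝐂 => (ξ : 𝐂 → ℂ) ⟨m, (hN₁mem _).mp m.2⟩) h
      simp only [cjI_coe] at h2
      exact h2
  have hTeq : T = stabT θ := Subgroup.ext hTmem
  have hcardT : Nat.card T = e * Nat.card 𝐂 := by
    rw [← hTe]
    exact Nat.card_congr (MulEquiv.subgroupCongr hTeq).toEquiv
  have hNT : N₁ ≤ T := le_inertia_of_irr hθ₁
  let M₁ : Subgroup T := N₁.subgroupOf T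
  haveI hM₁n : M₁.Normal := Subgroup.normal_subgroupOf
  let e₂ : M₁ ≃* N₁ := Subgroup.subgroupOfEquivOfLe hNT
  let θ₂ : M₁ → ℂ := θ₁ ∘ e₂
  have hθ₂ : IsIrrCharacter M₁ θ₂ := isIrrCharacter_comp_mulEquiv e₂ hθ₁
  have hinv : ∀ (g : T) (m : M₁), θ₂ ⟨g * m * g⁻¹, Subgroup.Normal.conj_mem inferInstance _ m.2 g⟩ = θ₂ m := by
    intro g m
    have h1 : Cfsg.Agent.Lib.Char.conjFun N₁ ((g : 𝐍)⁻¹) θ₁ = θ₁ := T.inv_mem g.2
    have h2 := congrFun h1 (e₂ m)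
    simp only [Cfsg.Agent.Lib.Char.conjFun_apply, inv_inv] at h2
    exact h2
  -- the quotient is cyclic
  have hcyc : IsCyclic (T ⧸ M₁) := by
    haveI := isCyclic_mulAut_of_prime hP
    let f : T →* MulAut 𝐐 := (Subgroup.normalizerMonoidHom 𝐐).comp T.subtype
    have hker : ∀ t : T, f t = 1 ↔ t ∈ M₁ := by
      intro t
      show Subgroup.normalizerMonoidHom 𝐐 (t : 𝐍) = 1 ↔ _
      have h1 : ((t : 𝐍) ∈ (Subgroup.normalizerMonoidHom 𝐐).ker) ↔ Subgroup.normalizerMonoidHom 𝐐 (t : 𝐍) = 1 := MonoidHom.mem_ker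
      rw [← h1, Subgroup.normalizerMonoidHom_ker]
      rfl
    let f' : T ⧸ M₁ →* MulAut 𝐐 := QuotientGroup.lift M₁ f (fun x hx => (hker x).mpr hx)
    have hf' : Function.Injective f' := by
      rw [injective_iff_map_eq_one]
      intro a ha
      obtain ⟨t, rfl⟩ := QuotientGroup.mk_surjective a
      exact (QuotientGroup.eq_one_iff t).mpr ((hker t).mp ha)
    exact isCyclic_of_injective f' hf'
  have hcommA : ∀ a b : T ⧸ M₁, a * b = b * a := fun a b => hcyc.commGroup.mul_comm a b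
  obtain ⟨χ₀, hχ₀, hχ₀res⟩ := FRam.exists_ext_of_cyclic M₁ hθ₂ hinv hcyc
  have hχ₀c := IsIrrCharacter.isCharacter hχ₀
  have hresχ₀ : Cfsg.Agent.Lib.Char.resFun M₁ χ₀ = θ₂ := by
    funext m
    exact hχ₀res m
  have hθres : IsIrrCharacter M₁ (Cfsg.Agent.Lib.Char.resFun M₁ χ₀) := by
    rw [hresχ₀]
    exact hθ₂
  -- the dual
  letI : Fintype (T ⧸ M₁) := Fintype.ofFinite _
  haveI : Finite ((T ⧸ M₁) →* ℂˣ) := finite_dual_of_comm hcommA
  letI : Fintype ((T ⧸ M₁) →* ℂˣ) := Fintype.ofFinite _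
  have hcardA : Nat.card ((T ⧸ M₁) →* ℂˣ) = e := by
    rw [card_dual hcommA]
    have h1 := Subgroup.card_eq_card_quotient_mul_card_subgroup M₁
    have h2 : Nat.card M₁ = Nat.card 𝐂 := (Nat.card_congr e₂.toEquiv).trans (Nat.card_congr e₁.toEquiv)
    rw [hcardT, h2] at h1
    exact (Nat.eq_of_mul_eq_mul_right (Nat.card_pos (α := 𝐂)) h1).symm
  let eqv : Fin e ≃ ((T ⧸ M₁) →* ℂˣ) := (Finite.equivFinOfCardEq hcardA).symm
  let β : Fin e → (T ⧸ M₁) → ℂ := fun i => linVal (eqv i)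
  have hβ : ∀ i, IsIrrCharacter (T ⧸ M₁) (β i) := fun i => linVal_isIrr _
  let ψ : Fin e → T → ℂ := fun i g => inflate M₁ (β i) g * χ₀ g
  have hψ : ∀ i, IsIrrCharacter T (ψ i) := fun i => isIrrCharacter_gallagher M₁ hχ₀c hθres (hβ i)
  -- values on the centralizer
  have hψv : ∀ i (t : T) (ht : ((t : 𝐍) : G) ∈ 𝐂), ψ i t = (θ : 𝐂 → ℂ) ⟨t, ht⟩ := by
    intro i t ht
    have h1 : t ∈ M₁ := Subgroup.mem_subgroupOf.mpr ((hN₁mem _).mpr ht)
    have h2 : ((t : T) : T ⧸ M₁) = 1 := (QuotientGroup.eq_one_iff t).mpr h1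
    simp only [ψ, inflate, β, h2]
    rw [linVal_one, one_mul]
    exact hχ₀res ⟨t, h1⟩
  have hover : ∀ i, classInner (resTo N₁ hNT (ψ i)) θ₁ ≠ 0 := by
    intro i
    have h1 : resTo N₁ hNT (ψ i) = θ₁ := by
      funext m
      exact hψv i ⟨m, hNT m.2⟩ ((hN₁mem _).mp m.2)
    rw [h1, classInner_irr_self hθ₁]
    exact one_ne_zero
  let Ω : Fin e → 𝐍 → ℂ := fun i => indFun T (ψ i)
  have hΩirr : ∀ i, IsIrrCharacter 𝐍 (Ω i) := fun i => isIrrCharacter_indFun_over hθ₁ (hψ i) (hover i)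
  -- values of `Ω` on the centralizer
  have hstar : ∀ i (c : 𝐂), Ω i (toN c) = (Nat.card T : ℂ)⁻¹ * ∑ x : 𝐍, (θ : 𝐂 → ℂ) (cjC x c) := by
    intro i c
    simp only [Ω]
    rw [indFun_apply]
    congr 1
    refine Finset.sum_congr rfl fun x _ => ?_
    have h1 : ((x⁻¹ * toN c * x : 𝐍) : G) ∈ 𝐂 := by
      have h2 := (cjC x c : 𝐂).2
      rw [coe_cjC] at h2
      exact h2
    have h2 : x⁻¹ * toN c * x ∈ T := hNT ((hN₁mem _).mpr h1)
    rw [extendByZero_of_mem _ _ h2, hψv i ⟨_, h2⟩ h1]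
    congr 1
  have hone : ∀ i, Ω i 1 = (Nat.card T : ℂ)⁻¹ * ((Nat.card 𝐍 : ℂ) * (θ : 𝐂 → ℂ) 1) := by
    intro i
    have h1 : toN (1 : 𝐂) = 1 := rfl
    rw [← h1, hstar]
    congr 1
    simp only [map_one]
    rw [Finset.sum_const, Finset.card_univ, nsmul_eq_mul, Nat.card_eq_fintype_card]
  refine ⟨Ω, hΩirr, ?_, ?_, ?_⟩
  · intro i z hz
    have hzc : (z : G) ∈ 𝐂 := le_cent hP hz
    have h1 : z = toN (P := P) ⟨(z : G), hzc⟩ := rfl
    rw [h1, hstar, hone]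
    congr 1
    have h2 : ∀ x : 𝐍, (θ : 𝐂 → ℂ) (cjC x ⟨(z : G), hzc⟩) = (θ : 𝐂 → ℂ) 1 := by
      intro x
      apply hθ
      rw [coe_cjC]
      have h3 := (Subgroup.mem_normalizer_iff.mp (𝐍.inv_mem x.2) (z : G)).mp hz
      simpa using h3
    rw [Finset.sum_congr rfl (fun x _ => h2 x), Finset.sum_const, Finset.card_univ, nsmul_eq_mul, Nat.card_eq_fintype_card]
  · intro i j hij h
    apply hij
    have h1 : ψ i = ψ j := eq_of_indFun_eq_over hθ₁ (hψ i) (hψ j) (hover i) (hover j) h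
    have h2 := classInner_gallagher M₁ hχ₀c hθres (β i) (β j)
    have h3 : classInner (fun g => inflate M₁ (β i) g * χ₀ g) (fun g => inflate M₁ (β j) g * χ₀ g) = 1 := by
      change classInner (ψ i) (ψ j) = 1
      rw [← h1]
      exact classInner_irr_self (hψ i)
    rw [h3] at h2
    by_contra hne
    have h4 : β i ≠ β j := fun h5 => hne (eqv.injective (linVal_injective h5))
    rw [classInner_irr_of_ne (hβ i) (hβ j) h4] at h2
    exact one_ne_zero h2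
  · intro i φ hφ
    have h1 : ∀ x : 𝐍, ∑ c : 𝐂, φ c * (θ : 𝐂 → ℂ) (cjC x c) = ∑ c : 𝐂, φ c * (θ : 𝐂 → ℂ) c := by
      intro x
      refine Fintype.sum_equiv (cjEquiv x) _ _ fun c => ?_
      show φ c * (θ : 𝐂 → ℂ) (cjC x c) = φ (cjC x c) * (θ : 𝐂 → ℂ) (cjC x c)
      congr 1
      rw [coe_cjC]
      have h2 := hφ (c : G) ((x : G)⁻¹)
      rw [inv_inv] at h2
      exact h2.symm
    simp only [hstar, mul_left_comm (φ _), ← mul_sum]
    have h2 : ∑ c : 𝐂, φ c * ∑ x : 𝐍, (θ : 𝐂 → ℂ) (cjC x c) = (Nat.card 𝐍 : ℂ) * ∑ c : 𝐂, φ c * (θ : 𝐂 → ℂ) c := by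
      simp only [mul_sum]
      rw [sum_comm, sum_congr rfl (fun x _ => h1 x), sum_const, card_univ, nsmul_eq_mul, Nat.card_eq_fintype_card, mul_sum]
    rw [h2, hone]
    have hθ1 := IsIrrCharacter.apply_one_ne_zero θ.2
    field_simp

end Cfsg.Agent.Lib.DefOne
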