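import Cfsg.Agent.Lib.DefOne.Count
import Cfsg.Agent.Lib.Char.Ito
import Cfsg.Agent.Lib.Known.IrrCount

/-!
# The number of characters of degree prime to `p` when `p` divides the group order once
-/

set_option autoImplicit false
set_option linter.unusedSectionVars false
set_option linter.unusedVariables false

namespace Cfsg.Agent.Lib.DefOne

open Cfsg Cfsg.Agent.Lib.Char Cfsg.Agent.Lib.Blocks Finset
open scoped ComplexConjugate

universe u

attribute [local instance] fintypeOfSubgroup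

variable {G : Type u} [Group G] [Fintype G] {p : ℕ} [hp : Fact p.Prime] (P : Sylow p G) {M : Ideal AlgInt}

local notation "𝐐" => ((P : Subgroup G))
local notation "𝐂" => (Subgroup.centralizer (((P : Subgroup G)) : Set G))
local notation "𝐍" => (Subgroup.normalizer (((P : Subgroup G)) : Set G))

/-- The Sylow subgroup inside its normalizer. -/
def sylN : Sylow p 𝐍 := P.subtype Subgroup.le_normalizer

local notation "𝐏'" => ((sylN P : Sylow p 𝐍) : Subgroup 𝐍)
local notation "𝐂'" => (Subgroup.centralizer ((((sylN P : Sylow p 𝐍) : Subgroup 𝐍)) : Set 𝐍))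
local notation "𝐍'" => (Subgroup.normalizer ((((sylN P : Sylow p 𝐍) : Subgroup 𝐍)) : Set 𝐍))

theorem mem_sylN {x : 𝐍} : x ∈ 𝐏' ↔ (x : G) ∈ 𝐐 := by
  simp only [sylN, Sylow.coe_subtype]
  exact Subgroup.mem_subgroupOf

theorem card_sylN (hP : Nat.card (P : Subgroup G) = p) : Nat.card 𝐏' = p := by
  refine Eq.trans ?_ hP
  exact Nat.card_congr ⟨fun x => ⟨x.1.1, (mem_sylN P).mp x.2⟩,
    fun x => ⟨⟨x.1, Subgroup.le_normalizer x.2⟩, (mem_sylN P).mpr x.2⟩, fun _ => rfl, fun _ => rfl⟩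

/-- The centralizers agree. -/
def kap : 𝐂' ≃* 𝐂 where
  toFun c := ⟨c.1.1, by
    rw [Subgroup.mem_centralizer_iff]
    intro u hu
    have h1 := Subgroup.mem_centralizer_iff.mp c.2 ⟨u, Subgroup.le_normalizer hu⟩ ((mem_sylN P).mpr hu)
    exact congrArg Subtype.val h1⟩
  invFun c := ⟨⟨c.1, centralizer_le_normalizer_coe _ c.2⟩, by
    rw [Subgroup.mem_centralizer_iff]
    intro u hu
    apply Subtype.ext
    exact Subgroup.mem_centralizer_iff.mp c.2 (u : G) ((mem_sylN P).mp hu)⟩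
  left_inv _ := rfl
  right_inv _ := rfl
  map_mul' _ _ := rfl

@[simp] theorem coe_kap (c : 𝐂') : ((kap P c : 𝐂) : G) = ((c : 𝐍) : G) := rfl

/-- Everything in the normalizer normalizes the Sylow subgroup. -/
theorem mem_N' (n : 𝐍) : n ∈ 𝐍' := by
  rw [Subgroup.mem_normalizer_iff]
  intro h
  rw [mem_sylN, mem_sylN]
  exact Subgroup.mem_normalizer_iff.mp n.2 (h : G)

/-- The normalizers agree. -/
def nuu : 𝐍' ≃* 𝐍 where
  toFun n := n.1
  invFun n := ⟨n, mem_N' P n⟩
  left_inv _ := rfl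
  right_inv _ := rfl
  map_mul' _ _ := rfl

theorem kap_cjC (n : 𝐍') (c : 𝐂') : kap P (cjC n c) = cjC (nuu P n) (kap P c) := rfl

/-- Transport of characters. -/
noncomputable def trI (θ : IrrCharacter 𝐂) : IrrCharacter 𝐂' :=
  ⟨(θ : 𝐂 → ℂ) ∘ kap P, isIrrCharacter_comp_mulEquiv (kap P) θ.2⟩

theorem trI_coe (θ : IrrCharacter 𝐂) (c : 𝐂') : (trI P θ : 𝐂' → ℂ) c = (θ : 𝐂 → ℂ) (kap P c) := rfl

theorem trI_PT {θ : IrrCharacter 𝐂} : PT (trI P θ) ↔ PT θ := by
  constructor
  · intro h x hx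
    have h1 := h ((kap P).symm x) ((mem_sylN P).mpr hx)
    simpa [trI_coe] using h1
  · intro h x hx
    have h1 := h (kap P x) ((mem_sylN P).mp hx)
    simpa [trI_coe] using h1

/-- The stabilizers agree. -/
theorem mem_stabT_tr {θ : IrrCharacter 𝐂} (n : 𝐍') : n ∈ stabT (trI P θ) ↔ nuu P n ∈ stabT θ := by
  rw [mem_stabT, mem_stabT]
  constructor
  · intro h
    apply Subtype.ext
    funext c
    have h1 := congrArg (fun ξ : IrrCharacter 𝐂' => (ξ : 𝐂' → ℂ) ((kap P).symm c)) h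
    simp only [cjI_coe, trI_coe, kap_cjC, MulEquiv.apply_symm_apply] at h1
    rw [cjI_coe]
    exact h1
  · intro h
    apply Subtype.ext
    funext c
    have h1 := congrArg (fun ξ : IrrCharacter 𝐂 => (ξ : 𝐂 → ℂ) (kap P c)) h
    simp only [cjI_coe] at h1
    rw [cjI_coe, trI_coe, trI_coe, kap_cjC]
    exact h1

theorem card_stabT_tr (θ : IrrCharacter 𝐂) : Nat.card (stabT (trI P θ)) = Nat.card (stabT θ) :=
  Nat.card_congr ⟨fun n => ⟨nuu P n.1, (mem_stabT_tr P n.1).mp n.2⟩,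
    fun n => ⟨(nuu P).symm n.1, (mem_stabT_tr P _).mpr (by simpa using n.2)⟩,
    fun n => Subtype.ext (by simp), fun n => Subtype.ext (by simp)⟩

theorem eT_tr (θ : IrrCharacter 𝐂) : eT (trI P θ) = eT θ := by
  simp only [eT, card_stabT_tr, Nat.card_congr (kap P).toEquiv]

/-- The transport on `P`-trivial characters. -/
noncomputable def trPT : {θ : IrrCharacter 𝐂 // PT θ} ≃ {θ : IrrCharacter 𝐂' // PT θ} where
  toFun θ := ⟨trI P θ.1, (trI_PT P).mpr θ.2⟩
  invFun θ := ⟨⟨(θ.1 : 𝐂' → ℂ) ∘ (kap P).symm, isIrrCharacter_comp_mulEquiv (kap P).symm θ.1.2⟩, by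
    apply (trI_PT P).mp
    convert θ.2 using 1
    apply Subtype.ext
    funext c
    simp [trI_coe]⟩
  left_inv θ := by
    apply Subtype.ext
    apply Subtype.ext
    funext c
    simp [trI_coe]
  right_inv θ := by
    apply Subtype.ext
    apply Subtype.ext
    funext c
    simp [trI_coe]

/-- The number of characters of degree prime to `p` equals the class number of the normalizer. -/
theorem card_not_dvd_eq (hM : IsPModular p M) (hP : Nat.card (P : Subgroup G) = p) :
    Nat.card {χ : IrrCharacter G // ¬ p ∣ charDegree (χ : G → ℂ)} = Nat.card (ConjClasses 𝐍) := by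
  classical
  have hpp : p.Prime := hp.out
  have h1 := count_formula hM hP
  have h2 := count_formula hM (card_sylN P hP)
  have h3 : ∑ θ : {θ : IrrCharacter 𝐂' // PT θ}, (eT θ.1 ^ 2 + (p - 1)) =
      ∑ θ : {θ : IrrCharacter 𝐂 // PT θ}, (eT θ.1 ^ 2 + (p - 1)) := by
    refine Fintype.sum_equiv (trPT P).symm _ _ fun θ => ?_
    have h5 : eT θ.1 = eT ((trPT P).symm θ).1 := by
      have h6 : (trPT P ((trPT P).symm θ)).1 = trI P ((trPT P).symm θ).1 := rfl
      rw [← eT_tr P, ← h6, Equiv.apply_symm_apply]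
    rw [h5]
  have h4 : Nat.card 𝐍' / Nat.card 𝐂' = Nat.card 𝐍 / Nat.card 𝐂 := by
    rw [Nat.card_congr (kap P).toEquiv, Nat.card_congr (nuu P).toEquiv]
  rw [h3, h4, ← h1] at h2
  have hf0 : 0 < Nat.card 𝐍 / Nat.card 𝐂 := by
    apply Nat.pos_of_ne_zero
    intro h
    have h5 : Nat.card 𝐍 = _ := card_normalizer_eq (P := P)
    rw [h, zero_mul] at h5
    exact Nat.card_pos.ne' h5
  have h5 := Nat.eq_of_mul_eq_mul_right hf0 h2
  rw [← h5]
  apply Cfsg.Agent.Lib.Known.card_irr_filter_of_forall (fun d => ¬ p ∣ d)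
  intro ψ h6
  haveI hnorm : (𝐏').Normal := by
    refine ⟨fun x hx g => ?_⟩
    exact (Subgroup.mem_normalizer_iff.mp (mem_N' P g) x).mp hx
  have h7 := charDegree_dvd_index_of_abelian_normal ψ.2 (𝐏') (fun a ha b hb =>
    Cfsg.Agent.Lib.Small.BD.comm_of_prime (p := p) (𝐏') (card_sylN P hP) a ha b hb)
  exact (sylN P).not_dvd_index (h6.trans h7)

end Cfsg.Agent.Lib.DefOne
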