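import Cfsg.Agent.Lib.DefOne.BlockPart

/-!
# The structure of a block with defect group of prime order, given the rank condition
-/

set_option autoImplicit false
set_option linter.unusedSectionVars false
set_option linter.unusedVariables false

namespace Cfsg.Agent.Lib.DefOne

open Cfsg Cfsg.Agent.Lib.Char Cfsg.Agent.Lib.Blocks Finset
open scoped ComplexConjugate

universe u

attribute [local instance] fintypeOfSubgroup

variable {G : Type u} [Group G] [Fintype G] {p : ℕ} [hp : Fact p.Prime] {P : Sylow p G} {M : Ideal AlgInt}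

local notation "𝐐" => ((P : Subgroup G))
local notation "𝐂" => (Subgroup.centralizer (((P : Subgroup G)) : Set G))
local notation "𝐍" => (Subgroup.normalizer (((P : Subgroup G)) : Set G))

theorem cjI_one_val (n : 𝐍) (θ : IrrCharacter 𝐂) : (cjI n θ : 𝐂 → ℂ) 1 = (θ : 𝐂 → ℂ) 1 := by
  rw [cjI_coe, map_one]

/-- The degree of `χ` through the centralizer. -/
theorem degree_decomp (hP : Nat.card (P : Subgroup G) = p) [Fintype (𝐐 →* ℂˣ)] (χ : IrrCharacter G) :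
    (χ : G → ℂ) 1 = ∑ θ : {θ : IrrCharacter 𝐂 // PT θ}, (θ.1 : 𝐂 → ℂ) 1 *
      ∑ a : 𝐐 →* ℂˣ, mu (χ : G → ℂ) (tw hP a θ.1 : 𝐂 → ℂ) := by
  have h1 := classFunction_eq_sum (fun c : 𝐂 => (χ : G → ℂ) c)
    (IsCharacter.isClassFunction (isCharacter_resFun 𝐂 (IsIrrCharacter.isCharacter χ.2)))
  have h2 := congrFun h1 1
  simp only [Finset.sum_apply, Pi.smul_apply, smul_eq_mul, Subgroup.coe_one] at h2
  rw [h2]
  change ∑ ξ : IrrCharacter 𝐂, mu (χ : G → ℂ) (ξ : 𝐂 → ℂ) * (ξ : 𝐂 → ℂ) 1 = _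
  rw [sum_irr_cent hP]
  refine sum_congr rfl fun θ _ => ?_
  rw [mul_sum]
  refine sum_congr rfl fun a _ => ?_
  rw [tw_one_val, mul_comm]

/-- The sum of the inner products of `χ` with the `vv`. -/
noncomputable def Aval (hP : Nat.card (P : Subgroup G) = p) [Fintype (𝐐 →* ℂˣ)] (χ : IrrCharacter G) (θ : IrrCharacter 𝐂) : ℂ :=
  ∑ a : 𝐐 →* ℂˣ, classInner (vv hP a θ) (χ : G → ℂ)

theorem sum_mu_tw (hP : Nat.card (P : Subgroup G) = p) [Fintype (𝐐 →* ℂˣ)] (χ : IrrCharacter G) (θ : IrrCharacter 𝐂) :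
    ∑ a : 𝐐 →* ℂˣ, mu (χ : G → ℂ) (tw hP a θ : 𝐂 → ℂ) = (p : ℂ) * mu (χ : G → ℂ) (θ : 𝐂 → ℂ) + Aval hP χ θ := by
  have hcomm : ∀ a b : 𝐐, a * b = b * a := fun a b => Subtype.ext (Small.BD.comm_of_prime (p := p) 𝐐 hP a a.2 b b.2)
  have hcard : ((Finset.univ : Finset (𝐐 →* ℂˣ)).card : ℂ) = p := by
    rw [Finset.card_univ, ← Nat.card_eq_fintype_card, card_dual hcomm, hP]
  simp only [Aval, vv_inner]
  rw [Finset.sum_sub_distrib, Finset.sum_const, nsmul_eq_mul, hcard]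
  ring

theorem Aval_cjI (hP : Nat.card (P : Subgroup G) = p) [Fintype (𝐐 →* ℂˣ)] (χ : IrrCharacter G) (n : 𝐍) (θ : IrrCharacter 𝐂) :
    Aval hP χ (cjI n θ) = Aval hP χ θ := by
  simp only [Aval]
  let e : (𝐐 →* ℂˣ) ≃ (𝐐 →* ℂˣ) :=
    { toFun := twist 𝐐 n
      invFun := twist 𝐐 n⁻¹
      left_inv := twist_inv_twist 𝐐 n
      right_inv := twist_twist_inv 𝐐 n }
  refine (Fintype.sum_equiv e _ _ fun a => ?_).symm
  show classInner (vv hP a θ) (χ : G → ℂ) = classInner (vv hP (twist 𝐐 n a) (cjI n θ)) (χ : G → ℂ)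
  rw [vv_cjI]

open scoped Classical in
/-- A sum over an orbit of the normalizer on the `P`-trivial characters. -/
theorem sum_orbit {θ : IrrCharacter 𝐂} (hθ : PT θ) (F : {θ : IrrCharacter 𝐂 // PT θ} → ℂ)
    (hinv : ∀ (n : 𝐍) (t : {θ : IrrCharacter 𝐂 // PT θ}), F ⟨cjI n t.1, t.2.cjI n⟩ = F t)
    (hout : ∀ t : {θ : IrrCharacter 𝐂 // PT θ}, (¬ ∃ n : 𝐍, cjI n θ = t.1) → F t = 0) :
    (Nat.card (stabT θ) : ℂ) * ∑ t, F t = (Nat.card 𝐍 : ℂ) * F ⟨θ, hθ⟩ := by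
  let g : 𝐍 → {θ : IrrCharacter 𝐂 // PT θ} := fun n => ⟨cjI n θ, hθ.cjI n⟩
  have h1 : ∑ n : 𝐍, F (g n) = (Nat.card 𝐍 : ℂ) * F ⟨θ, hθ⟩ := by
    simp only [g]
    rw [sum_congr rfl (fun n _ => hinv n ⟨θ, hθ⟩), sum_const, card_univ, nsmul_eq_mul, Nat.card_eq_fintype_card]
  rw [← h1, ← Finset.sum_fiberwise univ g (fun n => F (g n)), mul_sum]
  refine sum_congr rfl fun t _ => ?_
  by_cases ht : ∃ n : 𝐍, cjI n θ = t.1
  · obtain ⟨n₀, hn₀⟩ := ht
    have h2 : ∀ n ∈ univ.filter (fun n => g n = t), F (g n) = F t := fun n hn => by rw [(mem_filter.mp hn).2]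
    rw [sum_congr rfl h2, sum_const, nsmul_eq_mul]
    congr 2
    have e : {n : 𝐍 // g n = t} ≃ stabT θ :=
      (Equiv.mulLeft n₀⁻¹).subtypeEquiv (by
        intro n
        have hgt : g n = t ↔ cjI n θ = cjI n₀ θ := by
          rw [hn₀]
          exact Subtype.ext_iff
        rw [hgt]
        show _ ↔ cjI (n₀⁻¹ * n) θ = θ
        rw [cjI_mul]
        constructor
        · intro h
          rw [h, cjI_inv_cjI]
        · intro h
          have := congrArg (cjI n₀) h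
          rwa [cjI_cjI_inv] at this)
    rw [← Nat.card_congr e]
    exact Nat.subtype_card (univ.filter fun n => g n = t) (fun x => by simp)
  · rw [hout t ht, mul_zero]
    refine (sum_eq_zero fun n hn => ?_).symm
    exact absurd ⟨n, congrArg Subtype.val (mem_filter.mp hn).2⟩ ht

/-- Characters outside the block are orthogonal to the `vv`. -/
theorem inner_out (hM : IsPModular p M) (hP : Nat.card (P : Subgroup G) = p) [Fintype (𝐐 →* ℂˣ)]
    {B : Set (IrrCharacter G)} (hB : IsPBlock M B) {θ : IrrCharacter 𝐂}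
    (hind : IsInducedBlock M 𝐂 (blockOf M (θ : 𝐂 → ℂ)) B) (hθ : PT θ) {χ : IrrCharacter G} (hχ : χ ∉ B) (a : 𝐐 →* ℂˣ) :
    classInner (vv hP a θ) (χ : G → ℂ) = 0 := by
  have := isPrime_of_modular hM
  refine inner_vv_eq_zero hM hP hθ χ (fun h => hχ ?_) a
  have h3 : B = blockOf M (χ : G → ℂ) := IsInducedBlock.unique 𝐂 hind h
  rw [h3]
  exact self_mem_blockOf χ

theorem inner_other (hM : IsPModular p M) (hP : Nat.card (P : Subgroup G) = p) [Fintype (𝐐 →* ℂˣ)]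
    {B : Set (IrrCharacter G)} (hB : IsPBlock M B) (hPB : IsDefectGroup p M B 𝐐)
    {θ : IrrCharacter 𝐂} (hθ : PT θ) (hind : IsInducedBlock M 𝐂 (blockOf M (θ : 𝐂 → ℂ)) B)
    {χ : IrrCharacter G} (hχ : χ ∈ B) {θ' : IrrCharacter 𝐂} (hθ' : PT θ') (a : 𝐐 →* ℂˣ)
    (h : ¬ ∃ n : 𝐍, cjI n θ = θ') : classInner (vv hP a θ') (χ : G → ℂ) = 0 := by
  have := isPrime_of_modular hM
  refine inner_vv_eq_zero hM hP hθ' χ (fun h2 => h ?_) a
  rw [← blockOf_eq_of_mem hB hχ] at h2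
  exact conj_of_same_induced hM hP hB hPB hθ hθ' hind h2

/-- The degree formula: the sum over all characters. -/
theorem degree_formula_aux (hM : IsPModular p M) (hP : Nat.card (P : Subgroup G) = p) [Fintype (𝐐 →* ℂˣ)]
    {B : Set (IrrCharacter G)} (hB : IsPBlock M B) (hPB : IsDefectGroup p M B 𝐐)
    {θ : IrrCharacter 𝐂} (hθ : PT θ) (hind : IsInducedBlock M 𝐂 (blockOf M (θ : 𝐂 → ℂ)) B)
    {χ : IrrCharacter G} (hχ : χ ∈ B) :
    (Nat.card (stabT θ) : ℂ) * (χ : G → ℂ) 1 = (Nat.card (stabT θ) : ℂ) * ((p : ℂ) * ∑ t : {θ : IrrCharacter 𝐂 // PT θ}, (t.1 : 𝐂 → ℂ) 1 * mu (χ : G → ℂ) (t.1 : 𝐂 → ℂ)) +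
      (Nat.card 𝐍 : ℂ) * ((θ : 𝐂 → ℂ) 1 * Aval hP χ θ) := by
  have h1 := degree_decomp hP χ
  simp only [sum_mu_tw hP χ] at h1
  have h2 := sum_orbit hθ (fun t => (t.1 : 𝐂 → ℂ) 1 * Aval hP χ t.1) (fun n t => by
    rw [cjI_one_val, Aval_cjI]) (fun t ht => by
    have h3 : Aval hP χ t.1 = 0 := Finset.sum_eq_zero fun a _ =>
      inner_other hM hP hB hPB hθ hind hχ t.2 a ht
    rw [h3, mul_zero])
  rw [h1]
  simp only [mul_add, Finset.sum_add_distrib]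
  rw [h2, mul_sum (a := (p : ℂ))]
  congr 2
  refine sum_congr rfl fun t _ => ?_
  ring

/-- Values of the `Aval` through orbit representatives. -/
theorem Aval_eq_sum_rep (hP : Nat.card (P : Subgroup G) = p) [Fintype (𝐐 →* ℂˣ)] (χ : IrrCharacter G) {θ : IrrCharacter 𝐂} {e r : ℕ}
    (hTe : Nat.card (stabT θ) = e * Nat.card 𝐂) {rep : Fin r → (𝐐 →* ℂˣ)} {idx : (𝐐 →* ℂˣ) → Fin r}
    (hrep : ∀ i, rep i ≠ 1) (hidx : ∀ i, idx (rep i) = i)
    (hiff : ∀ ψ ψ', ψ ≠ 1 → ((ψ' ≠ 1 ∧ idx ψ' = idx ψ) ↔ ∃ n ∈ stabT θ, twist 𝐐 n ψ = ψ'))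
    (horb : ∀ i, (by classical exact (Finset.univ.filter (fun ψ : 𝐐 →* ℂˣ => ψ ≠ 1 ∧ idx ψ = i)).card) * Nat.card 𝐂 = Nat.card (stabT θ)) :
    Aval hP χ θ = (e : ℂ) * ∑ i, classInner (vv hP (rep i) θ) (χ : G → ℂ) := by
  classical
  have hC0 : Nat.card 𝐂 ≠ 0 := (Nat.card_pos (α := 𝐂)).ne'
  have h0 : classInner (vv hP 1 θ) (χ : G → ℂ) = 0 := by
    rw [vv_inner, tw_one, sub_self]
  have h1 : Aval hP χ θ = ∑ a ∈ univ.filter (fun a : 𝐐 →* ℂˣ => a ≠ 1), classInner (vv hP a θ) (χ : G → ℂ) := by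
    rw [Aval]
    symm
    apply Finset.sum_subset (filter_subset _ _)
    intro a _ ha
    have : a = 1 := by
      by_contra h
      exact ha (mem_filter.mpr ⟨mem_univ _, h⟩)
    rw [this, h0]
  rw [h1, ← Finset.sum_fiberwise _ idx, mul_sum]
  refine sum_congr rfl fun i _ => ?_
  have h2 : ∀ a ∈ (univ.filter (fun a : 𝐐 →* ℂˣ => a ≠ 1)).filter (fun a => idx a = i),
      classInner (vv hP a θ) (χ : G → ℂ) = classInner (vv hP (rep i) θ) (χ : G → ℂ) := by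
    intro a ha
    obtain ⟨ha1, ha2⟩ := mem_filter.mp ha
    have ha1' := (mem_filter.mp ha1).2
    obtain ⟨n, hn, rfl⟩ := (hiff (rep i) a (hrep i)).mp ⟨ha1', by rw [ha2, hidx]⟩
    rw [vv_stab hP hn]
  rw [sum_congr rfl h2, sum_const, nsmul_eq_mul, filter_filter]
  congr 2
  have h3 := horb i
  rw [hTe] at h3
  have h4 : (univ.filter (fun ψ : 𝐐 →* ℂˣ => ψ ≠ 1 ∧ idx ψ = i)).card = e := by
    refine Nat.eq_of_mul_eq_mul_right (Nat.pos_of_ne_zero hC0) ?_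
    convert h3
  exact h4

/-- The structure theorem, given the rank condition. -/
theorem defOne_structure (hM : IsPModular p M) (hP : Nat.card (P : Subgroup G) = p) [Fintype (𝐐 →* ℂˣ)]
    {B : Set (IrrCharacter G)} (hB : IsPBlock M B) (hPB : IsDefectGroup p M B 𝐐)
    {θ : IrrCharacter 𝐂} (hθ : PT θ) (hind : IsInducedBlock M 𝐂 (blockOf M (θ : 𝐂 → ℂ)) B)
    {e r f : ℕ} (hTe : Nat.card (stabT θ) = e * Nat.card 𝐂) (hf : Nat.card 𝐍 = f * Nat.card 𝐂) (hr : 1 ≤ r)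
    {rep : Fin r → (𝐐 →* ℂˣ)} {idx : (𝐐 →* ℂˣ) → Fin r}
    (hrep : ∀ i, rep i ≠ 1) (hidx : ∀ i, idx (rep i) = i)
    (hiff : ∀ ψ ψ', ψ ≠ 1 → ((ψ' ≠ 1 ∧ idx ψ' = idx ψ) ↔ ∃ n ∈ stabT θ, twist 𝐐 n ψ = ψ'))
    (horb : ∀ i, (by classical exact (Finset.univ.filter (fun ψ : 𝐐 →* ℂˣ => ψ ≠ 1 ∧ idx ψ = i)).card) * Nat.card 𝐂 = Nat.card (stabT θ))
    (hrank : ∀ X : Finset (IrrCharacter G), (∀ χ ∈ B, ∃ c : IrrCharacter G → ℂ, ∀ g, ¬ p ∣ orderOf g →
      (χ : G → ℂ) g = ∑ ξ ∈ X, c ξ * (ξ : G → ℂ) g) → e ≤ X.card) :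
    ∃ (X : Finset (IrrCharacter G)) (μ : Fin r → IrrCharacter G) (δ : IrrCharacter G → ℤ) (ε : ℤ),
      Function.Injective μ ∧ (∀ χ ∈ X, ∀ i, χ ≠ μ i) ∧ X.card = e ∧
      B = (X : Set (IrrCharacter G)) ∪ Set.range μ ∧ (∀ χ ∈ X, δ χ = 1 ∨ δ χ = -1) ∧ (ε = 1 ∨ ε = -1) ∧
      (∀ i, vv hP (rep i) θ = fun g => ∑ χ ∈ X, (δ χ : ℂ) * (χ : G → ℂ) g + (ε : ℂ) * (μ i : G → ℂ) g) ∧
      ∀ χ ∈ B, ∃ N : ℕ, (χ : G → ℂ) 1 = (p : ℂ) * N + (f : ℂ) * (θ : 𝐂 → ℂ) 1 * ∑ i, classInner (vv hP (rep i) θ) (χ : G → ℂ) := by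
  classical
  have := isPrime_of_modular hM
  have hpp : p.Prime := hp.out
  have hC0 : (Nat.card 𝐂 : ℂ) ≠ 0 := by exact_mod_cast (Nat.card_pos (α := 𝐂)).ne'
  have he0 : (e : ℂ) ≠ 0 := by
    have h1 : Nat.card (stabT θ) ≠ 0 := (Nat.card_pos (α := stabT θ)).ne'
    rw [hTe] at h1
    exact_mod_cast left_ne_zero_of_mul h1
  -- the degree formula
  have hdeg : ∀ χ ∈ B, ∃ N : ℕ, (χ : G → ℂ) 1 = (p : ℂ) * N + (f : ℂ) * (θ : 𝐂 → ℂ) 1 * ∑ i, classInner (vv hP (rep i) θ) (χ : G → ℂ) := by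
    intro χ hχ
    have h1 := degree_formula_aux hM hP hB hPB hθ hind hχ
    rw [Aval_eq_sum_rep hP χ hTe hrep hidx hiff horb, hTe, hf] at h1
    have h2 : ∃ N : ℕ, ∑ t : {θ : IrrCharacter 𝐂 // PT θ}, (t.1 : 𝐂 → ℂ) 1 * mu (χ : G → ℂ) (t.1 : 𝐂 → ℂ) = N := by
      choose m hm using fun t : {θ : IrrCharacter 𝐂 // PT θ} => exists_mu_nat χ t.1
      refine ⟨∑ t : {θ : IrrCharacter 𝐂 // PT θ}, charDegree (t.1 : 𝐂 → ℂ) * m t, ?_⟩
      push_cast
      refine sum_congr rfl fun t _ => ?_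
      rw [hm, apply_one_eq_charDegree (IsIrrCharacter.isCharacter t.1.2)]
    obtain ⟨N, hN⟩ := h2
    refine ⟨N, ?_⟩
    rw [hN] at h1
    push_cast at h1
    have h3 : ((e : ℂ) * (Nat.card 𝐂 : ℂ)) ≠ 0 := mul_ne_zero he0 hC0
    apply mul_left_cancel₀ h3
    rw [h1]
    ring
  -- the abstract structure
  have hcf : ∀ i, IsClassFunction G (vv hP (rep i) θ) := fun i => by
    obtain ⟨χ, φ, hχ, hφ, h⟩ := vv_gen hP (rep i) θ
    rw [h]
    intro g x
    simp only [Pi.sub_apply]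
    rw [IsCharacter.isClassFunction hχ, IsCharacter.isClassFunction hφ]
  have hgr := gram_rep hP hM hθ hTe hrep hidx hiff
  have hout : ∀ i, ∀ χ : IrrCharacter G, χ ∉ B → classInner (vv hP (rep i) θ) (χ : G → ℂ) = 0 :=
    fun i χ hχ => inner_out hM hP hB hind hθ hχ _
  obtain ⟨X, μ, δ, ε, h1, h2, h3, h4, h5, h6, h7⟩ := defOne_abstract hr (fun i => vv hP (rep i) θ)
    (fun i => vv_gen hP _ θ) hgr (fun g => ¬ p ∣ orderOf g) (by simpa using hpp.one_lt.ne') (fun i g hg => vv_regular hP _ θ hg) B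
    hout (by
      intro χ hχ
      by_contra hcon
      push Not at hcon
      obtain ⟨N, hN⟩ := hdeg χ hχ
      rw [sum_eq_zero (fun i _ => hcon i), mul_zero, add_zero] at hN
      -- the degree is divisible by `p`
      have hdv : charDegree (χ : G → ℂ) = p * N := by
        rw [apply_one_eq_charDegree (IsIrrCharacter.isCharacter χ.2)] at hN
        exact_mod_cast hN
      have hsing : blockOf M (χ : G → ℂ) = {χ} := by
        rw [← not_dvd_iff_blockOf_singleton hM χ]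
        intro hcon2
        obtain ⟨k, hk⟩ := charDegree_dvd_card χ.2
        have hd0 : charDegree (χ : G → ℂ) ≠ 0 := by
          intro h0
          have h8 := apply_one_eq_charDegree (IsIrrCharacter.isCharacter χ.2)
          rw [h0] at h8
          exact IsIrrCharacter.apply_one_ne_zero χ.2 (by simpa using h8)
        have h9 : Nat.card G / charDegree (χ : G → ℂ) = k := by
          rw [hk]
          exact Nat.mul_div_cancel_left k (Nat.pos_of_ne_zero hd0)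
        rw [h9] at hcon2
        obtain ⟨k', rfl⟩ := hcon2
        have h10 : p ^ 2 ∣ Nat.card G := by
          rw [hk, hdv]
          exact ⟨N * k', by ring⟩
        have h11 : Nat.card (P : Subgroup G) = p ^ (Nat.card G).factorization p := Sylow.card_eq_multiplicity P
        have h12 := (hpp.pow_dvd_iff_le_factorization (Nat.card_pos (α := G)).ne').mp h10
        have h13 : p ^ 2 ∣ p := by
          have h14 := pow_dvd_pow p h12
          rw [← h11, hP] at h14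
          exact h14
        have h15 := Nat.le_of_dvd hpp.pos h13
        have h16 : p < p ^ 2 := by
          rw [pow_two]
          exact lt_mul_self hpp.one_lt
        omega
      have hBeq : B = {χ} := by
        rw [← hsing]
        exact blockOf_eq_of_mem hB hχ
      -- the vector vanishes
      let i₀ : Fin r := ⟨0, hr⟩
      have hv0 : vv hP (rep i₀) θ = 0 := by
        rw [classFunction_eq_sum _ (hcf i₀)]
        refine Finset.sum_eq_zero fun χ' _ => ?_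
        by_cases hχ' : χ' ∈ B
        · rw [hBeq] at hχ'
          rw [Set.mem_singleton_iff.mp hχ', hcon i₀, zero_smul]
        · rw [hout i₀ χ' hχ', zero_smul]
      have h8 := hgr i₀ i₀
      rw [hv0] at h8
      simp only [if_true] at h8
      have h9 : classInner (0 : G → ℂ) (0 : G → ℂ) = 0 := by
        simp [classInner]
      rw [h9] at h8
      have h10 : (0 : ℂ) = ((e + 1 : ℕ) : ℂ) := by
        push_cast
        exact h8
      have h11 : e + 1 = 0 := by exact_mod_cast h10.symm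
      omega) (by simpa using hrank)
  exact ⟨X, μ, δ, ε, h1, h2, h3, h4, h5, h6, h7, hdeg⟩

end Cfsg.Agent.Lib.DefOne
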