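import Cfsg.Agent.Lib.DefOne.Main

/-!
# Blocks of defect one: the statement with the inertial index
-/

set_option autoImplicit false
set_option linter.unusedSectionVars false
set_option linter.unusedVariables false

namespace Cfsg.Agent.Lib.DefOne

open Cfsg Cfsg.Agent.Lib.Char Cfsg.Agent.Lib.Blocks Finset
open scoped ComplexConjugate

universe u

attribute [local instance] fintypeOfSubgroup

variable {G : Type u} [Group G] [Fintype G] {p : ℕ} [hp : Fact p.Prime] {P : Sylow p G} {M : Ideal AlgInt}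

local notation "𝐐" => ((P : Subgroup G))
local notation "𝐂" => (Subgroup.centralizer (((P : Subgroup G)) : Set G))
local notation "𝐍" => (Subgroup.normalizer (((P : Subgroup G)) : Set G))

theorem s4442_core (hM : IsPModular p M) (hP : Nat.card P = p) (B : Set (IrrCharacter G))
    (hB : IsPBlock M B) (hBP : IsDefectGroup p M B P)
    (b : Set (IrrCharacter 𝐂)) (hind : IsInducedBlock M 𝐂 b B) (θ : IrrCharacter 𝐂) (hθ : θ ∈ b)
    (hθP : ∀ x : 𝐂, (x : G) ∈ (P : Subgroup G) → (θ : 𝐂 → ℂ) x = (θ : 𝐂 → ℂ) 1)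
    (T : Subgroup G) (hT : ∀ g : G, g ∈ T ↔ (g ∈ 𝐍 ∧ ∀ c c' : 𝐂, (c' : G) = g * c * g⁻¹ → (θ : 𝐂 → ℂ) c' = (θ : 𝐂 → ℂ) c))
    (e f : ℕ) (he : 𝐂.relIndex T = e) (hf : 𝐂.relIndex 𝐍 = f) :
    e ∣ p - 1 ∧ Nat.card B = e + (p - 1) / e ∧ ∃ X Y : Set (IrrCharacter G), B = X ∪ Y ∧ Disjoint X Y ∧ Nat.card X = e ∧ Nat.card Y = (p - 1) / e ∧
    (∀ χ ∈ X, (charDegree (χ : G → ℂ) : ℤ) ≡ ((f / e * charDegree (θ : 𝐂 → ℂ) : ℕ) : ℤ) [ZMOD p] ∨ (charDegree (χ : G → ℂ) : ℤ) ≡ -((f / e * charDegree (θ : 𝐂 → ℂ) : ℕ) : ℤ) [ZMOD p]) ∧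
    (∃ ε : ℤ, (ε = 1 ∨ ε = -1) ∧ ∀ ψ ∈ Y, (charDegree (ψ : G → ℂ) : ℤ) ≡ ε * ((f * charDegree (θ : 𝐂 → ℂ) : ℕ) : ℤ) [ZMOD p]) ∧
    ∀ ψ ∈ Y, ∀ ψ' ∈ Y, ∀ g : G, ¬ p ∣ orderOf g → (ψ : G → ℂ) g = (ψ' : G → ℂ) g := by
  classical
  have hpp : p.Prime := hp.out
  have := isPrime_of_modular hM
  have hP' : Nat.card (P : Subgroup G) = p := hP
  have hb : b = blockOf M (θ : 𝐂 → ℂ) := blockOf_eq_of_mem hind.1 hθ
  subst hb
  have hTmem : ∀ n : 𝐍, (n : G) ∈ T ↔ n ∈ stabT θ := by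
    intro n
    rw [hT]
    constructor
    · rintro ⟨-, h⟩
      apply Subtype.ext
      funext c
      rw [cjI_coe]
      refine (h (cjC n c) c ?_).symm
      rw [coe_cjC]
      group
    · intro h
      refine ⟨n.2, fun c c' hc => ?_⟩
      have h1 : c = cjC n c' := Subtype.ext (by rw [coe_cjC, hc]; group)
      rw [h1]
      have h2 := congrArg (fun ξ : IrrCharacter 𝐂 => (ξ : 𝐂 → ℂ) c') (mem_stabT.mp h)
      simp only [cjI_coe] at h2
      exact h2.symm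
  have hTN : T ≤ 𝐍 := fun g hg => ((hT g).mp hg).1
  have hcardT : Nat.card T = Nat.card (stabT θ) :=
    Nat.card_congr ⟨fun t => ⟨⟨t.1, hTN t.2⟩, (hTmem _).mp t.2⟩, fun n => ⟨n.1.1, (hTmem n.1).mpr n.2⟩,
      fun _ => rfl, fun _ => rfl⟩
  have hCT : 𝐂 ≤ T := fun c hc => (hTmem (toN ⟨c, hc⟩)).mpr (toN_mem_stabT _ _)
  have hCN : 𝐂 ≤ 𝐍 := fun c hc => centralizer_le_normalizer_coe _ hc
  have hTe : Nat.card (stabT θ) = e * Nat.card 𝐂 := by
    have h1 := Subgroup.card_mul_index (𝐂.subgroupOf T)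
    rw [Nat.card_congr (Subgroup.subgroupOfEquivOfLe hCT).toEquiv] at h1
    have h2 : (𝐂.subgroupOf T).index = e := he
    rw [h2] at h1
    rw [← hcardT, ← h1, mul_comm]
  have hf' : Nat.card 𝐍 = f * Nat.card 𝐂 := by
    have h1 := Subgroup.card_mul_index (𝐂.subgroupOf 𝐍)
    rw [Nat.card_congr (Subgroup.subgroupOfEquivOfLe hCN).toEquiv] at h1
    have h2 : (𝐂.subgroupOf 𝐍).index = f := hf
    rw [h2] at h1
    rw [← h1, mul_comm]
  letI := fintypeDual (P := P) hP'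
  obtain ⟨r, rep, idx, X, μ, δ, ε, hre, hr, hrep, hidx, hiff, hinj, hdis, hXc, hBeq, hδ, hε, hv, hdeg⟩ :=
    defOne_main hM hP' hB hBP hθP hind hTe hf'
  have hC0 : 0 < Nat.card 𝐂 := Nat.card_pos
  have he0 : 0 < e := by
    have h1 : 0 < Nat.card (stabT θ) := Nat.card_pos
    rw [hTe] at h1
    exact Nat.pos_of_mul_pos_right h1
  have hrdiv : (p - 1) / e = r := by
    rw [← hre]
    exact Nat.mul_div_cancel _ he0
  obtain ⟨f', rfl⟩ : e ∣ f := by
    have h1 : Nat.card (stabT θ) ∣ Nat.card 𝐍 := Subgroup.card_subgroup_dvd_card _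
    rw [hTe, hf'] at h1
    exact Nat.dvd_of_mul_dvd_mul_right hC0 h1
  have hfdiv : e * f' / e = f' := Nat.mul_div_cancel_left _ he0
  have hdegθ := apply_one_eq_charDegree (IsIrrCharacter.isCharacter θ.2)
  have hp1 : ((r : ℤ) * e) = (p : ℤ) - 1 := by
    have h1 : r * e + 1 = p := by
      have := hpp.two_le
      omega
    have h2 : ((r * e + 1 : ℕ) : ℤ) = p := by rw [h1]
    push_cast at h2
    linarith
  have hdisj : Disjoint (X : Set (IrrCharacter G)) (Set.range μ) := by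
    rw [Set.disjoint_left]
    rintro χ hχ ⟨i, rfl⟩
    exact hdis _ hχ i rfl
  refine ⟨⟨r, by rw [← hre, mul_comm]⟩, ?_, X, Set.range μ, hBeq, hdisj, ?_, ?_, ?_, ⟨ε, hε, ?_⟩, ?_⟩
  · rw [hrdiv, hBeq, ← hXc]
    rw [Nat.card_coe_set_eq, Set.ncard_union_eq hdisj X.finite_toSet (Set.finite_range μ), Set.ncard_coe_finset,
      ← Nat.card_coe_set_eq (Set.range μ), Nat.card_range_of_injective hinj]
    simp
  · rw [Nat.card_coe_set_eq, Set.ncard_coe_finset, hXc]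
  · rw [hrdiv, Nat.card_range_of_injective hinj]
    simp
  · intro χ hχ
    have hχ' : χ ∈ (X : Set (IrrCharacter G)) := hχ
    have hχB : χ ∈ B := by
      rw [hBeq]
      exact Or.inl hχ'
    obtain ⟨N, hN⟩ := hdeg χ hχB
    rw [sum_congr rfl (fun i _ => inner_X hdis hv hχ i), sum_const, card_univ, Fintype.card_fin, nsmul_eq_mul,
      apply_one_eq_charDegree (IsIrrCharacter.isCharacter χ.2), hdegθ] at hN
    have h1 : (charDegree (χ : G → ℂ) : ℤ) = (p : ℤ) * N + ((e * f' : ℕ) : ℤ) * charDegree (θ : 𝐂 → ℂ) * ((r : ℤ) * δ χ) := by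
      exact_mod_cast hN
    rw [hfdiv]
    push_cast at h1 ⊢
    have h2 : (charDegree (χ : G → ℂ) : ℤ) = (p : ℤ) * (N + f' * charDegree (θ : 𝐂 → ℂ) * δ χ) - f' * charDegree (θ : 𝐂 → ℂ) * δ χ := by
      rw [h1]
      linear_combination (f' : ℤ) * charDegree (θ : 𝐂 → ℂ) * δ χ * hp1
    rcases hδ χ hχ with h3 | h3
    · right
      rw [h2, h3]
      apply Int.ModEq.symm
      rw [Int.modEq_iff_dvd]
      exact ⟨N + f' * charDegree (θ : 𝐂 → ℂ), by ring⟩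
    · left
      rw [h2, h3]
      apply Int.ModEq.symm
      rw [Int.modEq_iff_dvd]
      exact ⟨N - f' * charDegree (θ : 𝐂 → ℂ), by ring⟩
  · rintro _ ⟨j, rfl⟩
    have hχB : μ j ∈ B := by
      rw [hBeq]
      exact Or.inr ⟨j, rfl⟩
    obtain ⟨N, hN⟩ := hdeg (μ j) hχB
    rw [sum_congr rfl (fun i _ => inner_μ hinj hdis hv i j), Finset.sum_ite_eq' univ j, if_pos (mem_univ j),
      apply_one_eq_charDegree (IsIrrCharacter.isCharacter (μ j).2), hdegθ] at hN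
    have h1 : (charDegree (μ j : G → ℂ) : ℤ) = (p : ℤ) * N + ((e * f' : ℕ) : ℤ) * charDegree (θ : 𝐂 → ℂ) * ε := by
      exact_mod_cast hN
    push_cast at h1 ⊢
    rw [h1]
    apply Int.ModEq.symm
    rw [Int.modEq_iff_dvd]
    exact ⟨N, by ring⟩
  · rintro _ ⟨i, rfl⟩ _ ⟨j, rfl⟩ g hg
    have h1 := congrFun (hv i) g
    have h2 := congrFun (hv j) g
    rw [vv_regular hP' _ θ hg] at h1 h2
    have hε0 : (ε : ℂ) ≠ 0 := by
      rcases hε with h | h <;> rw [h] <;> norm_num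
    apply mul_left_cancel₀ hε0
    linear_combination h2 - h1

end Cfsg.Agent.Lib.DefOne
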