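import Cfsg.Agent.Lib.DefOne.PowAct

/-!
# Power maps on a block with defect group of prime order
-/

set_option autoImplicit false
set_option linter.unusedSectionVars false
set_option linter.unusedVariables false

namespace Cfsg.Agent.Lib.DefOne

open Cfsg Cfsg.Agent.Lib.Char Cfsg.Agent.Lib.Blocks Finset
open scoped ComplexConjugate

universe u

attribute [local instance] fintypeOfSubgroup

variable {G : Type u} [Group G] [Fintype G] {p : ℕ} [hp : Fact p.Prime] {P : Sylow p G} {M : Ideal AlgInt}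

local notation "𝐐" => ((P : Subgroup G))
local notation "𝐂" => (Subgroup.centralizer (((P : Subgroup G)) : Set G))
local notation "𝐍" => (Subgroup.normalizer (((P : Subgroup G)) : Set G))

/-- Restriction of a character to the regular elements. -/
def regRes (p : ℕ) (χ : IrrCharacter G) : {g : G // ¬ p ∣ orderOf g} → ℂ := fun g => (χ : G → ℂ) g.1

/-- The span of the restrictions of a set of characters. -/
noncomputable def regSpan (p : ℕ) (S : Finset (IrrCharacter G)) : Submodule ℂ ({g : G // ¬ p ∣ orderOf g} → ℂ) :=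
  Submodule.span ℂ ((regRes p) '' (S : Set (IrrCharacter G)))

theorem regRes_mem {S : Finset (IrrCharacter G)} {χ : IrrCharacter G} (h : χ ∈ S) : regRes p χ ∈ regSpan p S :=
  Submodule.subset_span (Set.mem_image_of_mem _ h)

theorem exists_coef_of_mem {S : Finset (IrrCharacter G)} {χ : IrrCharacter G} (h : regRes p χ ∈ regSpan p S) :
    ∃ c : IrrCharacter G → ℂ, ∀ g, ¬ p ∣ orderOf g → (χ : G → ℂ) g = ∑ ξ ∈ S, c ξ * (ξ : G → ℂ) g := by
  obtain ⟨c, hc⟩ := (Submodule.mem_span_image_finset_iff_exists_fun' ℂ).mp h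
  refine ⟨c, fun g hg => ?_⟩
  have h1 := congrFun hc ⟨g, hg⟩
  rw [Finset.sum_apply] at h1
  simpa [regRes] using h1.symm

/-- Two distinct members of a spanning family of size `e + 1` cannot agree on the regular elements if `e ≥ 2`. -/
theorem no_coincidence (hM : IsPModular p M) (hP : Nat.card (P : Subgroup G) = p)
    {B : Set (IrrCharacter G)} (hB : IsPBlock M B) {θ : IrrCharacter 𝐂} (hθ : PT θ)
    (hind : IsInducedBlock M 𝐂 (blockOf M (θ : 𝐂 → ℂ)) B) {e : ℕ}
    (hTe : Nat.card (stabT θ) = e * Nat.card 𝐂) {r : ℕ} {X : Finset (IrrCharacter G)} {μ : Fin r → IrrCharacter G}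
    {δ : IrrCharacter G → ℤ} {ε : ℤ} (hδ : ∀ χ ∈ X, δ χ = 1 ∨ δ χ = -1) (hε : ε = 1 ∨ ε = -1)
    (hdis : ∀ χ ∈ X, ∀ i, χ ≠ μ i) (hBeq : B = (X : Set (IrrCharacter G)) ∪ Set.range μ)
    (hrel : ∀ i g, ¬ p ∣ orderOf g → ∑ χ ∈ X, (δ χ : ℂ) * (χ : G → ℂ) g + (ε : ℂ) * (μ i : G → ℂ) g = 0)
    (hXc : X.card = e) (he : 2 ≤ e) (j : Fin r) {ξ ξ' : IrrCharacter G} (hξ : ξ ∈ insert (μ j) X) (hξ' : ξ' ∈ insert (μ j) X)
    (hne : ξ ≠ ξ') (heq : ∀ g, ¬ p ∣ orderOf g → (ξ : G → ℂ) g = (ξ' : G → ℂ) g) : False := by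
  classical
  have hμX : μ j ∉ X := fun h => hdis _ h j rfl
  set B₀ := insert (μ j) X with hB₀
  have hB₀c : B₀.card = e + 1 := by
    rw [hB₀, card_insert_of_notMem hμX, hXc]
  let c : IrrCharacter G → ℂ := fun χ => if χ ∈ X then (δ χ : ℂ) else (ε : ℂ)
  have hε0 : (ε : ℂ) ≠ 0 := by
    rcases hε with h | h <;> rw [h] <;> norm_num
  have hc0 : ∀ χ ∈ B₀, c χ ≠ 0 := by
    intro χ hχ
    by_cases h : χ ∈ X
    · simp only [c, if_pos h]
      rcases hδ χ h with h1 | h1 <;> rw [h1] <;> norm_num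
    · simpa only [c, if_neg h] using hε0
  have hrel0 : ∑ χ ∈ B₀, c χ • regRes p χ = 0 := by
    funext g
    rw [Finset.sum_apply, hB₀, sum_insert hμX]
    have h1 := hrel j g.1 g.2
    simp only [Pi.smul_apply, smul_eq_mul, Pi.zero_apply, regRes]
    have h2 : c (μ j) = ε := by simp only [c, if_neg hμX]
    rw [h2, add_comm]
    rw [← h1]
    congr 1
    refine sum_congr rfl fun χ hχ => ?_
    simp only [c, if_pos hχ]
  -- choose a third element
  obtain ⟨χ₀, hχ₀⟩ : ((B₀.erase ξ).erase ξ').Nonempty := by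
    rw [← Finset.card_pos, card_erase_of_mem (mem_erase.mpr ⟨hne.symm, hξ'⟩), card_erase_of_mem hξ, hB₀c]
    omega
  have hχ₀1 : χ₀ ≠ ξ' := (mem_erase.mp hχ₀).1
  have hχ₀2 : χ₀ ≠ ξ := (mem_erase.mp (mem_erase.mp hχ₀).2).1
  have hχ₀3 : χ₀ ∈ B₀ := (mem_erase.mp (mem_erase.mp hχ₀).2).2
  set S := (B₀.erase ξ).erase χ₀ with hS
  have hSc : S.card + 1 = e := by
    rw [hS, card_erase_of_mem (mem_erase.mpr ⟨hχ₀2, hχ₀3⟩), card_erase_of_mem hξ, hB₀c]
    omega
  have hξ'S : ξ' ∈ S := mem_erase.mpr ⟨hχ₀1.symm, mem_erase.mpr ⟨hne.symm, hξ'⟩⟩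
  have h1 : regRes p ξ ∈ regSpan p S := by
    have h2 : regRes p ξ = regRes p ξ' := by
      funext g
      exact heq g.1 g.2
    rw [h2]
    exact regRes_mem hξ'S
  have h2 : ∀ χ ∈ B₀.erase χ₀, regRes p χ ∈ regSpan p S := by
    intro χ hχ
    by_cases h : χ = ξ
    · rw [h]
      exact h1
    · exact regRes_mem (mem_erase.mpr ⟨(mem_erase.mp hχ).1, mem_erase.mpr ⟨h, (mem_erase.mp hχ).2⟩⟩)
  have h3 : regRes p χ₀ ∈ regSpan p S := by
    have h4 : c χ₀ • regRes p χ₀ = - ∑ χ ∈ B₀.erase χ₀, c χ • regRes p χ := by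
      rw [eq_neg_iff_add_eq_zero, add_comm, sum_erase_add _ _ hχ₀3]
      exact hrel0
    have h5 : c χ₀ • regRes p χ₀ ∈ regSpan p S := by
      rw [h4]
      exact Submodule.neg_mem _ (Submodule.sum_mem _ fun χ hχ => Submodule.smul_mem _ _ (h2 χ hχ))
    exact (Submodule.smul_mem_iff _ (hc0 χ₀ hχ₀3)).mp h5
  have h4 : ∀ χ ∈ B₀, regRes p χ ∈ regSpan p S := by
    intro χ hχ
    by_cases h : χ = χ₀
    · rw [h]
      exact h3
    · exact h2 χ (mem_erase.mpr ⟨h, hχ⟩)
  have h5 : ∀ χ ∈ B, regRes p χ ∈ regSpan p S := by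
    intro χ hχ
    rw [hBeq] at hχ
    rcases hχ with hχ | ⟨i, rfl⟩
    · exact h4 χ (mem_insert_of_mem hχ)
    · have h6 : regRes p (μ i) = regRes p (μ j) := by
        funext g
        have h7 := hrel i g.1 g.2
        have h8 := hrel j g.1 g.2
        apply mul_left_cancel₀ hε0
        simp only [regRes]
        linear_combination h7 - h8
      rw [h6]
      exact h4 _ (mem_insert_self _ _)
  have h6 := rank_bound hM hP hB hθ hind hTe S (fun χ hχ => exists_coef_of_mem (h5 χ hχ))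
  omega

/-- Good exponents fix regular elements. -/
theorem pow_eq_of_regular {g' k : ℕ} (hn : Nat.card G = p * g') (hk : k ≡ 1 [MOD g']) {y : G}
    (hy : ¬ p ∣ orderOf y) : y ^ k = y := by
  have hpp : p.Prime := hp.out
  have h1 : orderOf y ∣ p * g' := by
    rw [← hn]
    exact orderOf_dvd_natCard y
  have h2 : Nat.Coprime (orderOf y) p := ((Nat.Prime.coprime_iff_not_dvd hpp).mpr hy).symm
  have h3 : orderOf y ∣ g' := h2.dvd_of_dvd_mul_left h1
  have h4 := hk.of_dvd h3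
  have h5 := pow_eq_pow_of_modEq h4 (pow_orderOf_eq_one y)
  simpa using h5

/-- The action of power maps on a block with defect group of prime order. -/
theorem galois_core (hM : IsPModular p M) (hP : Nat.card (P : Subgroup G) = p) [Fintype (𝐐 →* ℂˣ)]
    {B : Set (IrrCharacter G)} (hB : IsPBlock M B) (hPB : IsDefectGroup p M B 𝐐)
    {θ : IrrCharacter 𝐂} (hθ : PT θ) (hind : IsInducedBlock M 𝐂 (blockOf M (θ : 𝐂 → ℂ)) B)
    {e f : ℕ} (hTe : Nat.card (stabT θ) = e * Nat.card 𝐂) (hf : Nat.card 𝐍 = f * Nat.card 𝐂)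
    {g' : ℕ} (hn : Nat.card G = p * g') (hcop : p.Coprime g') :
    ∃ (r : ℕ) (X : Finset (IrrCharacter G)) (μ : Fin r → IrrCharacter G) (δ : IrrCharacter G → ℤ) (ε : ℤ),
      r * e = p - 1 ∧ 1 ≤ r ∧ Function.Injective μ ∧ (∀ χ ∈ X, ∀ i, χ ≠ μ i) ∧ X.card = e ∧
      B = (X : Set (IrrCharacter G)) ∪ Set.range μ ∧ (∀ χ ∈ X, δ χ = 1 ∨ δ χ = -1) ∧ (ε = 1 ∨ ε = -1) ∧
      (∀ i g, ¬ p ∣ orderOf g → ∑ χ ∈ X, (δ χ : ℂ) * (χ : G → ℂ) g + (ε : ℂ) * (μ i : G → ℂ) g = 0) ∧
      (∀ (k : ℕ) (hk : k.Coprime (Nat.card G)), k ≡ 1 [MOD g'] →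
        (∀ χ ∈ X, powI hk χ = χ) ∧ ∀ j, powI hk (μ j) ∈ Set.range μ) ∧
      (∀ j j', ∃ (k : ℕ) (hk : k.Coprime (Nat.card G)), k ≡ 1 [MOD g'] ∧ powI hk (μ j) = μ j') := by
  classical
  have hpp : p.Prime := hp.out
  obtain ⟨r, rep, idx, X, μ, δ, ε, hre, hr, hrep, hidx, hiff, hinj, hdis, hXc, hBeq, hδ, hε, hv, hdeg⟩ :=
    defOne_main hM hP hB hPB hθ hind hTe hf
  have hε0 : (ε : ℂ) ≠ 0 := by
    rcases hε with h | h <;> rw [h] <;> norm_num
  have hδ0 : ∀ χ ∈ X, (δ χ : ℂ) ≠ 0 := by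
    intro χ hχ
    rcases hδ χ hχ with h | h <;> rw [h] <;> norm_num
  have hrel : ∀ i g, ¬ p ∣ orderOf g → ∑ χ ∈ X, (δ χ : ℂ) * (χ : G → ℂ) g + (ε : ℂ) * (μ i : G → ℂ) g = 0 := by
    intro i g hg
    have h1 := congrFun (hv i) g
    rw [vv_regular hP _ θ hg] at h1
    exact h1.symm
  have hvvA : ∀ a : 𝐐 →* ℂˣ, a ≠ 1 → vv hP a θ = vv hP (rep (idx a)) θ := by
    intro a ha
    obtain ⟨n, hn', h1⟩ := (hiff a (rep (idx a)) ha).mp ⟨hrep _, hidx _⟩
    rw [← h1, vv_stab hP hn' a]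
  have hIX : ∀ a : 𝐐 →* ℂˣ, a ≠ 1 → ∀ χ ∈ X, classInner (vv hP a θ) (χ : G → ℂ) = δ χ := by
    intro a ha χ hχ
    rw [hvvA a ha]
    exact inner_X (v := fun i => vv hP (rep i) θ) hdis hv hχ (idx a)
  have hIμ : ∀ a : 𝐐 →* ℂˣ, a ≠ 1 → ∀ j, classInner (vv hP a θ) (μ j : G → ℂ) = if idx a = j then (ε : ℂ) else 0 := by
    intro a ha j
    rw [hvvA a ha]
    exact inner_μ (v := fun i => vv hP (rep i) θ) hinj hdis hv (idx a) j
  have hIo : ∀ χ : IrrCharacter G, χ ∉ B → ∀ a : 𝐐 →* ℂˣ, classInner (vv hP a θ) (χ : G → ℂ) = 0 :=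
    fun χ hχ a => inner_out hM hP hB hind hθ hχ a
  let j₀ : Fin r := ⟨0, hr⟩
  have hIne : ∀ χ ∈ B, ∃ a : 𝐐 →* ℂˣ, a ≠ 1 ∧ classInner (vv hP a θ) (χ : G → ℂ) ≠ 0 := by
    intro χ hχ
    rw [hBeq] at hχ
    rcases hχ with hχ | ⟨j, rfl⟩
    · exact ⟨rep j₀, hrep j₀, by rw [hIX _ (hrep j₀) χ hχ]; exact hδ0 χ hχ⟩
    · exact ⟨rep j, hrep j, by rw [hIμ _ (hrep j) j, if_pos (hidx j)]; exact hε0⟩
  -- the action of a good exponent
  have hgood : ∀ (k : ℕ) (hk : k.Coprime (Nat.card G)), k ≡ 1 [MOD g'] →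
      (∀ χ ∈ X, powI hk χ = χ) ∧ ∀ j, powI hk (μ j) ∈ Set.range μ := by
    intro k hk hk1
    have hkp : k.Coprime p := by
      rw [hn] at hk
      exact Nat.Coprime.coprime_mul_right_right hk
    have hreg : ∀ y : G, ¬ p ∣ orderOf y → y ^ k = y := fun y hy => pow_eq_of_regular hn hk1 hy
    have hinner : ∀ (a : 𝐐 →* ℂˣ) (χ : IrrCharacter G),
        classInner (vv hP (a ^ k) θ) (powI hk χ : G → ℂ) = classInner (vv hP a θ) (χ : G → ℂ) :=
      fun a χ => inner_vv_pow hP hθ hk hreg a χ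
    have hmem : ∀ χ ∈ B, powI hk χ ∈ B := by
      intro χ hχ
      by_contra h
      obtain ⟨a, ha, h1⟩ := hIne χ hχ
      exact h1 (by rw [← hinner a χ]; exact hIo _ h _)
    have hregeq : ∀ (χ : IrrCharacter G) (g : G), ¬ p ∣ orderOf g → (χ : G → ℂ) g = (powI hk χ : G → ℂ) g := by
      intro χ g hg
      rw [powI_coe, hreg g hg]
    have hsub : ∀ χ ∈ B, χ ∈ insert (μ j₀) X ∨ ∃ j, χ = μ j := by
      intro χ hχ
      rw [hBeq] at hχ
      rcases hχ with hχ | ⟨j, rfl⟩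
      · exact Or.inl (mem_insert_of_mem hχ)
      · exact Or.inr ⟨j, rfl⟩
    by_cases hr1 : r = 1
    · -- the case of one exceptional character
      subst hr1
      have hsing : ∀ j : Fin 1, j = j₀ := fun j => Subsingleton.elim _ _
      have hall : ∀ χ ∈ B, powI hk χ = χ := by
        intro χ hχ
        by_cases hp2 : p = 2
        · subst hp2
          apply Subtype.ext
          funext g
          rw [powI_coe]
          have h2 : k ≡ 1 [MOD 2] := by
            have h3 : Nat.Coprime k 2 := hkp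
            have h4 : k % 2 = 1 := Nat.odd_iff.mp (Nat.Coprime.odd_of_right h3)
            show k % 2 = 1 % 2
            rw [h4]
          have h3 : k ≡ 1 [MOD 2 * g'] := (Nat.modEq_and_modEq_iff_modEq_mul hcop).mp ⟨h2, hk1⟩
          have h4 : orderOf g ∣ 2 * g' := by
            rw [← hn]
            exact orderOf_dvd_natCard g
          have h5 := pow_eq_pow_of_modEq (h3.of_dvd h4) (pow_orderOf_eq_one g)
          rw [pow_one] at h5
          rw [h5]
        · have he : 2 ≤ e := by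
            have h1 : p ≠ 1 := hpp.ne_one
            have h2 := hpp.two_le
            have h3 : 1 * e = p - 1 := hre
            omega
          by_contra hne
          have hin : ∀ ξ ∈ B, ξ ∈ insert (μ j₀) X := by
            intro ξ hξ
            rcases hsub ξ hξ with h | ⟨j, rfl⟩
            · exact h
            · rw [hsing j]
              exact mem_insert_self _ _
          exact no_coincidence hM hP hB hθ hind hTe hδ hε hdis hBeq hrel hXc he j₀ (hin χ hχ) (hin _ (hmem χ hχ))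
            (fun h => hne h.symm) (hregeq χ)
      refine ⟨fun χ hχ => hall χ ?_, fun j => ?_⟩
      · rw [hBeq]
        exact Or.inl hχ
      · rw [hall _ ?_]
        · exact ⟨j, rfl⟩
        · rw [hBeq]
          exact Or.inr ⟨j, rfl⟩
    · -- at least two exceptional characters
      have hex : ∀ j : Fin r, ∃ j' : Fin r, j' ≠ j := by
        intro j
        have h1 : 2 ≤ r := by omega
        by_cases h : j = ⟨0, by omega⟩
        · exact ⟨⟨1, by omega⟩, by rw [h]; simp⟩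
        · exact ⟨⟨0, by omega⟩, fun h' => h h'.symm⟩
      refine ⟨fun χ hχ => ?_, fun j => ?_⟩
      · have hχB : χ ∈ B := by
          rw [hBeq]
          exact Or.inl hχ
        have hpX : powI hk χ ∈ X := by
          have h1 := hmem χ hχB
          rw [hBeq] at h1
          rcases h1 with h1 | ⟨j, hj⟩
          · exact h1
          · exfalso
            obtain ⟨j', hj'⟩ := hex j
            obtain ⟨a, ha⟩ := exists_root_dual hP hkp (rep j')
            have ha1 : a ≠ 1 := by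
              rintro rfl
              apply hrep j'
              rw [← ha]
              exact one_pow (M := 𝐐 →* ℂˣ) k
            have h2 := hinner a χ
            rw [hIX a ha1 χ hχ, ha, ← hj, hIμ _ (hrep j') j, if_neg (by rw [hidx]; exact hj')] at h2
            exact hδ0 χ hχ h2.symm
        by_contra hne
        have he : 2 ≤ e := by
          rw [← hXc]
          exact Finset.one_lt_card.mpr ⟨_, hpX, _, hχ, hne⟩
        exact no_coincidence hM hP hB hθ hind hTe hδ hε hdis hBeq hrel hXc he j₀ (mem_insert_of_mem hχ) (mem_insert_of_mem hpX)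
          (fun h => hne h.symm) (hregeq χ)
      · have h1 := hmem (μ j) (by rw [hBeq]; exact Or.inr ⟨j, rfl⟩)
        rw [hBeq] at h1
        rcases h1 with h1 | h1
        · exfalso
          obtain ⟨j', hj'⟩ := hex j
          have h2 := hinner (rep j') (μ j)
          have h3 : rep j' ^ k ≠ 1 := pow_ne_one_dual hP hkp (hrep j')
          rw [hIX _ h3 _ h1, hIμ _ (hrep j') j, if_neg (by rw [hidx]; exact hj')] at h2
          exact hδ0 _ h1 h2
        · exact h1
  refine ⟨r, X, μ, δ, ε, hre, hr, hinj, hdis, hXc, hBeq, hδ, hε, hrel, hgood, fun j j' => ?_⟩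
  obtain ⟨m, hm⟩ := exists_pow_dual hP (hrep j) (rep j')
  have hpm : ¬ p ∣ m := by
    rintro ⟨t, rfl⟩
    apply hrep j'
    rw [← hm]
    have h1 : rep j ^ (p * t) = (rep j ^ p) ^ t := pow_mul (rep j) p t
    rw [h1, dual_pow_p hP]
    exact one_pow (M := 𝐐 →* ℂˣ) t
  obtain ⟨k, hkm, hk1⟩ := Nat.chineseRemainder hcop m 1
  have hkp : k.Coprime p := by
    have h1 : Nat.gcd k p = Nat.gcd m p := hkm.gcd_eq
    have h2 : Nat.gcd m p = 1 := ((Nat.Prime.coprime_iff_not_dvd hpp).mpr hpm).symm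
    exact h1.trans h2
  have hkg : k.Coprime g' := by
    have h1 : Nat.gcd k g' = Nat.gcd 1 g' := hk1.gcd_eq
    exact h1.trans (Nat.gcd_one_left g')
  have hk : k.Coprime (Nat.card G) := by
    rw [hn]
    exact Nat.Coprime.mul_right hkp hkg
  refine ⟨k, hk, hk1, ?_⟩
  have hreg : ∀ y : G, ¬ p ∣ orderOf y → y ^ k = y := fun y hy => pow_eq_of_regular hn hk1 hy
  obtain ⟨j'', hj''⟩ := (hgood k hk hk1).2 j
  have h1 := inner_vv_pow hP hθ hk hreg (rep j) (μ j)
  have h2 : rep j ^ k = rep j' := by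
    rw [← hm]
    exact dual_pow_modEq hP (rep j) hkm
  rw [h2, ← hj'', hIμ _ (hrep j') j'', hIμ _ (hrep j) j, if_pos (hidx j), hidx] at h1
  have h3 : j' = j'' := by
    by_contra h
    rw [if_neg h] at h1
    exact hε0 h1.symm
  rw [← hj'', h3]

end Cfsg.Agent.Lib.DefOne
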