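import Cfsg.Agent.Lib.DefOne.GalCore

/-!
# Blocks of defect one: Galois conjugates and the exceptional family
-/

set_option autoImplicit false
set_option linter.unusedSectionVars false
set_option linter.unusedVariables false

namespace Cfsg.Agent.Lib.DefOne

open Cfsg Cfsg.Agent.Lib.Char Cfsg.Agent.Lib.Blocks Finset
open scoped ComplexConjugate

universe u

attribute [local instance] fintypeOfSubgroup

variable {G : Type u} [Group G] [Fintype G] {p : ℕ} [hp : Fact p.Prime] {P : Sylow p G} {M : Ideal AlgInt}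

local notation "𝐐" => ((P : Subgroup G))
local notation "𝐂" => (Subgroup.centralizer (((P : Subgroup G)) : Set G))
local notation "𝐍" => (Subgroup.normalizer (((P : Subgroup G)) : Set G))

theorem extended_var_i (hM : IsPModular p M) {Q : Subgroup G} {B : Set (IrrCharacter G)} (hB : IsPBlock M B)
    (hPB : IsDefectGroup p M B Q) {L : Subgroup G} (hL : L = Q ⊔ Subgroup.centralizer (Q : Set G)) :
    ∃ b : Set (IrrCharacter L), IsInducedBlock M L b B := by
  subst hL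
  obtain ⟨b, -, h⟩ := extended_first_main_i hM hB hPB
  exact ⟨b, h⟩

/-- The data attached to a block with defect group `P`. -/
theorem exists_block_data (hM : IsPModular p M) (hP : Nat.card (P : Subgroup G) = p) {B : Set (IrrCharacter G)}
    (hB : IsPBlock M B) (hPB : IsDefectGroup p M B 𝐐) :
    ∃ (θ : IrrCharacter 𝐂) (e f : ℕ), PT θ ∧ IsInducedBlock M 𝐂 (blockOf M (θ : 𝐂 → ℂ)) B ∧
      Nat.card (stabT θ) = e * Nat.card 𝐂 ∧ Nat.card 𝐍 = f * Nat.card 𝐂 := by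
  classical
  have := isPrime_of_modular hM
  have hL : 𝐂 = 𝐐 ⊔ Subgroup.centralizer (𝐐 : Set G) := (sup_eq_right.mpr (le_cent hP)).symm
  obtain ⟨b, hb⟩ := extended_var_i hM hB hPB hL
  obtain ⟨ξ, hξ⟩ := IsPBlock.nonempty hb.1
  obtain ⟨a, θ, hθ, rfl⟩ := PT.of_tw hP ξ
  have h1 : b = blockOf M (tw hP a θ : 𝐂 → ℂ) := blockOf_eq_of_mem hb.1 hξ
  have h2 : θ ∈ b := by
    rw [h1]
    exact tw_sameBlock hM hP a θ
  have h3 : b = blockOf M (θ : 𝐂 → ℂ) := blockOf_eq_of_mem hb.1 h2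
  have hle : 𝐂 ≤ (stabT θ).map 𝐍.subtype := by
    intro c hc
    exact ⟨toN ⟨c, hc⟩, toN_mem_stabT _ θ, rfl⟩
  obtain ⟨e, he⟩ := Subgroup.card_dvd_of_le hle
  rw [Subgroup.card_map_of_injective 𝐍.subtype_injective] at he
  obtain ⟨f, hf⟩ := Subgroup.card_dvd_of_le (centralizer_le_normalizer_coe (𝐐 : Subgroup G))
  refine ⟨θ, e, f, hθ, h3 ▸ hb, by rw [he, mul_comm], by rw [hf, mul_comm]⟩

/-- Blocks of positive defect in a group whose order is divisible by `p` exactly once. -/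
theorem s4507_core (p : ℕ) [hp : Fact p.Prime] (M : Ideal AlgInt) (hM : IsPModular p M)
    (hdiv : p ∣ Nat.card G) (hsq : ¬ p ^ 2 ∣ Nat.card G) (B : Set (IrrCharacter G)) (hB : IsPBlock M B)
    (hd : 0 < blockDefect p B) :
    ∃ Y : Set (IrrCharacter G), Y ⊆ B ∧ Y.Nonempty ∧
      (∀ θ ∈ Y, ∀ ψ : IrrCharacter G,
        (∃ σ : ℂ ≃+* ℂ, σ (Complex.exp (2 * Real.pi * Complex.I / ((Nat.card G / p ^ (Nat.card G).factorization p) : ℕ))) =
            Complex.exp (2 * Real.pi * Complex.I / ((Nat.card G / p ^ (Nat.card G).factorization p) : ℕ)) ∧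
          (ψ : G → ℂ) = fun g => σ ((θ : G → ℂ) g)) ↔ ψ ∈ Y) ∧
      (∀ χ ∈ B, χ ∉ Y → ∀ ψ : IrrCharacter G,
        (∃ σ : ℂ ≃+* ℂ, σ (Complex.exp (2 * Real.pi * Complex.I / ((Nat.card G / p ^ (Nat.card G).factorization p) : ℕ))) =
            Complex.exp (2 * Real.pi * Complex.I / ((Nat.card G / p ^ (Nat.card G).factorization p) : ℕ)) ∧
          (ψ : G → ℂ) = fun g => σ ((χ : G → ℂ) g)) → ψ = χ) ∧
      Nat.card Y ∣ p - 1 ∧ Nat.card B = Nat.card Y + (p - 1) / Nat.card Y ∧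
      ∃ δ : IrrCharacter G → ℤ, (∀ χ ∈ B, δ χ = 1 ∨ δ χ = -1) ∧
        ∀ x : G, ¬ p ∣ orderOf x → ∀ θ ∈ Y,
          (∑ᶠ χ ∈ B \ Y, (δ χ : ℂ) * (χ : G → ℂ) x) + (δ θ : ℂ) * (θ : G → ℂ) x = 0 := by
  classical
  have hpp : p.Prime := hp.out
  have := isPrime_of_modular hM
  have hn0 : Nat.card G ≠ 0 := Nat.card_pos.ne'
  haveI : NeZero (Nat.card G) := ⟨hn0⟩
  have hfac : (Nat.card G).factorization p = 1 := by
    have h1 : 1 ≤ (Nat.card G).factorization p := (hpp.dvd_iff_one_le_factorization hn0).mp hdiv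
    have h2 : ¬ 2 ≤ (Nat.card G).factorization p := fun h => hsq ((hpp.pow_dvd_iff_le_factorization hn0).mpr h)
    omega
  rw [hfac, pow_one]
  obtain ⟨g', hg'⟩ := hdiv
  have hgdiv : Nat.card G / p = g' := by
    rw [hg']
    exact Nat.mul_div_cancel_left _ hpp.pos
  rw [hgdiv]
  have hg0 : g' ≠ 0 := by
    rintro rfl
    exact hn0 (by rw [hg', mul_zero])
  have hcop : p.Coprime g' := by
    rw [Nat.Prime.coprime_iff_not_dvd hpp]
    rintro ⟨t, rfl⟩
    exact hsq ⟨t, by rw [hg']; ring⟩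
  -- the Sylow subgroup
  obtain ⟨D, hD⟩ := IsPBlock.exists_isDefectGroup hM hB
  have hDc := card_defectGroup hM hB hD
  have hDp : Nat.card D = p := by
    rw [hDc]
    have h1 : blockDefect p B = 1 := by
      by_contra h
      have h2 : 2 ≤ blockDefect p B := by omega
      apply hsq
      refine (pow_dvd_pow p h2).trans ?_
      rw [← hDc]
      exact Subgroup.card_subgroup_dvd_card D
    rw [h1, pow_one]
  let P : Sylow p G := Sylow.ofCard D (by rw [hDp, hfac, pow_one])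
  have hP : Nat.card (P : Subgroup G) = p := hDp
  have hPB : IsDefectGroup p M B (P : Subgroup G) := hD
  letI := fintypeDual (P := P) hP
  obtain ⟨θ, e, f, hθ, hind, hTe, hf⟩ := exists_block_data hM hP hB hPB
  obtain ⟨r, X, μ, δ, ε, hre, hr, hinj, hdis, hXc, hBeq, hδ, hε, hrel, hgood, htrans⟩ :=
    galois_core hM hP hB hPB hθ hind hTe hf hg' hcop
  -- the primitive root
  set ζ : ℂ := Complex.exp (2 * Real.pi * Complex.I / (g' : ℕ)) with hζdef
  have hζ : IsPrimitiveRoot ζ g' := Complex.isPrimitiveRoot_exp g' hg0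
  have hζn : ζ ^ Nat.card G = 1 := by
    rw [hg', mul_comm, pow_mul, hζ.pow_eq_one, one_pow]
  have hσk : ∀ σ : ℂ ≃+* ℂ, σ ζ = ζ → ∃ (k : ℕ) (hk : k.Coprime (Nat.card G)), k ≡ 1 [MOD g'] ∧
      ∀ χ : IrrCharacter G, (fun g => σ ((χ : G → ℂ) g)) = (powI hk χ : G → ℂ) := by
    intro σ hσ
    obtain ⟨k, hk, hσ'⟩ := exists_pow_of_ringEquiv (Nat.card G) σ
    refine ⟨k, hk, ?_, fun χ => ?_⟩
    · have h1 : ζ ^ k = ζ := by rw [← hσ' ζ hζn, hσ]
      have hk0 : k ≠ 0 := by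
        rintro rfl
        have h2 : Nat.card G = 1 := by simpa using hk
        rw [hg'] at h2
        exact hpp.one_lt.ne' (Nat.eq_one_of_mul_eq_one_right h2)
      have h2 : ζ ^ (k - 1) = 1 := by
        have h3 : ζ ≠ 0 := hζ.ne_zero hg0
        apply mul_right_cancel₀ h3
        rw [← pow_succ, Nat.sub_add_cancel (Nat.pos_of_ne_zero hk0), h1, one_mul]
      have h3 := hζ.dvd_of_pow_eq_one _ h2
      exact ((Nat.modEq_iff_dvd' (Nat.pos_of_ne_zero hk0)).mpr h3).symm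
    · funext g
      exact sigma_character (IsIrrCharacter.isCharacter χ.2) (σ : ℂ →+* ℂ) k hσ' g
  have hkσ : ∀ (k : ℕ) (hk : k.Coprime (Nat.card G)), k ≡ 1 [MOD g'] → ∃ σ : ℂ ≃+* ℂ, σ ζ = ζ ∧
      ∀ χ : IrrCharacter G, (powI hk χ : G → ℂ) = fun g => σ ((χ : G → ℂ) g) := by
    intro k hk hk1
    obtain ⟨σ, hσ⟩ := exists_sigmaEquiv (Nat.card G) k hk
    refine ⟨σ, ?_, fun χ => ?_⟩
    · rw [hσ ζ hζn]
      have h1 := pow_eq_pow_of_modEq hk1 hζ.pow_eq_one
      simpa using h1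
    · funext g
      exact (sigma_character (IsIrrCharacter.isCharacter χ.2) (σ : ℂ →+* ℂ) k hσ g).symm
  have hdisj : Disjoint (X : Set (IrrCharacter G)) (Set.range μ) := by
    rw [Set.disjoint_left]
    rintro χ hχ ⟨i, rfl⟩
    exact hdis _ hχ i rfl
  have hYc : Nat.card (Set.range μ) = r := by
    rw [Nat.card_range_of_injective hinj]
    simp
  have he0 : 0 < r := hr
  have hdivr : (p - 1) / r = e := by
    rw [← hre]
    exact Nat.mul_div_cancel_left _ he0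
  let δ' : IrrCharacter G → ℤ := fun χ => if χ ∈ X then δ χ else ε
  refine ⟨Set.range μ, ?_, ⟨μ ⟨0, hr⟩, ⟨_, rfl⟩⟩, ?_, ?_, ?_, ?_, δ', ?_, ?_⟩
  · rw [hBeq]
    exact Set.subset_union_right
  · rintro _ ⟨j, rfl⟩ ψ
    constructor
    · rintro ⟨σ, hσ, hψ⟩
      obtain ⟨k, hk, hk1, h⟩ := hσk σ hσ
      have h1 : ψ = powI hk (μ j) := by
        apply Subtype.ext
        rw [hψ, h]
      rw [h1]
      exact (hgood k hk hk1).2 j
    · rintro ⟨j', rfl⟩
      obtain ⟨k, hk, hk1, h⟩ := htrans j j'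
      obtain ⟨σ, hσ, h2⟩ := hkσ k hk hk1
      refine ⟨σ, hσ, ?_⟩
      rw [← h, h2]
  · intro χ hχ hχY ψ ⟨σ, hσ, hψ⟩
    have hχX : χ ∈ X := by
      rw [hBeq] at hχ
      rcases hχ with h | h
      · exact h
      · exact absurd h hχY
    obtain ⟨k, hk, hk1, h⟩ := hσk σ hσ
    have h1 : ψ = powI hk χ := by
      apply Subtype.ext
      rw [hψ, h]
    rw [h1]
    exact (hgood k hk hk1).1 χ hχX
  · rw [hYc]
    exact ⟨e, hre.symm⟩
  · rw [hYc, hdivr, hBeq, Nat.card_coe_set_eq, Set.ncard_union_eq hdisj X.finite_toSet (Set.finite_range μ),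
      Set.ncard_coe_finset, ← Nat.card_coe_set_eq (Set.range μ), hYc, hXc, add_comm]
  · intro χ hχ
    by_cases h : χ ∈ X
    · simp only [δ', if_pos h]
      exact hδ χ h
    · simp only [δ', if_neg h]
      exact hε
  · rintro x hx _ ⟨j, rfl⟩
    have h1 : B \ Set.range μ = (X : Set (IrrCharacter G)) := by
      rw [hBeq, Set.union_sdiff_right]
      exact hdisj.sdiff_eq_left
    rw [h1, finsum_mem_coe_finset]
    have h2 : ∑ χ ∈ X, (δ' χ : ℂ) * (χ : G → ℂ) x = ∑ χ ∈ X, (δ χ : ℂ) * (χ : G → ℂ) x :=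
      sum_congr rfl fun χ hχ => by simp only [δ', if_pos hχ]
    have h3 : δ' (μ j) = ε := by
      simp only [δ', if_neg (fun h : μ j ∈ X => hdis _ h j rfl)]
    rw [h2, h3]
    exact hrel j x hx

end Cfsg.Agent.Lib.DefOne
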