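import Cfsg.Agent.Lib.DefOne.Twist
import Cfsg.Agent.Lib.Blocks.PrincipalFinal

/-!
# The Gram matrix of the generalized characters `vv`
-/

set_option autoImplicit false
set_option linter.unusedSectionVars false
set_option linter.unusedVariables false

namespace Cfsg.Agent.Lib.DefOne

open Cfsg Cfsg.Agent.Lib.Char Cfsg.Agent.Lib.Blocks Finset
open scoped ComplexConjugate

universe u

attribute [local instance] fintypeOfSubgroup

variable {G : Type u} [Group G] [Fintype G] {p : ℕ} [hp : Fact p.Prime] {P : Sylow p G}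

local notation "𝐐" => ((P : Subgroup G))
local notation "𝐂" => (Subgroup.centralizer (((P : Subgroup G)) : Set G))
local notation "𝐍" => (Subgroup.normalizer (((P : Subgroup G)) : Set G))

theorem indFun_comp_cjC (ϕ : 𝐂 → ℂ) (n : 𝐍) : indFun 𝐂 (ϕ ∘ cjC n) = indFun 𝐂 ϕ := by
  funext g
  rw [indFun_apply, indFun_apply]
  congr 1
  refine Fintype.sum_equiv (Equiv.mulRight (n : G)) _ _ fun x => ?_
  simp only [Equiv.coe_mulRight]
  have h0 : (x * (n : G))⁻¹ * g * (x * (n : G)) = (n : G)⁻¹ * (x⁻¹ * g * x) * (n : G) := by group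
  by_cases hx : x⁻¹ * g * x ∈ 𝐂
  · have h1 : (x * (n : G))⁻¹ * g * (x * (n : G)) ∈ 𝐂 := by
      rw [h0]
      exact (cjC n ⟨_, hx⟩ : 𝐂).2
    rw [extendByZero_of_mem _ _ hx, extendByZero_of_mem _ _ h1]
    simp only [Function.comp_apply]
    congr 1
    apply Subtype.ext
    exact h0.symm
  · have h1 : (x * (n : G))⁻¹ * g * (x * (n : G)) ∉ 𝐂 := by
      intro h
      apply hx
      rw [h0] at h
      have := (cjC n⁻¹ ⟨_, h⟩ : 𝐂).2
      have h2 : ((cjC n⁻¹ ⟨_, h⟩ : 𝐂) : G) = x⁻¹ * g * x := by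
        show ((n⁻¹ : 𝐍) : G)⁻¹ * ((n : G)⁻¹ * (x⁻¹ * g * x) * (n : G)) * ((n⁻¹ : 𝐍) : G) = _
        simp only [Subgroup.coe_inv, inv_inv]
        group
      rwa [h2] at this
    rw [extendByZero_of_notMem _ _ hx, extendByZero_of_notMem _ _ h1]

theorem indFun_cjI (n : 𝐍) (ξ : IrrCharacter 𝐂) : indFun 𝐂 (cjI n ξ : 𝐂 → ℂ) = indFun 𝐂 (ξ : 𝐂 → ℂ) :=
  indFun_comp_cjC (ξ : 𝐂 → ℂ) n

theorem vv_cjI (hP : Nat.card (P : Subgroup G) = p) (n : 𝐍) (a : 𝐐 →* ℂˣ) (θ : IrrCharacter 𝐂) :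
    vv hP (twist 𝐐 n a) (cjI n θ) = vv hP a θ := by
  rw [vv, vv, ← cjI_tw, indFun_cjI, indFun_cjI]

theorem vv_stab (hP : Nat.card (P : Subgroup G) = p) {n : 𝐍} {θ : IrrCharacter 𝐂} (hn : n ∈ stabT θ) (a : 𝐐 →* ℂˣ) :
    vv hP (twist 𝐐 n a) θ = vv hP a θ := by
  have := vv_cjI hP n a θ
  rwa [(mem_stabT.mp hn : cjI n θ = θ)] at this

open scoped Classical in
/-- The expansion of the inner product of two `vv`. -/
theorem vv_gram (hP : Nat.card (P : Subgroup G) = p) {θ : IrrCharacter 𝐂} (hθ : PT θ) {a b : 𝐐 →* ℂˣ} (ha : a ≠ 1) (hb : b ≠ 1) :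
    classInner (vv hP a θ) (vv hP b θ) = (Nat.card 𝐂 : ℂ)⁻¹ *
      (((Nat.card (stabT θ) : ℕ) : ℂ) + ((univ.filter (fun n : 𝐍 => n ∈ stabT θ ∧ twist 𝐐 n b = a)).card : ℂ)) := by
  rw [vv_eq_ind, vv_eq_ind, ind_inner hP _ _ (tw_sub_regular hP a θ)]
  congr 1
  have hterm : ∀ n : 𝐍, classInner ((tw hP a θ : 𝐂 → ℂ) - (θ : 𝐂 → ℂ)) (((tw hP b θ : 𝐂 → ℂ) - (θ : 𝐂 → ℂ)) ∘ cjC n) =
      (if n ∈ stabT θ then (1 : ℂ) else 0) + (if n ∈ stabT θ ∧ twist 𝐐 n b = a then (1 : ℂ) else 0) := by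
    intro n
    have h1 : ((tw hP b θ : 𝐂 → ℂ) - (θ : 𝐂 → ℂ)) ∘ cjC n =
        (tw hP (twist 𝐐 n b) (cjI n θ) : 𝐂 → ℂ) - (cjI n θ : 𝐂 → ℂ) := by
      rw [← cjI_tw]
      rfl
    rw [h1, classInner_sub_left, classInner_sub_right, classInner_sub_right]
    have hθn : PT (cjI n θ) := hθ.cjI n
    have h2 := classInner_tw_tw hP hθ hθn a (twist 𝐐 n b)
    have h3 := classInner_tw_tw hP hθ hθn a 1
    have h4 := classInner_tw_tw hP hθ hθn 1 (twist 𝐐 n b)
    have h5 := classInner_tw_tw hP hθ hθn 1 1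
    rw [tw_one] at h3 h5
    rw [tw_one] at h4 h5
    rw [h2, h3, h4, h5]
    have hb' : (1 : 𝐐 →* ℂˣ) ≠ twist 𝐐 n b := fun h => twist_ne_one 𝐐 hb n h.symm
    simp only [ha, hb', false_and, if_false, sub_zero]
    have hiff : θ = cjI n θ ↔ n ∈ stabT θ := ⟨fun h => mem_stabT.mpr h.symm, fun h => (mem_stabT.mp h).symm⟩
    simp only [true_and, hiff]
    have h6 : (a = twist 𝐐 n b ∧ n ∈ stabT θ) ↔ (n ∈ stabT θ ∧ twist 𝐐 n b = a) := by
      constructor
      · rintro ⟨h7, h8⟩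
        exact ⟨h8, h7.symm⟩
      · rintro ⟨h7, h8⟩
        exact ⟨h8.symm, h7⟩
    simp only [h6]
    ring
  rw [Finset.sum_congr rfl (fun n _ => hterm n), Finset.sum_add_distrib]
  congr 1
  · rw [Finset.sum_boole]
    congr 2
    exact (Nat.subtype_card _ (fun x => by simp)).symm
  · rw [Finset.sum_boole]

section Orbit

variable {G' : Type u} [Group G'] {Q : Subgroup G'} [Finite Q] [Fintype (Subgroup.normalizer (Q : Set G'))] [Fintype (Q →* ℂˣ)]

open scoped Classical in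
/-- A fibre of `n ↦ ψⁿ` inside a subgroup containing the centralizer. -/
theorem card_filter_twistT
    (hcomm : ∀ a ∈ Q, ∀ b ∈ Q, a * b = b * a)
    (hfrob : ∀ y : G', y ∈ Q → y ≠ 1 →
      Subgroup.centralizer ({y} : Set G') ⊓ Subgroup.normalizer (Q : Set G') = Subgroup.centralizer (Q : Set G'))
    (T : Subgroup (Subgroup.normalizer (Q : Set G')))
    (hCT : ∀ n : Subgroup.normalizer (Q : Set G'), (n : G') ∈ Subgroup.centralizer (Q : Set G') → n ∈ T)
    {ψ : Q →* ℂˣ} (hψ : ψ ≠ 1) {n₀ : Subgroup.normalizer (Q : Set G')} (hn₀ : n₀ ∈ T) :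
    (Finset.univ.filter (fun n : Subgroup.normalizer (Q : Set G') => n ∈ T ∧ twist Q n ψ = twist Q n₀ ψ)).card =
      Nat.card (Subgroup.centralizer (Q : Set G')) := by
  rw [← card_filter_twist hcomm hfrob hψ n₀]
  congr 1
  ext n
  simp only [Finset.mem_filter, Finset.mem_univ, true_and]
  refine ⟨fun h => h.2, fun h => ⟨?_, h⟩⟩
  have h1 : (n₀⁻¹ * n : Subgroup.normalizer (Q : Set G')) ∈ T := by
    apply hCT
    apply mem_centralizer_of_twist_eq hcomm hfrob hψ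
    rw [twist_mul, h, twist_inv_twist]
  have h2 := T.mul_mem hn₀ h1
  simpa using h2

open scoped Classical in
/-- The orbits of a subgroup of the normalizer on the non-principal linear characters. -/
theorem exists_orbit_dataT
    (hcomm : ∀ a ∈ Q, ∀ b ∈ Q, a * b = b * a)
    (hfrob : ∀ y : G', y ∈ Q → y ≠ 1 →
      Subgroup.centralizer ({y} : Set G') ⊓ Subgroup.normalizer (Q : Set G') = Subgroup.centralizer (Q : Set G'))
    (T : Subgroup (Subgroup.normalizer (Q : Set G')))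
    (hCT : ∀ n : Subgroup.normalizer (Q : Set G'), (n : G') ∈ Subgroup.centralizer (Q : Set G') → n ∈ T)
    (hQ : Nat.card Q ≠ 1) :
    ∃ (r : ℕ) (rep : Fin r → (Q →* ℂˣ)) (idx : (Q →* ℂˣ) → Fin r),
      (∀ i, rep i ≠ 1) ∧ (∀ i, idx (rep i) = i) ∧
      (∀ ψ ψ', ψ ≠ 1 → ((ψ' ≠ 1 ∧ idx ψ' = idx ψ) ↔ ∃ n ∈ T, twist Q n ψ = ψ')) ∧
      (∀ i, (Finset.univ.filter (fun ψ : Q →* ℂˣ => ψ ≠ 1 ∧ idx ψ = i)).card * Nat.card (Subgroup.centralizer (Q : Set G')) =
        Nat.card T) ∧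
      r * Nat.card T = (Nat.card Q - 1) * Nat.card (Subgroup.centralizer (Q : Set G')) := by
  letI : Fintype Q := Fintype.ofFinite _
  have hcomm' : ∀ a b : Q, a * b = b * a := fun a b => Subtype.ext (hcomm a a.2 b b.2)
  have hLcard : Nat.card (Q →* ℂˣ) = Nat.card Q := card_dual hcomm'
  obtain ⟨ψ₀, hψ₀⟩ : ∃ ψ₀ : Q →* ℂˣ, ψ₀ ≠ 1 := by
    haveI : Nontrivial (Q →* ℂˣ) := by
      rw [← Finite.one_lt_card_iff_nontrivial, hLcard]
      have := Nat.card_pos (α := Q)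
      omega
    exact exists_ne 1
  let S : Setoid {ψ : Q →* ℂˣ // ψ ≠ 1} :=
    { r := fun a b => ∃ n ∈ T, twist Q n a.1 = b.1
      iseqv := ⟨fun a => ⟨1, T.one_mem, twist_one Q a.1⟩,
        fun {a b} ⟨n, hnT, hn⟩ => ⟨n⁻¹, T.inv_mem hnT, by rw [← hn, twist_inv_twist]⟩,
        fun {a b c} ⟨n, hnT, hn⟩ ⟨n', hnT', hn'⟩ => ⟨n' * n, T.mul_mem hnT' hnT, by rw [twist_mul, hn, hn']⟩⟩ }
  letI : Fintype (Quotient S) := Fintype.ofFinite _
  let e := Fintype.equivFin (Quotient S)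
  let rep : Fin (Fintype.card (Quotient S)) → (Q →* ℂˣ) := fun i => (Quotient.out (e.symm i)).1
  let idx : (Q →* ℂˣ) → Fin (Fintype.card (Quotient S)) := fun ψ =>
    if hψ : ψ ≠ 1 then e (Quotient.mk S ⟨ψ, hψ⟩) else e (Quotient.mk S ⟨ψ₀, hψ₀⟩)
  have hrep : ∀ i, rep i ≠ 1 := fun i => (Quotient.out (e.symm i)).2
  have hidx : ∀ i, idx (rep i) = i := by
    intro i
    simp only [idx, dif_pos (hrep i)]
    have h1 : (Quotient.mk S ⟨rep i, hrep i⟩) = e.symm i := Quotient.out_eq (e.symm i)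
    rw [h1, Equiv.apply_symm_apply]
  have hiff : ∀ ψ ψ', ψ ≠ 1 → ((ψ' ≠ 1 ∧ idx ψ' = idx ψ) ↔ ∃ n ∈ T, twist Q n ψ = ψ') := by
    intro ψ ψ' hψ
    constructor
    · rintro ⟨hψ', hi⟩
      simp only [idx, dif_pos hψ', dif_pos hψ] at hi
      have h1 := e.injective hi
      have h2 : S.r ⟨ψ, hψ⟩ ⟨ψ', hψ'⟩ := Quotient.exact h1.symm
      exact h2
    · rintro ⟨n, hnT, rfl⟩
      have hψ' := twist_ne_one Q hψ n
      refine ⟨hψ', ?_⟩
      simp only [idx, dif_pos hψ', dif_pos hψ]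
      congr 1
      exact (Quotient.sound (s := S) (show S.r ⟨ψ, hψ⟩ ⟨twist Q n ψ, hψ'⟩ from ⟨n, hnT, rfl⟩)).symm
  -- the orbit sizes
  have hf : ∀ i, (Finset.univ.filter (fun ψ : Q →* ℂˣ => ψ ≠ 1 ∧ idx ψ = i)).card * Nat.card (Subgroup.centralizer (Q : Set G')) =
      Nat.card T := by
    intro i
    have h1 := Finset.card_eq_sum_card_fiberwise (s := Finset.univ.filter (fun n : Subgroup.normalizer (Q : Set G') => n ∈ T))
      (t := Finset.univ.filter (fun ψ : Q →* ℂˣ => ψ ≠ 1 ∧ idx ψ = i))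
      (f := fun n : Subgroup.normalizer (Q : Set G') => twist Q n (rep i)) (by
        intro n hn
        have hnT : n ∈ T := (Finset.mem_filter.mp hn).2
        have h2 := (hiff (rep i) (twist Q n (rep i)) (hrep i)).mpr ⟨n, hnT, rfl⟩
        simp only [Finset.coe_filter, Finset.mem_univ, true_and, Set.mem_ofPred_eq]
        exact ⟨h2.1, by rw [h2.2, hidx]⟩)
    have h5 : Nat.card T = (Finset.univ.filter (fun n : Subgroup.normalizer (Q : Set G') => n ∈ T)).card :=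
      Nat.subtype_card _ (fun x => by simp)
    rw [h5, h1]
    have h3 : ∀ ψ' ∈ Finset.univ.filter (fun ψ : Q →* ℂˣ => ψ ≠ 1 ∧ idx ψ = i),
        ((Finset.univ.filter (fun n : Subgroup.normalizer (Q : Set G') => n ∈ T)).filter
          (fun n : Subgroup.normalizer (Q : Set G') => twist Q n (rep i) = ψ')).card =
          Nat.card (Subgroup.centralizer (Q : Set G')) := by
      intro ψ' hψ'
      obtain ⟨-, hne, hi⟩ := Finset.mem_filter.mp hψ'
      obtain ⟨n₀, hn₀, rfl⟩ := (hiff (rep i) ψ' (hrep i)).mp ⟨hne, by rw [hi, hidx]⟩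
      rw [Finset.filter_filter]
      convert card_filter_twistT hcomm hfrob T hCT (hrep i) hn₀
    rw [Finset.sum_congr rfl h3, Finset.sum_const, smul_eq_mul]
  refine ⟨Fintype.card (Quotient S), rep, idx, hrep, hidx, hiff, fun i => by convert hf i, ?_⟩
  have hsum : ∑ i : Fin (Fintype.card (Quotient S)), (Finset.univ.filter (fun ψ : Q →* ℂˣ => ψ ≠ 1 ∧ idx ψ = i)).card = Nat.card Q - 1 := by
    have h1 := Finset.card_eq_sum_card_fiberwise (s := Finset.univ.filter (fun ψ : Q →* ℂˣ => ψ ≠ 1)) (t := Finset.univ)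
      (f := idx) (fun _ _ => by simp)
    have h2 : (Finset.univ.filter (fun ψ : Q →* ℂˣ => ψ ≠ 1)).card = Nat.card Q - 1 := by
      rw [← hLcard, Nat.card_eq_fintype_card, ← Finset.card_univ]
      have h3 : Finset.univ.filter (fun ψ : Q →* ℂˣ => ψ ≠ 1) = Finset.univ.erase 1 := by
        ext ψ
        simp
      rw [h3, Finset.card_erase_of_mem (Finset.mem_univ _)]
    rw [← h2, h1]
    refine Finset.sum_congr rfl fun i _ => ?_
    congr 1
    ext ψ
    simp [Finset.mem_filter]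
  calc Fintype.card (Quotient S) * Nat.card T
      = ∑ i : Fin (Fintype.card (Quotient S)), Nat.card T := by
        simp
    _ = ∑ i : Fin (Fintype.card (Quotient S)), (Finset.univ.filter (fun ψ : Q →* ℂˣ => ψ ≠ 1 ∧ idx ψ = i)).card * Nat.card (Subgroup.centralizer (Q : Set G')) :=
        Finset.sum_congr rfl fun i _ => (hf i).symm
    _ = _ := by rw [← Finset.sum_mul, hsum]

end Orbit

open scoped Classical in
/-- The Gram matrix on orbit representatives. -/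
theorem gram_rep (hP : Nat.card (P : Subgroup G) = p) {M : Ideal AlgInt} (hM : IsPModular p M) [Fintype (𝐐 →* ℂˣ)]
    {θ : IrrCharacter 𝐂} (hθ : PT θ) {e r : ℕ}
    (hTe : Nat.card (stabT θ) = e * Nat.card 𝐂) {rep : Fin r → (𝐐 →* ℂˣ)} {idx : (𝐐 →* ℂˣ) → Fin r}
    (hrep : ∀ i, rep i ≠ 1) (hidx : ∀ i, idx (rep i) = i)
    (hiff : ∀ ψ ψ', ψ ≠ 1 → ((ψ' ≠ 1 ∧ idx ψ' = idx ψ) ↔ ∃ n ∈ stabT θ, twist 𝐐 n ψ = ψ')) (i j : Fin r) :
    classInner (vv hP (rep i) θ) (vv hP (rep j) θ) = (e : ℂ) + if i = j then 1 else 0 := by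
  have hs := frobSetup_of_card hM P hP
  have hC0 : (Nat.card 𝐂 : ℂ) ≠ 0 := by
    exact_mod_cast (Nat.card_pos (α := 𝐂)).ne'
  rw [vv_gram hP hθ (hrep i) (hrep j), hTe]
  have hcount : (univ.filter (fun n : 𝐍 => n ∈ stabT θ ∧ twist 𝐐 n (rep j) = rep i)).card =
      if i = j then Nat.card 𝐂 else 0 := by
    split_ifs with hij
    · subst hij
      have h1 := card_filter_twistT hs.comm hs.frob (stabT θ)
        (fun n hn => toN_mem_stabT (⟨n, hn⟩ : 𝐂) θ) (hrep i) (n₀ := 1) (stabT θ).one_mem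
      rw [twist_one] at h1
      convert h1
    · rw [Finset.card_eq_zero, Finset.filter_eq_empty_iff]
      rintro n - ⟨hn, h2⟩
      apply hij
      have h3 := ((hiff (rep j) (rep i) (hrep j)).mpr ⟨n, hn, h2⟩).2
      rw [hidx, hidx] at h3
      exact h3
  rw [hcount]
  split_ifs with hij
  · push_cast
    field_simp
  · push_cast
    field_simp
    ring

end Cfsg.Agent.Lib.DefOne
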