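import Cfsg.Agent.Lib.DefOne.Abs
import Cfsg.Agent.Lib.Blocks.PrincipalFinal
import Cfsg.Agent.Lib.Small.BrauerForm
import Cfsg.Agent.Lib.H8Group.Extension

/-!
# Lifting linear characters of a Sylow subgroup of prime order to its centralizer
-/

set_option autoImplicit false
set_option linter.unusedSectionVars false
set_option linter.unusedVariables false

namespace Cfsg.Agent.Lib.DefOne

open Cfsg Cfsg.Agent.Lib.Char Cfsg.Agent.Lib.Blocks Finset
open scoped ComplexConjugate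

universe u

attribute [local instance] fintypeOfSubgroup

variable {G : Type u} [Group G] [Fintype G] {p : ℕ} [hp : Fact p.Prime] (P : Sylow p G)

local notation "𝐐" => ((P : Subgroup G))
local notation "𝐂" => (Subgroup.centralizer (((P : Subgroup G)) : Set G))
local notation "𝐍" => (Subgroup.normalizer (((P : Subgroup G)) : Set G))

variable {P}

theorem le_cent (hP : Nat.card (P : Subgroup G) = p) : 𝐐 ≤ 𝐂 := fun x hx =>
  Subgroup.mem_centralizer_iff.mpr fun y hy =>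
    Cfsg.Agent.Lib.Small.BD.comm_of_prime (p := p) 𝐐 hP y hy x hx

theorem pow_p_of_mem (hP : Nat.card (P : Subgroup G) = p) {u : G} (hu : u ∈ 𝐐) : u ^ p = 1 := by
  have h1 : (⟨u, hu⟩ : 𝐐) ^ Nat.card 𝐐 = 1 := pow_card_eq_one'
  rw [hP] at h1
  exact congrArg Subtype.val h1

theorem _root_.Nat.exists_mul_mod_eq_one_of_coprime' {k p : ℕ} (hk : Nat.Coprime k p) (hp : p.Prime) :
    ∃ k' : ℕ, k * k' ≡ 1 [MOD p] := by
  have h1 : Nat.Coprime k p := hk
  obtain ⟨m, -, hm⟩ := Nat.exists_mul_mod_eq_one_of_coprime h1 hp.one_lt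
  exact ⟨m, by
    show k * m % p = 1 % p
    rw [hm, Nat.mod_eq_of_lt hp.one_lt]⟩

/-- The transfer to `P`. -/
theorem exists_transfer_data (hP : Nat.card (P : Subgroup G) = p) :
    ∃ (φ : 𝐂 →* 𝐐) (k : ℕ), Nat.Coprime k p ∧
      (∀ u : 𝐂, (u : G) ∈ 𝐐 → ((φ u : 𝐐) : G) = (u : G) ^ k) ∧
      (∀ y : 𝐂, ¬ p ∣ orderOf y → φ y = 1) ∧
      (∀ c : 𝐂, ∃ u y : 𝐂, c = u * y ∧ (u : G) ∈ 𝐐 ∧ ¬ p ∣ orderOf y) := by
  classical
  have hpp : p.Prime := hp.out
  have hle : 𝐐 ≤ 𝐂 := le_cent hP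
  let S : Sylow p 𝐂 := P.subtype hle
  have hSmem : ∀ x : 𝐂, x ∈ (S : Subgroup 𝐂) ↔ (x : G) ∈ 𝐐 := by
    intro x
    simp only [S, Sylow.coe_subtype]
    exact Subgroup.mem_subgroupOf
  have hN : Subgroup.normalizer ((S : Subgroup 𝐂) : Set 𝐂) ≤ Subgroup.centralizer ((S : Subgroup 𝐂) : Set 𝐂) := by
    intro x _
    rw [Subgroup.mem_centralizer_iff]
    intro t ht
    apply Subtype.ext
    exact Subgroup.mem_centralizer_iff.mp x.2 t ((hSmem t).mp ht)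
  let φ₀ : 𝐂 →* (S : Subgroup 𝐂) := MonoidHom.transferSylow S hN
  let ι : (S : Subgroup 𝐂) →* 𝐐 :=
    { toFun := fun x => ⟨((x : 𝐂) : G), (hSmem _).mp x.2⟩
      map_one' := rfl
      map_mul' := fun a b => rfl }
  refine ⟨ι.comp φ₀, (S : Subgroup 𝐂).index, ?_, ?_, ?_, ?_⟩
  · rw [Nat.coprime_comm, Nat.Prime.coprime_iff_not_dvd hpp]
    exact S.not_dvd_index
  · intro u hu
    have h1 := MonoidHom.transferSylow_eq_pow S hN u ((hSmem u).mpr hu)
    show (((φ₀ u : (S : Subgroup 𝐂)) : 𝐂) : G) = _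
    have h2 : φ₀ u = _ := h1
    rw [h2]
    rfl
  · intro y hy
    have h1 : orderOf ((ι.comp φ₀) y) ∣ orderOf y := orderOf_map_dvd _ _
    have h2 : orderOf ((ι.comp φ₀) y) ∣ Nat.card 𝐐 := orderOf_dvd_natCard _
    rw [hP] at h2
    rcases (Nat.dvd_prime hpp).mp h2 with h3 | h3
    · exact orderOf_eq_one_iff.mp h3
    · rw [h3] at h1
      exact absurd h1 hy
  · intro c
    have hcompl := MonoidHom.ker_transferSylow_isComplement' S hN
    obtain ⟨⟨k, s⟩, hks, -⟩ := (Subgroup.IsComplement.existsUnique hcompl c)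
    have hks' : (k : 𝐂) * (s : 𝐂) = c := hks
    refine ⟨s, k, ?_, (hSmem _).mp s.2, ?_⟩
    · rw [← hks']
      apply Subtype.ext
      exact (Subgroup.mem_centralizer_iff.mp (k : 𝐂).2 _ ((hSmem _).mp s.2)).symm
    · intro h
      have h1 := MonoidHom.not_dvd_card_ker_transferSylow S hN
      apply h1
      have h2 : orderOf (k : 𝐂) = orderOf k := Subgroup.orderOf_coe k
      rw [h2] at h
      exact h.trans (orderOf_dvd_natCard k)

/-- Every element of the centralizer decomposes. -/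
theorem exists_decomp (hP : Nat.card (P : Subgroup G) = p) (c : 𝐂) :
    ∃ u y : 𝐂, c = u * y ∧ (u : G) ∈ 𝐐 ∧ ¬ p ∣ orderOf y := by
  obtain ⟨φ, k, -, -, -, h⟩ := exists_transfer_data hP
  exact h c

/-- Two homomorphisms agreeing on `P` and on regular elements agree. -/
theorem hom_ext_cent (hP : Nat.card (P : Subgroup G) = p) {A : Type*} [Monoid A] {f g : 𝐂 →* A}
    (h1 : ∀ u : 𝐂, (u : G) ∈ 𝐐 → f u = g u) (h2 : ∀ y : 𝐂, ¬ p ∣ orderOf y → f y = g y) : f = g := by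
  ext c
  obtain ⟨u, y, rfl, hu, hy⟩ := exists_decomp hP c
  rw [map_mul, map_mul, h1 u hu, h2 y hy]

theorem exists_lift (hP : Nat.card (P : Subgroup G) = p) (lam : 𝐐 →* ℂˣ) :
    ∃ L : 𝐂 →* ℂˣ, (∀ u : 𝐂, ∀ hu : (u : G) ∈ 𝐐, L u = lam ⟨u, hu⟩) ∧ ∀ y : 𝐂, ¬ p ∣ orderOf y → L y = 1 := by
  classical
  have hpp : p.Prime := hp.out
  obtain ⟨φ, k, hk, h1, h2, -⟩ := exists_transfer_data hP
  obtain ⟨k', hk'⟩ : ∃ k' : ℕ, k * k' ≡ 1 [MOD p] := Nat.exists_mul_mod_eq_one_of_coprime' hk hpp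
  refine ⟨(lam.comp φ) ^ k', ?_, ?_⟩
  · intro u hu
    rw [MonoidHom.pow_apply, MonoidHom.comp_apply]
    have h3 : φ u = (⟨u, hu⟩ : 𝐐) ^ k := by
      apply Subtype.ext
      rw [h1 u hu]
      rfl
    rw [h3, map_pow, ← pow_mul]
    have h4 : lam ⟨u, hu⟩ ^ p = 1 := by
      rw [← map_pow]
      have : (⟨u, hu⟩ : 𝐐) ^ p = 1 := Subtype.ext (pow_p_of_mem hP hu)
      rw [this, map_one]
    rw [pow_eq_pow_of_modEq hk' h4, pow_one]
  · intro y hy
    rw [MonoidHom.pow_apply, MonoidHom.comp_apply, h2 y hy, map_one, one_pow]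


/-- The lift of a linear character. -/
noncomputable def LL (hP : Nat.card (P : Subgroup G) = p) (lam : 𝐐 →* ℂˣ) : 𝐂 →* ℂˣ :=
  (exists_lift hP lam).choose

theorem LL_mem (hP : Nat.card (P : Subgroup G) = p) (lam : 𝐐 →* ℂˣ) (u : 𝐂) (hu : (u : G) ∈ 𝐐) :
    LL hP lam u = lam ⟨u, hu⟩ :=
  (exists_lift hP lam).choose_spec.1 u hu

theorem LL_reg (hP : Nat.card (P : Subgroup G) = p) (lam : 𝐐 →* ℂˣ) (y : 𝐂) (hy : ¬ p ∣ orderOf y) :
    LL hP lam y = 1 :=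
  (exists_lift hP lam).choose_spec.2 y hy

theorem LL_one (hP : Nat.card (P : Subgroup G) = p) : LL hP (1 : 𝐐 →* ℂˣ) = 1 := by
  apply hom_ext_cent hP
  · intro u hu
    rw [LL_mem hP _ u hu]
    rfl
  · intro y hy
    rw [LL_reg hP _ y hy]
    rfl

theorem LL_mul (hP : Nat.card (P : Subgroup G) = p) (a b : 𝐐 →* ℂˣ) : LL hP (a * b) = LL hP a * LL hP b := by
  apply hom_ext_cent hP
  · intro u hu
    rw [MonoidHom.mul_apply, LL_mem hP _ u hu, LL_mem hP _ u hu, LL_mem hP _ u hu]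
    rfl
  · intro y hy
    rw [MonoidHom.mul_apply, LL_reg hP _ y hy, LL_reg hP _ y hy, LL_reg hP _ y hy, one_mul]

theorem LL_inv (hP : Nat.card (P : Subgroup G) = p) (a : 𝐐 →* ℂˣ) : LL hP a⁻¹ = (LL hP a)⁻¹ := by
  apply hom_ext_cent hP
  · intro u hu
    rw [MonoidHom.inv_apply, LL_mem hP _ u hu, LL_mem hP _ u hu]
    rfl
  · intro y hy
    rw [MonoidHom.inv_apply, LL_reg hP _ y hy, LL_reg hP _ y hy, inv_one]

theorem LL_injective (hP : Nat.card (P : Subgroup G) = p) : Function.Injective (LL (P := P) hP) := by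
  intro a b h
  ext u
  have hu' : (u : G) ∈ 𝐂 := le_cent hP u.2
  have h1 := LL_mem hP a ⟨u, hu'⟩ u.2
  have h2 := LL_mem hP b ⟨u, hu'⟩ u.2
  rw [h] at h1
  have h3 : a u = b u := by
    have h4 : a ⟨(⟨u, hu'⟩ : 𝐂), u.2⟩ = b ⟨(⟨u, hu'⟩ : 𝐂), u.2⟩ := h1.symm.trans h2
    exact h4
  rw [h3]

/-- Conjugation by an element of the normalizer on the centralizer. -/
def cjC (n : 𝐍) : 𝐂 →* 𝐂 where
  toFun c := ⟨(n : G)⁻¹ * c * n, by
    rw [Subgroup.mem_centralizer_iff]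
    intro t ht
    have h1 : (n : G) * t * (n : G)⁻¹ ∈ 𝐐 := (Subgroup.mem_normalizer_iff.mp n.2 t).mp ht
    have h2 := Subgroup.mem_centralizer_iff.mp c.2 _ h1
    calc t * ((n : G)⁻¹ * c * n) = (n : G)⁻¹ * ((n : G) * t * (n : G)⁻¹ * c) * n := by group
      _ = (n : G)⁻¹ * (c * ((n : G) * t * (n : G)⁻¹)) * n := by rw [h2]
      _ = _ := by group⟩
  map_one' := by
    apply Subtype.ext
    simp
  map_mul' a b := by
    apply Subtype.ext
    simp only [Subgroup.coe_mul]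
    group

@[simp] theorem coe_cjC (n : 𝐍) (c : 𝐂) : ((cjC n c : 𝐂) : G) = (n : G)⁻¹ * c * n := rfl

theorem cjC_mul (n m : 𝐍) (c : 𝐂) : cjC (n * m) c = cjC m (cjC n c) := by
  apply Subtype.ext
  simp only [coe_cjC, Subgroup.coe_mul]
  group

theorem cjC_one (c : 𝐂) : cjC (1 : 𝐍) c = c := by
  apply Subtype.ext
  show ((1 : 𝐍) : G)⁻¹ * (c : G) * ((1 : 𝐍) : G) = c
  simp

theorem cjC_inv_cjC (n : 𝐍) (c : 𝐂) : cjC n⁻¹ (cjC n c) = c := by
  rw [← cjC_mul, mul_inv_cancel, cjC_one]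

theorem cjC_cjC_inv (n : 𝐍) (c : 𝐂) : cjC n (cjC n⁻¹ c) = c := by
  rw [← cjC_mul, inv_mul_cancel, cjC_one]

/-- The bijection of conjugation. -/
def cjEquiv (n : 𝐍) : 𝐂 ≃ 𝐂 where
  toFun := cjC n
  invFun := cjC n⁻¹
  left_inv := cjC_inv_cjC n
  right_inv := by
    intro c
    have := cjC_inv_cjC n⁻¹ c
    rwa [inv_inv] at this

theorem orderOf_cjC (n : 𝐍) (c : 𝐂) : orderOf (cjC n c) = orderOf c := by
  have h1 : orderOf (cjC n c) = orderOf ((cjC n c : 𝐂) : G) := (Subgroup.orderOf_coe _).symm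
  have h2 : orderOf c = orderOf (c : G) := (Subgroup.orderOf_coe _).symm
  rw [h1, h2, coe_cjC]
  have h3 : (n : G)⁻¹ * c * n = MulAut.conj (n : G)⁻¹ (c : G) := by simp
  rw [h3, MulEquiv.orderOf_eq]

/-- The lift commutes with conjugation. -/
theorem LL_cjC (hP : Nat.card (P : Subgroup G) = p) (lam : 𝐐 →* ℂˣ) (n : 𝐍) (c : 𝐂) :
    LL hP lam (cjC n c) = LL hP (twist 𝐐 n lam) c := by
  have h : (LL hP lam).comp (cjC n) = LL hP (twist 𝐐 n lam) := by
    apply hom_ext_cent hP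
    · intro u hu
      have h1 : ((cjC n u : 𝐂) : G) ∈ 𝐐 := by
        have h2 := (Subgroup.mem_normalizer_iff.mp (n⁻¹).2 (u : G)).mp hu
        show (n : G)⁻¹ * (u : G) * (n : G) ∈ 𝐐
        simpa using h2
      rw [MonoidHom.comp_apply, LL_mem hP _ _ h1, LL_mem hP _ u hu, twist_apply]
      congr 1
      apply Subtype.ext
      show (n : G)⁻¹ * (u : G) * (n : G) = ((n⁻¹ : 𝐍) : G) * (u : G) * ((n⁻¹ : 𝐍) : G)⁻¹
      simp
    · intro y hy
      rw [MonoidHom.comp_apply, LL_reg hP _ y hy, LL_reg hP]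
      rwa [orderOf_cjC]
  exact DFunLike.congr_fun h c

/-- The twist of an irreducible character of the centralizer by a lifted character. -/
noncomputable def tw (hP : Nat.card (P : Subgroup G) = p) (lam : 𝐐 →* ℂˣ) (θ : IrrCharacter 𝐂) : IrrCharacter 𝐂 :=
  ⟨fun c => ((LL hP lam c : ℂˣ) : ℂ) * (θ : 𝐂 → ℂ) c, Cfsg.Agent.Lib.H8Group.isIrr_twist (LL hP lam) θ.2⟩

end Cfsg.Agent.Lib.DefOne
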