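import Cfsg.Agent.Lib.DefOne.RankGen

/-!
# The main theorem on blocks with defect group of prime order
-/

set_option autoImplicit false
set_option linter.unusedSectionVars false
set_option linter.unusedVariables false

namespace Cfsg.Agent.Lib.DefOne

open Cfsg Cfsg.Agent.Lib.Char Cfsg.Agent.Lib.Blocks Finset
open scoped ComplexConjugate

universe u

attribute [local instance] fintypeOfSubgroup

variable {G : Type u} [Group G] [Fintype G] {p : ℕ} [hp : Fact p.Prime] {P : Sylow p G} {M : Ideal AlgInt}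

local notation "𝐐" => ((P : Subgroup G))
local notation "𝐂" => (Subgroup.centralizer (((P : Subgroup G)) : Set G))
local notation "𝐍" => (Subgroup.normalizer (((P : Subgroup G)) : Set G))

theorem hcomm_Q (hP : Nat.card (P : Subgroup G) = p) : ∀ a b : 𝐐, a * b = b * a :=
  fun a b => Subtype.ext (Small.BD.comm_of_prime (p := p) 𝐐 hP a a.2 b b.2)

noncomputable def fintypeDual (hP : Nat.card (P : Subgroup G) = p) : Fintype (𝐐 →* ℂˣ) :=
  haveI := finite_dual_of_comm (hcomm_Q hP)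
  Fintype.ofFinite _

/-- The full structure of a block with defect group `P`. -/
theorem defOne_main (hM : IsPModular p M) (hP : Nat.card (P : Subgroup G) = p) [Fintype (𝐐 →* ℂˣ)]
    {B : Set (IrrCharacter G)} (hB : IsPBlock M B) (hPB : IsDefectGroup p M B 𝐐)
    {θ : IrrCharacter 𝐂} (hθ : PT θ) (hind : IsInducedBlock M 𝐂 (blockOf M (θ : 𝐂 → ℂ)) B)
    {e f : ℕ} (hTe : Nat.card (stabT θ) = e * Nat.card 𝐂) (hf : Nat.card 𝐍 = f * Nat.card 𝐂) :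
    ∃ (r : ℕ) (rep : Fin r → (𝐐 →* ℂˣ)) (idx : (𝐐 →* ℂˣ) → Fin r) (X : Finset (IrrCharacter G)) (μ : Fin r → IrrCharacter G)
      (δ : IrrCharacter G → ℤ) (ε : ℤ), r * e = p - 1 ∧ 1 ≤ r ∧ (∀ i, rep i ≠ 1) ∧ (∀ i, idx (rep i) = i) ∧
      (∀ ψ ψ', ψ ≠ 1 → ((ψ' ≠ 1 ∧ idx ψ' = idx ψ) ↔ ∃ n ∈ stabT θ, twist 𝐐 n ψ = ψ')) ∧
      Function.Injective μ ∧ (∀ χ ∈ X, ∀ i, χ ≠ μ i) ∧ X.card = e ∧
      B = (X : Set (IrrCharacter G)) ∪ Set.range μ ∧ (∀ χ ∈ X, δ χ = 1 ∨ δ χ = -1) ∧ (ε = 1 ∨ ε = -1) ∧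
      (∀ i, vv hP (rep i) θ = fun g => ∑ χ ∈ X, (δ χ : ℂ) * (χ : G → ℂ) g + (ε : ℂ) * (μ i : G → ℂ) g) ∧
      ∀ χ ∈ B, ∃ N : ℕ, (χ : G → ℂ) 1 = (p : ℂ) * N + (f : ℂ) * (θ : 𝐂 → ℂ) 1 * ∑ i, classInner (vv hP (rep i) θ) (χ : G → ℂ) := by
  classical
  have hpp : p.Prime := hp.out
  have hs := frobSetup_of_card hM P hP
  have hQ : Nat.card 𝐐 ≠ 1 := by
    rw [hP]
    exact hpp.one_lt.ne'
  obtain ⟨r, rep, idx, hrep, hidx, hiff, horb, hcard⟩ := exists_orbit_dataT hs.comm hs.frob (stabT θ)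
    (fun n hn => toN_mem_stabT (⟨n, hn⟩ : 𝐂) θ) hQ
  have hre : r * e = p - 1 := by
    rw [hTe, hP, ← mul_assoc] at hcard
    exact Nat.eq_of_mul_eq_mul_right (Nat.card_pos (α := 𝐂)) hcard
  have hr : 1 ≤ r := by
    have h1 := hpp.two_le
    rcases Nat.eq_zero_or_pos r with h | h
    · rw [h, zero_mul] at hre
      omega
    · exact h
  obtain ⟨X, μ, δ, ε, h1, h2, h3, h4, h5, h6, h7, hdeg⟩ := defOne_structure hM hP hB hPB hθ hind hTe hf hr hrep hidx hiff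
    (fun i => by convert horb i) (fun Y hY => rank_bound hM hP hB hθ hind hTe Y hY)
  exact ⟨r, rep, idx, X, μ, δ, ε, hre, hr, hrep, hidx, hiff, h1, h2, h3, h4, h5, h6, h7, hdeg⟩

/-- The inner products of the `vv` with the characters of the structure. -/
theorem inner_X {r : ℕ} {v : Fin r → G → ℂ} {X : Finset (IrrCharacter G)} {μ : Fin r → IrrCharacter G} {δ : IrrCharacter G → ℤ} {ε : ℤ}
    (h2 : ∀ χ ∈ X, ∀ i, χ ≠ μ i)
    (h7 : ∀ i, v i = fun g => ∑ χ ∈ X, (δ χ : ℂ) * (χ : G → ℂ) g + (ε : ℂ) * (μ i : G → ℂ) g) {χ : IrrCharacter G} (hχ : χ ∈ X) (i : Fin r) :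
    classInner (v i) (χ : G → ℂ) = δ χ := by
  classical
  have hi : ∀ ξ ξ' : IrrCharacter G, classInner (ξ : G → ℂ) (ξ' : G → ℂ) = if ξ = ξ' then 1 else 0 := by
    intro ξ ξ'
    by_cases h : ξ = ξ'
    · rw [if_pos h, h]
      exact classInner_irr_self ξ'.2
    · rw [if_neg h]
      exact classInner_irr_of_ne ξ.2 ξ'.2 (fun h' => h (Subtype.ext h'))
  rw [h7 i]
  simp only [classInner]
  have h1 : ∀ g : G, (∑ ξ ∈ X, (δ ξ : ℂ) * (ξ : G → ℂ) g + (ε : ℂ) * (μ i : G → ℂ) g) * conj ((χ : G → ℂ) g) =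
      ∑ ξ ∈ X, (δ ξ : ℂ) * ((ξ : G → ℂ) g * conj ((χ : G → ℂ) g)) + (ε : ℂ) * ((μ i : G → ℂ) g * conj ((χ : G → ℂ) g)) := by
    intro g
    rw [add_mul, sum_mul]
    congr 1
    · refine sum_congr rfl fun ξ _ => ?_
      ring
    · ring
  simp only [h1]
  rw [sum_add_distrib, sum_comm, mul_add, mul_sum]
  have h3 : ∀ ξ : IrrCharacter G, (Nat.card G : ℂ)⁻¹ * ∑ g : G, (δ ξ : ℂ) * ((ξ : G → ℂ) g * conj ((χ : G → ℂ) g)) =
      (δ ξ : ℂ) * classInner (ξ : G → ℂ) (χ : G → ℂ) := by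
    intro ξ
    simp only [classInner]
    rw [← mul_sum]
    ring
  simp only [h3, hi]
  have h4 : (Nat.card G : ℂ)⁻¹ * ∑ g : G, (ε : ℂ) * ((μ i : G → ℂ) g * conj ((χ : G → ℂ) g)) =
      (ε : ℂ) * classInner (μ i : G → ℂ) (χ : G → ℂ) := by
    simp only [classInner]
    rw [← mul_sum]
    ring
  rw [h4, hi, if_neg (fun h => h2 χ hχ i h.symm)]
  simp [hχ]

theorem inner_μ {r : ℕ} {v : Fin r → G → ℂ} {X : Finset (IrrCharacter G)} {μ : Fin r → IrrCharacter G} {δ : IrrCharacter G → ℤ} {ε : ℤ}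
    (hinj : Function.Injective μ) (h2 : ∀ χ ∈ X, ∀ i, χ ≠ μ i)
    (h7 : ∀ i, v i = fun g => ∑ χ ∈ X, (δ χ : ℂ) * (χ : G → ℂ) g + (ε : ℂ) * (μ i : G → ℂ) g) (i j : Fin r) :
    classInner (v i) (μ j : G → ℂ) = if i = j then (ε : ℂ) else 0 := by
  classical
  have hi : ∀ ξ ξ' : IrrCharacter G, classInner (ξ : G → ℂ) (ξ' : G → ℂ) = if ξ = ξ' then 1 else 0 := by
    intro ξ ξ'
    by_cases h : ξ = ξ'
    · rw [if_pos h, h]
      exact classInner_irr_self ξ'.2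
    · rw [if_neg h]
      exact classInner_irr_of_ne ξ.2 ξ'.2 (fun h' => h (Subtype.ext h'))
  rw [h7 i]
  simp only [classInner]
  have h1 : ∀ g : G, (∑ ξ ∈ X, (δ ξ : ℂ) * (ξ : G → ℂ) g + (ε : ℂ) * (μ i : G → ℂ) g) * conj ((μ j : G → ℂ) g) =
      ∑ ξ ∈ X, (δ ξ : ℂ) * ((ξ : G → ℂ) g * conj ((μ j : G → ℂ) g)) + (ε : ℂ) * ((μ i : G → ℂ) g * conj ((μ j : G → ℂ) g)) := by
    intro g
    rw [add_mul, sum_mul]
    congr 1
    · refine sum_congr rfl fun ξ _ => ?_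
      ring
    · ring
  simp only [h1]
  rw [sum_add_distrib, sum_comm, mul_add, mul_sum]
  have h3 : ∀ ξ : IrrCharacter G, (Nat.card G : ℂ)⁻¹ * ∑ g : G, (δ ξ : ℂ) * ((ξ : G → ℂ) g * conj ((μ j : G → ℂ) g)) =
      (δ ξ : ℂ) * classInner (ξ : G → ℂ) (μ j : G → ℂ) := by
    intro ξ
    simp only [classInner]
    rw [← mul_sum]
    ring
  simp only [h3, hi]
  have h4 : (Nat.card G : ℂ)⁻¹ * ∑ g : G, (ε : ℂ) * ((μ i : G → ℂ) g * conj ((μ j : G → ℂ) g)) =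
      (ε : ℂ) * classInner (μ i : G → ℂ) (μ j : G → ℂ) := by
    simp only [classInner]
    rw [← mul_sum]
    ring
  rw [h4, hi]
  have h5 : ∀ ξ ∈ X, ξ ≠ μ j := fun ξ hξ => h2 ξ hξ j
  rw [sum_eq_zero (fun ξ hξ => by rw [if_neg (h5 ξ hξ), mul_zero]), zero_add]
  by_cases hij : i = j
  · subst hij
    simp
  · rw [if_neg (fun h => hij (hinj h)), if_neg hij, mul_zero]

end Cfsg.Agent.Lib.DefOne
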