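import Cfsg.Agent.Lib.Blocks.ModTI

/-!
# Simple modules attached to central idempotents of a complement in `N_G(P)`, `P` of order `p`

This generalizes `Blocks/ModTI.lean` from linear characters of `H` to central idempotents of the
group algebra of `H`.
-/

set_option autoImplicit false
set_option linter.unusedSectionVars false
set_option linter.unusedVariables false

namespace Cfsg.Agent.Lib.DefOne

open Finset Cfsg.Agent.Lib.Blocks.ModTI

universe u v w

section Wit

variable {k : Type v} [Field k] {p : ℕ} [hp : Fact p.Prime] [CharP k p]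
  {G : Type u} [Group G] {T : Type w} [AddCommGroup T] [Module k T]

/-- The operator of a function on a subgroup. -/
noncomputable def piOp (ρ : Representation k G T) {H : Subgroup G} [Fintype H] (π : H → k) : Module.End k T :=
  ∑ h : H, π h • ρ (h : G)

theorem piOp_apply (ρ : Representation k G T) {H : Subgroup G} [Fintype H] (π : H → k) (w : T) :
    piOp ρ π w = ∑ h : H, π h • ρ (h : G) w := by
  simp [piOp, LinearMap.sum_apply]

theorem piOp_comm (ρ : Representation k G T) {H : Subgroup G} [Fintype H] {π : H → k}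
    (hπ : ∀ h x, π (x * h * x⁻¹) = π h) (h₀ : H) :
    piOp ρ π * ρ (h₀ : G) = ρ (h₀ : G) * piOp ρ π := by
  simp only [piOp]
  rw [sum_mul, mul_sum]
  symm
  refine Fintype.sum_equiv (MulAut.conj h₀).toEquiv (fun h => ρ (h₀ : G) * (π h • ρ (h : G)))
    (fun h => (π h • ρ (h : G)) * ρ (h₀ : G)) fun h => ?_
  show ρ (h₀ : G) * (π h • ρ (h : G)) = (π (h₀ * h * h₀⁻¹) • ρ ((h₀ * h * h₀⁻¹ : H) : G)) * ρ (h₀ : G)
  rw [hπ, smul_mul_assoc, mul_smul_comm, ← map_mul, ← map_mul]
  congr 2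
  simp

theorem piOp_mul (ρ : Representation k G T) {H : Subgroup G} [Fintype H] (π π' σ : H → k)
    (hσ : ∀ t, ∑ w, π w * π' (w⁻¹ * t) = σ t) : piOp ρ π * piOp ρ π' = piOp ρ σ := by
  simp only [piOp]
  rw [sum_mul]
  simp only [mul_sum, smul_mul_assoc, mul_smul_comm, smul_sum, smul_smul]
  have h1 : ∀ w : H, ∑ x : H, (π' x * π w) • (ρ (w : G) * ρ (x : G)) =
      ∑ t : H, (π w * π' (w⁻¹ * t)) • ρ (t : G) := by
    intro w
    refine Fintype.sum_equiv (Equiv.mulLeft w) _ _ fun x => ?_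
    simp only [Equiv.coe_mulLeft, inv_mul_cancel_left, Subgroup.coe_mul, map_mul]
    rw [mul_comm]
  rw [sum_congr rfl (fun w _ => h1 w), sum_comm]
  refine sum_congr rfl fun t _ => ?_
  rw [← sum_smul, hσ]

/-- A witness for the idempotent `π` of `H`. -/
structure WitG (ρ : Representation k G T) (P H : Subgroup G) [Fintype P] [Fintype H] (π : H → k)
    (α : T →ₗ[k] k) (v : T) : Prop where
  inv : ∀ z ∈ P, ∀ w, α (ρ z w) = α w
  idem : ∀ w, α (piOp ρ π w) = α w
  norm : ∑ z : P, ρ z v = 0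
  ne : α v ≠ 0

variable {ρ : Representation k G T}

/-- Kernels of the powers of `x` are stable under `H`. -/
theorem xOp_pow_stable {y : G} {H : Subgroup G} (hHy : ∀ h : H, ∃ a : ℕ, (h : G)⁻¹ * y * h = y ^ a) (h : H) {l : ℕ} {w : T}
    (hw : ((xOp ρ y) ^ l) w = 0) : ((xOp ρ y) ^ l) (ρ (h : G) w) = 0 := by
  obtain ⟨a, ha⟩ := hHy h
  have hs : SemiconjBy (ρ (h : G)) ((ρ y) ^ a - 1) (xOp ρ y) := by
    have h2 : ρ y * ρ (h : G) = ρ (h : G) * (ρ y) ^ a := by
      rw [← map_mul, ← map_pow, ← ha, ← map_mul]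
      congr 1
      group
    show ρ (h : G) * ((ρ y) ^ a - 1) = xOp ρ y * ρ (h : G)
    rw [xOp, mul_sub, sub_mul, mul_one, one_mul, h2]
  have h3 := (hs.pow_right l).eq
  have h4 : ((xOp ρ y) ^ l) (ρ (h : G) w) = ρ (h : G) ((((ρ y) ^ a - 1) ^ l) w) := by
    rw [← Module.End.mul_apply, ← h3, Module.End.mul_apply]
  rw [h4, pow_sub_one_pow_apply_eq_zero ρ y a l hw, map_zero]

theorem xOp_pow_piOp {y : G} {H : Subgroup G} [Fintype H] (hHy : ∀ h : H, ∃ a : ℕ, (h : G)⁻¹ * y * h = y ^ a) (π : H → k) {l : ℕ} {w : T}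
    (hw : ((xOp ρ y) ^ l) w = 0) : ((xOp ρ y) ^ l) (piOp ρ π w) = 0 := by
  rw [piOp_apply, map_sum]
  refine sum_eq_zero fun h _ => ?_
  rw [map_smul, xOp_pow_stable hHy h hw, smul_zero]

/-- The string: a simple `H`-module of vectors killed by a minimal power of `x`. -/
theorem exists_stringG [FiniteDimensional k T] {y : G} (hy : orderOf y = p) [Fintype (Subgroup.zpowers y)]
    {H : Subgroup G} [Fintype H] (hc : (Nat.card H : k) ≠ 0)
    (hHy : ∀ h : H, ∃ a : ℕ, (h : G)⁻¹ * y * h = y ^ a) {π : H → k}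
    (hπc : ∀ h x, π (x * h * x⁻¹) = π h) (hπi : ∀ t, ∑ w, π w * π (w⁻¹ * t) = π t) {α : T →ₗ[k] k} {v₀ : T}
    (hw : WitG ρ (Subgroup.zpowers y) H π α v₀) :
    ∃ (U : Submodule k T) (v : T) (m : ℕ) (ξ : T →ₗ[k] k), m + 1 ≤ p - 1 ∧
      (∀ h : H, ∀ u ∈ U, ρ (h : G) u ∈ U) ∧
      (∀ U' : Submodule k T, U' ≤ U → (∀ h : H, ∀ u ∈ U', ρ (h : G) u ∈ U') → U' = ⊥ ∨ U' = U) ∧
      (∀ u ∈ U, piOp ρ π u = u) ∧ (∀ u ∈ U, ((xOp ρ y) ^ (m + 1)) u = 0) ∧ v ∈ U ∧ α v ≠ 0 ∧
      (∀ w, ξ (((xOp ρ y) ^ (m + 1)) w) = 0) ∧ ξ (((xOp ρ y) ^ m) v) = 1 := by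
  classical
  have hpp : p.Prime := hp.out
  set x := xOp ρ y with hx
  have hαx : ∀ w, α (x w) = 0 := by
    intro w
    have h1 := hw.inv y (Subgroup.mem_zpowers y) w
    simp only [hx, xOp, LinearMap.sub_apply, Module.End.one_apply, map_sub]
    rw [h1, sub_self]
  have hQqQq : ∀ w, piOp ρ π (piOp ρ π w) = piOp ρ π w := by
    intro w
    rw [← Module.End.mul_apply, piOp_mul ρ π π π hπi]
  let S : ℕ → Prop := fun l => ∃ w, α w ≠ 0 ∧ (x ^ l) w = 0 ∧ piOp ρ π w = w
  have hS : S (p - 1) := ⟨piOp ρ π v₀, by rw [hw.idem]; exact hw.ne,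
    xOp_pow_piOp hHy π (by rw [xOp_pow_eq_norm ρ hy, hw.norm]), hQqQq _⟩
  have hSex : ∃ l, S l := ⟨_, hS⟩
  set l := Nat.find hSex with hl
  obtain ⟨w₀, hw₀, hw₀l, hw₀Qq⟩ := Nat.find_spec hSex
  have hlle : l ≤ p - 1 := Nat.find_min' hSex hS
  have hl0 : l ≠ 0 := by
    intro h0
    rw [← hl, h0, pow_zero, Module.End.one_apply] at hw₀l
    apply hw₀
    rw [hw₀l, map_zero]
  obtain ⟨m, hm⟩ : ∃ m, l = m + 1 := Nat.exists_eq_succ_of_ne_zero hl0
  rw [← hl, hm] at hw₀l
  -- the minimal `H`-stable subspace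
  let W : Submodule k T := LinearMap.ker (x ^ (m + 1)) ⊓ LinearMap.ker (piOp ρ π - 1)
  have hWmem : ∀ u, u ∈ W ↔ (x ^ (m + 1)) u = 0 ∧ piOp ρ π u = u := by
    intro u
    simp [W, Submodule.mem_inf, LinearMap.mem_ker, sub_eq_zero]
  let Good : Submodule k T → Prop := fun U => U ≤ W ∧ (∀ h : H, ∀ u ∈ U, ρ (h : G) u ∈ U) ∧ ∃ u ∈ U, α u ≠ 0
  have hWgood : Good W := by
    refine ⟨le_rfl, ?_, w₀, (hWmem _).mpr ⟨hw₀l, hw₀Qq⟩, hw₀⟩
    intro h u hu
    obtain ⟨h1, h2⟩ := (hWmem u).mp hu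
    refine (hWmem _).mpr ⟨xOp_pow_stable hHy h h1, ?_⟩
    rw [← Module.End.mul_apply, piOp_comm ρ hπc, Module.End.mul_apply, h2]
  have hgood : ∃ d, ∃ U, Good U ∧ Module.finrank k U = d := ⟨_, W, hWgood, rfl⟩
  set d := Nat.find hgood with hd
  obtain ⟨U, hU, hUd⟩ := Nat.find_spec hgood
  have hmin : ∀ U', Good U' → d ≤ Module.finrank k U' := fun U' h => Nat.find_min' hgood ⟨U', h, rfl⟩
  obtain ⟨v, hvU, hαv⟩ := hU.2.2
  have hUW := hU.1
  have hUst := hU.2.1
  let c : k := (Nat.card H : k)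
  have hcard : ((Fintype.card H : ℕ) : k) = c := by
    simp [c, Nat.card_eq_fintype_card]
  have hsimple : ∀ U' : Submodule k T, U' ≤ U → (∀ h : H, ∀ u ∈ U', ρ (h : G) u ∈ U') → U' = ⊥ ∨ U' = U := by
    intro U' hU'U hU'st
    by_cases hα : ∃ u ∈ U', α u ≠ 0
    · right
      apply Submodule.eq_of_le_of_finrank_le hU'U
      rw [hUd]
      exact hmin U' ⟨hU'U.trans hUW, hU'st, hα⟩
    · left
      push Not at hα
      obtain ⟨r, hr⟩ := (U'.subtype).exists_leftInverse_of_injective (by simp)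
      let q₀ : Module.End k T := U'.subtype ∘ₗ r
      have hq₀ : ∀ u ∈ U', q₀ u = u := by
        intro u hu
        have h1 := LinearMap.congr_fun hr ⟨u, hu⟩
        have h2 : r u = ⟨u, hu⟩ := h1
        simp [q₀, h2]
      have hq₀m : ∀ w, q₀ w ∈ U' := fun w => (r w).2
      let q : Module.End k T := c⁻¹ • ∑ h : H, ρ (h : G) * q₀ * ρ ((h⁻¹ : H) : G)
      have hq : ∀ w, q w = c⁻¹ • ∑ h : H, ρ (h : G) (q₀ (ρ ((h⁻¹ : H) : G) w)) := by
        intro w
        simp [q, LinearMap.sum_apply, Module.End.mul_apply]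
      have hqU' : ∀ u ∈ U', q u = u := by
        intro u hu
        rw [hq]
        have h1 : ∀ h : H, ρ (h : G) (q₀ (ρ ((h⁻¹ : H) : G) u)) = u := by
          intro h
          rw [hq₀ _ (hU'st h⁻¹ u hu), ← Module.End.mul_apply, ← map_mul]
          simp
        rw [sum_congr rfl (fun h _ => h1 h), sum_const, card_univ, ← Nat.cast_smul_eq_nsmul k, hcard, smul_smul,
          inv_mul_cancel₀ hc, one_smul]
      have hqm : ∀ w, q w ∈ U' := by
        intro w
        rw [hq]
        exact U'.smul_mem _ (U'.sum_mem fun h _ => hU'st h _ (hq₀m _))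
      have hqcomm : ∀ (h₀ : H) w, q (ρ (h₀ : G) w) = ρ (h₀ : G) (q w) := by
        intro h₀ w
        rw [hq, hq, map_smul, map_sum]
        congr 1
        refine Fintype.sum_equiv (Equiv.mulLeft h₀⁻¹) _ _ fun h => ?_
        simp only [Equiv.coe_mulLeft]
        have h1 : ρ ((h⁻¹ : H) : G) (ρ (h₀ : G) w) = ρ (((h₀⁻¹ * h)⁻¹ : H) : G) w := by
          rw [← Module.End.mul_apply, ← map_mul]
          congr 2
          simp
        rw [h1, ← Module.End.mul_apply (ρ (h₀ : G)), ← map_mul]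
        have h2 : (h₀ : G) * ((h₀⁻¹ * h : H) : G) = h := by simp
        rw [h2]
      let U'' : Submodule k T := U ⊓ LinearMap.ker q
      have hU''good : Good U'' := by
        refine ⟨inf_le_left.trans hUW, ?_, v - q v, ?_, ?_⟩
        · intro h u hu
          obtain ⟨h1, h2⟩ := Submodule.mem_inf.mp hu
          refine Submodule.mem_inf.mpr ⟨hUst h u h1, ?_⟩
          rw [LinearMap.mem_ker, hqcomm, LinearMap.mem_ker.mp h2, map_zero]
        · refine Submodule.mem_inf.mpr ⟨U.sub_mem hvU (hU'U (hqm v)), ?_⟩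
          rw [LinearMap.mem_ker, map_sub, hqU' _ (hqm v), sub_self]
        · rw [map_sub, hα _ (hqm v), sub_zero]
          exact hαv
      have hU''eq : U'' = U := by
        apply Submodule.eq_of_le_of_finrank_le inf_le_left
        rw [hUd]
        exact hmin U'' hU''good
      rw [Submodule.eq_bot_iff]
      intro u hu
      have h1 : u ∈ U'' := by
        rw [hU''eq]
        exact hU'U hu
      have h2 := LinearMap.mem_ker.mp (Submodule.mem_inf.mp h1).2
      rw [← hqU' u hu, h2]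
  have hnot : (x ^ m) v ∉ LinearMap.range (x ^ (m + 1)) := by
    rintro ⟨w, hw'⟩
    have hlt : m < Nat.find hSex := by
      rw [← hl, hm]
      exact Nat.lt_succ_self m
    apply Nat.find_min hSex hlt
    have hαw : α (v - x w) ≠ 0 := by
      rw [map_sub, hαx, sub_zero]
      exact hαv
    have hxw : (x ^ m) (v - x w) = 0 := by
      rw [map_sub, ← Module.End.mul_apply, ← pow_succ, ← hw', sub_self]
    refine ⟨piOp ρ π (v - x w), ?_, xOp_pow_piOp hHy π hxw, hQqQq _⟩
    rw [hw.idem]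
    exact hαw
  obtain ⟨ξ₀, hξ₀1, hξ₀2⟩ := Submodule.exists_le_ker_of_notMem hnot
  refine ⟨U, v, m, (ξ₀ ((x ^ m) v))⁻¹ • ξ₀, ?_, hUst, hsimple, ?_, ?_, hvU, hαv, ?_, ?_⟩
  · rw [← hm]
    exact hlle
  · intro u hu
    exact ((hWmem u).mp (hUW hu)).2
  · intro u hu
    exact ((hWmem u).mp (hUW hu)).1
  · intro w
    have h1 : (x ^ (m + 1)) w ∈ LinearMap.ker ξ₀ := hξ₀2 ⟨w, rfl⟩
    simp only [LinearMap.smul_apply, LinearMap.mem_ker.mp h1, smul_zero]
  · simp only [LinearMap.smul_apply, smul_eq_mul]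
    exact inv_mul_cancel₀ hξ₀1

/-- The endomorphism attached to a witness. -/
theorem exists_endoG [IsAlgClosed k] [FiniteDimensional k T] {y : G} (hy : orderOf y = p) [Fintype (Subgroup.zpowers y)]
    {H : Subgroup G} [Fintype H] (hc : (Nat.card H : k) ≠ 0)
    (hHy : ∀ h : H, ∃ a : ℕ, (h : G)⁻¹ * y * h = y ^ a) {π : H → k}
    (hπc : ∀ h x, π (x * h * x⁻¹) = π h) (hπi : ∀ t, ∑ w, π w * π (w⁻¹ * t) = π t) {α : T →ₗ[k] k} {v₀ : T}
    (hw : WitG ρ (Subgroup.zpowers y) H π α v₀) :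
    ∃ (φ : Module.End k T) (v : T) (s : k), (∀ h : H, φ * ρ h = ρ h * φ) ∧
      (∀ z ∈ Subgroup.zpowers y, φ * ρ z = ρ z * φ) ∧ α v ≠ 0 ∧ (∑ z : Subgroup.zpowers y, ρ z v = 0) ∧
      s ≠ 0 ∧ α (φ v) = s * α v ∧
      ∀ (π' : H → k) (β : T →ₗ[k] k), (∀ z ∈ Subgroup.zpowers y, ∀ w, β (ρ z w) = β w) →
        (∀ h x, π' (x * h * x⁻¹) = π' h) → (∀ w, β (piOp ρ π' w) = β w) →
        (∀ t, ∑ w, π' w * π (w⁻¹ * t) = 0) → ∀ w, β (φ w) = 0 := by
  classical
  have hpp : p.Prime := hp.out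
  obtain ⟨U, v, m, ξ, hm, hUst, hsimple, hUQq, hUx, hvU, hαv, hξ, hξv⟩ := exists_stringG hy hc hHy hπc hπi hw
  set x := xOp ρ y with hx
  have hvx : (x ^ (m + 1)) v = 0 := hUx v hvU
  let φ₀ := phi0 x v m ξ
  have hφ₀x : ∀ w, φ₀ (x w) = x (φ₀ w) := phi0_comm x v m ξ hξ hvx
  have hφ₀y : φ₀ * ρ y = ρ y * φ₀ := by
    ext w
    simp only [Module.End.mul_apply]
    rw [rho_eq_xOp ρ y]
    simp only [LinearMap.add_apply, Module.End.one_apply, map_add]
    rw [← hx, hφ₀x]
  have hφ₀z : ∀ z ∈ Subgroup.zpowers y, φ₀ * ρ z = ρ z * φ₀ := by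
    intro z hz
    have hfin : IsOfFinOrder y := by
      rw [← orderOf_pos_iff, hy]
      exact hpp.pos
    have hz' : z ∈ Submonoid.powers y := by
      have h1 : z ∈ ((Subgroup.zpowers y : Subgroup G) : Set G) := hz
      rw [← hfin.powers_eq_zpowers] at h1
      exact h1
    obtain ⟨i, rfl⟩ := hz'
    rw [map_pow]
    exact ((Commute.pow_right hφ₀y i).eq)
  let c : k := (Nat.card H : k)
  have hcard : ((Fintype.card H : ℕ) : k) = c := by
    simp [c, Nat.card_eq_fintype_card]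
  let C : H → Module.End k T := fun h => ρ h * φ₀ * ρ (h⁻¹ : H)
  let φ : Module.End k T := c⁻¹ • ∑ h : H, C h
  have hφH : ∀ h : H, φ * ρ h = ρ h * φ := by
    intro h₀
    simp only [φ]
    rw [smul_mul_assoc, mul_smul_comm, sum_mul, mul_sum]
    congr 1
    refine (Fintype.sum_equiv (Equiv.mulLeft h₀) (fun h => ρ (h₀ : G) * C h) (fun h => C h * ρ (h₀ : G)) fun h => ?_).symm
    simp only [Equiv.coe_mulLeft, C]
    have h1 : ρ ((h₀ * h : H) : G) = ρ (h₀ : G) * ρ (h : G) := by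
      rw [Subgroup.coe_mul, map_mul]
    have h2 : ρ (((h₀ * h)⁻¹ : H) : G) * ρ (h₀ : G) = ρ ((h⁻¹ : H) : G) := by
      rw [← map_mul]
      congr 1
      simp
    rw [h1, mul_assoc _ _ (ρ (h₀ : G)), h2]
    simp only [mul_assoc]
  have hφz : ∀ z ∈ Subgroup.zpowers y, φ * ρ z = ρ z * φ := by
    have hφy : φ * ρ y = ρ y * φ := by
      simp only [φ]
      rw [smul_mul_assoc, mul_smul_comm, sum_mul, mul_sum]
      congr 1
      refine sum_congr rfl fun h _ => ?_
      simp only [C]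
      obtain ⟨a, ha⟩ := hHy h
      have hz : (h : G)⁻¹ * y * h ∈ Subgroup.zpowers y := by
        rw [ha]
        exact Subgroup.pow_mem _ (Subgroup.mem_zpowers y) _
      have h1 := hφ₀z _ hz
      have h2 : ρ y * ρ (h : G) = ρ (h : G) * ρ ((h : G)⁻¹ * y * h) := by
        rw [← map_mul, ← map_mul]
        congr 1
        group
      have h3 : ρ ((h : G)⁻¹ * y * h) * ρ ((h⁻¹ : H) : G) = ρ ((h⁻¹ : H) : G) * ρ y := by
        rw [← map_mul, ← map_mul]
        congr 1
        simp only [Subgroup.coe_inv]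
        group
      calc ρ (h : G) * φ₀ * ρ ((h⁻¹ : H) : G) * ρ y = ρ (h : G) * φ₀ * (ρ ((h⁻¹ : H) : G) * ρ y) := by
            rw [mul_assoc]
        _ = ρ (h : G) * φ₀ * (ρ ((h : G)⁻¹ * y * h) * ρ ((h⁻¹ : H) : G)) := by rw [h3]
        _ = ρ (h : G) * (φ₀ * ρ ((h : G)⁻¹ * y * h)) * ρ ((h⁻¹ : H) : G) := by
            simp only [mul_assoc]
        _ = ρ (h : G) * (ρ ((h : G)⁻¹ * y * h) * φ₀) * ρ ((h⁻¹ : H) : G) := by rw [h1]
        _ = (ρ (h : G) * ρ ((h : G)⁻¹ * y * h)) * φ₀ * ρ ((h⁻¹ : H) : G) := by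
            simp only [mul_assoc]
        _ = ρ y * (ρ (h : G) * φ₀ * ρ ((h⁻¹ : H) : G)) := by
            rw [← h2]
            simp only [mul_assoc]
    intro z hz
    have hfin : IsOfFinOrder y := by
      rw [← orderOf_pos_iff, hy]
      exact hpp.pos
    have hz' : z ∈ Submonoid.powers y := by
      have h1 : z ∈ ((Subgroup.zpowers y : Subgroup G) : Set G) := hz
      rw [← hfin.powers_eq_zpowers] at h1
      exact h1
    obtain ⟨i, rfl⟩ := hz'
    rw [map_pow]
    exact ((Commute.pow_right hφy i).eq)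
  -- `H` normalizes `P`
  have hHP : ∀ (h : H) (z : G), z ∈ Subgroup.zpowers y → (h : G)⁻¹ * z * h ∈ Subgroup.zpowers y := by
    intro h z hz
    obtain ⟨i, rfl⟩ := Subgroup.mem_zpowers_iff.mp hz
    have h1 : (h : G)⁻¹ * y ^ i * (h : G) = ((h : G)⁻¹ * y * (h : G)) ^ i := by
      have := conj_zpow (a := (h : G)⁻¹) (b := y) (i := i)
      rw [inv_inv] at this
      exact this.symm
    rw [h1]
    apply Subgroup.zpow_mem
    obtain ⟨a, ha⟩ := hHy h
    rw [ha]
    exact Subgroup.pow_mem _ (Subgroup.mem_zpowers y) _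
  -- the formula for functionals
  have hform : ∀ (β : T →ₗ[k] k), (∀ z ∈ Subgroup.zpowers y, ∀ w, β (ρ z w) = β w) → ∀ w,
      β (φ w) = c⁻¹ * ∑ h : H, ξ ((x ^ m) (ρ ((h⁻¹ : H) : G) w)) * β (ρ (h : G) v) := by
    intro β hβ1 w
    have hβh : ∀ (h : H) (u : T), β (ρ (h : G) (x u)) = 0 := by
      intro h u
      have h1 : ρ (h : G) (ρ y u) = ρ ((h : G) * y * (h : G)⁻¹) (ρ (h : G) u) := by
        rw [← Module.End.mul_apply, ← Module.End.mul_apply, ← map_mul, ← map_mul]
        congr 2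
        group
      have h2 := hHP h⁻¹ y (Subgroup.mem_zpowers y)
      simp only [Subgroup.coe_inv, inv_inv] at h2
      simp only [hx, xOp, LinearMap.sub_apply, Module.End.one_apply, map_sub]
      rw [h1, hβ1 _ h2, sub_self]
    have hβφ₀ : ∀ (h : H) (u : T), β (ρ (h : G) (φ₀ u)) = ξ ((x ^ m) u) * β (ρ (h : G) v) := by
      intro h u
      simp only [φ₀]
      rw [phi0_apply, map_sum, map_sum, sum_range_succ']
      have h1 : ∑ t ∈ range m, β (ρ (h : G) (ξ ((x ^ (m - (t + 1))) u) • (x ^ (t + 1)) v)) = 0 := by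
        refine sum_eq_zero fun t _ => ?_
        rw [map_smul, map_smul, pow_succ', Module.End.mul_apply, hβh, smul_zero]
      rw [h1, zero_add, Nat.sub_zero, map_smul, map_smul, pow_zero, Module.End.one_apply, smul_eq_mul]
    simp only [φ]
    rw [LinearMap.smul_apply, LinearMap.sum_apply, map_smul, map_sum, smul_eq_mul]
    congr 1
    refine sum_congr rfl fun h _ => ?_
    simp only [C, Module.End.mul_apply]
    rw [hβφ₀]
  -- Schur's lemma on `U`
  have hntU : Nontrivial U := ⟨⟨⟨v, hvU⟩, 0, fun h => hαv (by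
    have := congrArg Subtype.val h
    simp only [ZeroMemClass.coe_zero] at this
    rw [this, map_zero])⟩⟩
  let ξU : H → (U →ₗ[k] k) := fun h => ξ ∘ₗ (x ^ m) ∘ₗ ρ ((h⁻¹ : H) : G) ∘ₗ U.subtype
  let vh : H → U := fun h => ⟨ρ (h : G) v, hUst h v hvU⟩
  let Y : Module.End k U := c⁻¹ • ∑ h : H, (ξU h).smulRight (vh h)
  have hYapply : ∀ u : U, ((Y u : U) : T) = c⁻¹ • ∑ h : H, ξ ((x ^ m) (ρ ((h⁻¹ : H) : G) (u : T))) • ρ (h : G) v := by
    intro u
    simp [Y, LinearMap.sum_apply, ξU, vh]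
  have hYtr : LinearMap.trace k U Y = 1 := by
    simp only [Y, map_smul, map_sum, LinearMap.trace_smulRight, smul_eq_mul]
    have h1 : ∀ h : H, ξU h (vh h) = 1 := by
      intro h
      simp only [ξU, vh, LinearMap.comp_apply, Submodule.subtype_apply]
      rw [← Module.End.mul_apply (ρ ((h⁻¹ : H) : G)), ← map_mul]
      have : ((h⁻¹ : H) : G) * (h : G) = 1 := by simp
      rw [this, map_one, Module.End.one_apply]
      exact hξv
    rw [sum_congr rfl (fun h _ => h1 h), sum_const, card_univ, nsmul_eq_mul, mul_one, hcard, inv_mul_cancel₀ hc]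
  have hYH : ∀ (h₀ : H) (u : U), Y ⟨ρ (h₀ : G) u, hUst h₀ u u.2⟩ = ⟨ρ (h₀ : G) (Y u), hUst h₀ _ (Y u).2⟩ := by
    intro h₀ u
    apply Subtype.ext
    rw [hYapply]
    show _ = ρ (h₀ : G) ((Y u : U) : T)
    rw [hYapply, map_smul, map_sum]
    congr 1
    refine Fintype.sum_equiv (Equiv.mulLeft h₀⁻¹) _ _ fun h => ?_
    simp only [Equiv.coe_mulLeft]
    have h1 : ρ ((h⁻¹ : H) : G) (ρ (h₀ : G) (u : T)) = ρ (((h₀⁻¹ * h)⁻¹ : H) : G) (u : T) := by
      rw [← Module.End.mul_apply, ← map_mul]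
      congr 2
      simp
    rw [h1, map_smul, ← Module.End.mul_apply (ρ (h₀ : G)), ← map_mul]
    have h2 : (h₀ : G) * ((h₀⁻¹ * h : H) : G) = h := by simp
    simp [h2]
  obtain ⟨s, hs⟩ := Module.End.exists_eigenvalue Y
  have hYs : ∀ u : U, Y u = s • u := by
    let E : Submodule k T := (Module.End.eigenspace Y s).map U.subtype
    have hEU : E ≤ U := by
      rintro _ ⟨u, -, rfl⟩
      exact u.2
    have hEst : ∀ h : H, ∀ u ∈ E, ρ (h : G) u ∈ E := by
      rintro h _ ⟨u, hu, rfl⟩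
      refine ⟨⟨ρ (h : G) u, hUst h u u.2⟩, ?_, rfl⟩
      rw [SetLike.mem_coe, Module.End.mem_eigenspace_iff] at hu ⊢
      rw [hYH, hu]
      apply Subtype.ext
      simp
    have hEbot : E ≠ ⊥ := by
      intro h
      have h1 : Module.End.eigenspace Y s = ⊥ := by
        rw [Submodule.eq_bot_iff]
        intro u hu
        have h2 : (u : T) ∈ E := ⟨u, hu, rfl⟩
        rw [h] at h2
        apply Subtype.ext
        simpa using h2
      exact hs h1
    have hEeq := (hsimple E hEU hEst).resolve_left hEbot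
    intro u
    have h1 : (u : T) ∈ E := by
      rw [hEeq]
      exact u.2
    obtain ⟨u', hu', hu'eq⟩ := h1
    have h2 : u' = u := Subtype.ext hu'eq
    rw [← h2]
    exact Module.End.mem_eigenspace_iff.mp hu'
  have hs0 : s ≠ 0 := by
    intro h0
    have h1 : Y = 0 := by
      ext u
      rw [hYs, h0, zero_smul]
      rfl
    rw [h1, map_zero] at hYtr
    exact zero_ne_one hYtr
  refine ⟨φ, v, s, hφH, hφz, hαv, ?_, hs0, ?_, ?_⟩
  · rw [← xOp_pow_eq_norm ρ hy, ← hx]
    have h1 : p - 1 = (p - 1 - (m + 1)) + (m + 1) := by omega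
    rw [h1, pow_add, Module.End.mul_apply, hvx, map_zero]
  · rw [hform α hw.inv v]
    have h1 := congrArg Subtype.val (hYs ⟨v, hvU⟩)
    rw [hYapply] at h1
    have h2 := congrArg α h1
    simp only [map_smul, map_sum, smul_eq_mul, SetLike.val_smul] at h2
    exact h2
  · intro π' β hβ1 hπ'c hβ2 horth w
    rw [hform β hβ1 w]
    have h1 : ∀ h : H, β (ρ (h : G) v) = 0 := by
      intro h
      have h2 : ρ (h : G) v = ρ (h : G) (piOp ρ π v) := by rw [hUQq v hvU]
      rw [← hβ2, h2, ← Module.End.mul_apply (piOp ρ π'), piOp_comm ρ hπ'c, Module.End.mul_apply,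
        ← Module.End.mul_apply (piOp ρ π'), piOp_mul ρ π' π 0 (by simpa using horth)]
      simp [piOp]
    rw [sum_eq_zero (fun h _ => by rw [h1, mul_zero]), mul_zero]

/-- No irreducible representation has witnesses for two orthogonal idempotents. -/
theorem not_wit_of_orth [IsAlgClosed k] [FiniteDimensional k T] [Fintype G] {y : G} (hy : orderOf y = p) [Fintype (Subgroup.zpowers y)]
    {H : Subgroup G} [Fintype H] (hc : (Nat.card H : k) ≠ 0)
    (hHy : ∀ h : H, ∃ a : ℕ, (h : G)⁻¹ * y * h = y ^ a) {N : Subgroup G}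
    (hPN : Subgroup.zpowers y ≤ N) (hN : ∀ n ∈ N, ∃ z ∈ Subgroup.zpowers y, ∃ h : H, n = z * h)
    (hfree : ∀ g : G, ∀ z ∈ Subgroup.zpowers y, z ≠ 1 → g⁻¹ * z * g ∈ N → g ∈ N)
    (hS : ∀ ψ : Module.End k T, (∀ g, ψ * ρ g = ρ g * ψ) → ∃ c : k, ψ = c • 1)
    {π π' : H → k} (hπc : ∀ h x, π (x * h * x⁻¹) = π h) (hπi : ∀ t, ∑ w, π w * π (w⁻¹ * t) = π t)
    (hπ'c : ∀ h x, π' (x * h * x⁻¹) = π' h) (horth : ∀ t, ∑ w, π' w * π (w⁻¹ * t) = 0)
    {α β : T →ₗ[k] k} {v w : T}
    (h1 : WitG ρ (Subgroup.zpowers y) H π α v) (h2 : WitG ρ (Subgroup.zpowers y) H π' β w) : False := by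
  classical
  obtain ⟨φ, v', s, hφH, hφz, hαv, hnorm, hs0, hαφ, hβ0⟩ := exists_endoG hy hc hHy hπc hπi h1
  have hφN : ∀ n ∈ N, φ * ρ n = ρ n * φ := by
    intro n hn
    obtain ⟨z, hz, h, rfl⟩ := hN n hn
    rw [map_mul, ← mul_assoc, hφz z hz, mul_assoc, hφH h, mul_assoc]
  obtain ⟨ψ, hψ, hψ2⟩ := exists_transfer N φ hφN (Subgroup.zpowers y) hPN hfree
  obtain ⟨c, rfl⟩ := hS ψ hψ
  have h3 := hψ2 α v' h1.inv hnorm
  rw [hαφ] at h3
  simp only [LinearMap.smul_apply, Module.End.one_apply, map_smul, smul_eq_mul] at h3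
  have hc1 : c = s := mul_right_cancel₀ hαv h3
  have h4 := hψ2 β w h2.inv h2.norm
  rw [hβ0 π' β h2.inv hπ'c h2.idem horth w, hc1] at h4
  simp only [LinearMap.smul_apply, Module.End.one_apply, map_smul, smul_eq_mul] at h4
  exact (mul_ne_zero hs0 h2.ne) h4

end Wit

section Descent

variable {k : Type v} [Field k] {G : Type u} [Group G] [Fintype G]
  {P H : Subgroup G} [Fintype P] [Fintype H]

/-- A witness passes to a subrepresentation or to the quotient. -/
theorem witG_sub_or_quot {T : Type w} [AddCommGroup T] [Module k T] [FiniteDimensional k T]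
    {ρ : Representation k G T}
    (hHP : ∀ h : H, ∀ z ∈ P, (h : G) * z * (h : G)⁻¹ ∈ P) (U : Submodule k T)
    (hU : ∀ g, ∀ u ∈ U, ρ g u ∈ U) {π : H → k} (hπi : ∀ t, ∑ w, π w * π (w⁻¹ * t) = π t)
    {α : T →ₗ[k] k} {v : T} (hw : WitG ρ P H π α v) :
    (∃ u ∈ U, (∑ z : P, ρ z u = 0) ∧ α u ≠ 0) ∨
    ∃ α' : T →ₗ[k] k, U ≤ LinearMap.ker α' ∧ WitG ρ P H π α' v := by
  classical
  by_cases hA : ∃ u ∈ U, (∑ z : P, ρ z u = 0) ∧ α u ≠ 0
  · exact Or.inl hA
  right
  push Not at hA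
  let σ : Module.End k T := ∑ z : P, ρ z
  have hσ : ∀ w, σ w = ∑ z : P, ρ z w := fun w => by simp [σ, LinearMap.sum_apply]
  let σU : U →ₗ[k] T := σ ∘ₗ U.subtype
  let αU : U →ₗ[k] k := α ∘ₗ U.subtype
  have hmem : αU ∈ (LinearMap.ker σU).dualAnnihilator := by
    rw [Submodule.mem_dualAnnihilator]
    intro u hu
    have h1 : ∑ z : P, ρ z (u : T) = 0 := by
      have : σ (u : T) = 0 := hu
      rwa [hσ] at this
    exact hA u u.2 h1
  rw [← LinearMap.range_dualMap_eq_dualAnnihilator_ker] at hmem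
  obtain ⟨f, hf⟩ := hmem
  have hf' : ∀ u ∈ U, f (σ u) = α u := by
    intro u hu
    exact congrArg (fun t : U →ₗ[k] k => t ⟨u, hu⟩) hf
  have hσρ : ∀ (z : G), z ∈ P → σ * ρ z = σ := by
    intro z hz
    simp only [σ]
    rw [sum_mul]
    refine Fintype.sum_equiv (Equiv.mulRight (⟨z, hz⟩ : P)) _ _ fun t => ?_
    simp [map_mul]
  have hσh : ∀ (h : H), σ * ρ (h : G) = ρ (h : G) * σ := by
    intro h
    simp only [σ]
    rw [sum_mul, mul_sum]
    let e : P ≃ P :=
      { toFun := fun t => ⟨(h : G)⁻¹ * t * (h : G), by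
          have := hHP h⁻¹ t t.2
          simpa using this⟩
        invFun := fun t => ⟨(h : G) * t * (h : G)⁻¹, hHP h t t.2⟩
        left_inv := fun t => Subtype.ext (by simp [mul_assoc])
        right_inv := fun t => Subtype.ext (by simp [mul_assoc]) }
    refine Fintype.sum_equiv e _ _ fun t => ?_
    simp only [e, Equiv.coe_fn_mk]
    rw [← map_mul, ← map_mul]
    congr 1
    group
  set Qq := piOp ρ π with hQq
  have hσQq : σ * Qq = Qq * σ := by
    simp only [hQq, piOp]
    rw [mul_sum, sum_mul]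
    refine sum_congr rfl fun h _ => ?_
    rw [mul_smul_comm, smul_mul_assoc, hσh]
  have hQqQq : Qq * Qq = Qq := piOp_mul ρ π π π hπi
  let β : T →ₗ[k] k := f ∘ₗ σ ∘ₗ Qq
  have hβ : ∀ w, β w = f (σ (Qq w)) := fun w => rfl
  have hβinv : ∀ z ∈ P, ∀ w, β (ρ z w) = β w := by
    intro z hz w
    rw [hβ, hβ]
    congr 1
    rw [← Module.End.mul_apply σ, hσQq, Module.End.mul_apply, ← Module.End.mul_apply σ, hσρ z hz,
      ← Module.End.mul_apply σ, hσQq, Module.End.mul_apply]
  have hβidem : ∀ w, β (Qq w) = β w := by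
    intro w
    rw [hβ, hβ, ← Module.End.mul_apply Qq, hQqQq]
  have hQqU : ∀ u ∈ U, Qq u ∈ U := by
    intro u hu
    rw [hQq, piOp_apply]
    exact U.sum_mem fun h _ => U.smul_mem _ (hU _ _ hu)
  have hβU : ∀ u ∈ U, β u = α u := by
    intro u hu
    rw [hβ, hf' _ (hQqU u hu), hw.idem]
  have hβv : β v = 0 := by
    rw [hβ, ← Module.End.mul_apply σ, hσQq, Module.End.mul_apply, hσ, hw.norm, map_zero, map_zero]
  refine ⟨α - β, ?_, ?_⟩
  · intro u hu
    rw [LinearMap.mem_ker, LinearMap.sub_apply, hβU u hu, sub_self]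
  · refine ⟨?_, ?_, hw.norm, ?_⟩
    · intro z hz w
      rw [LinearMap.sub_apply, LinearMap.sub_apply, hw.inv z hz, hβinv z hz]
    · intro w
      rw [LinearMap.sub_apply, LinearMap.sub_apply, hw.idem, hβidem]
    · rw [LinearMap.sub_apply, hβv, sub_zero]
      exact hw.ne

/-- Descent of witnesses to irreducible representations. -/
theorem exists_irr_of_witG
    (hHP : ∀ h : H, ∀ z ∈ P, (h : G) * z * (h : G)⁻¹ ∈ P) (ε : G → k) (π : H → k)
    (hπi : ∀ t, ∑ w, π w * π (w⁻¹ * t) = π t) :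
    ∀ (n : ℕ) (T : Type w) [AddCommGroup T] [Module k T] [FiniteDimensional k T]
      (ρ : Representation k G T), Module.finrank k T = n → ActsOne ε ρ →
      (∃ α v, WitG ρ P H π α v) →
      ∃ (T' : Type w) (_ : AddCommGroup T') (_ : Module k T') (_ : FiniteDimensional k T')
        (ρ' : Representation k G T'), ρ'.IsIrreducible ∧ ActsOne ε ρ' ∧ ∃ α v, WitG ρ' P H π α v := by
  classical
  intro n
  induction n using Nat.strong_induction_on with
  | _ n ih =>
    intro T _ _ _ ρ hn hE hex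
    by_cases hirr : ρ.IsIrreducible
    · exact ⟨T, inferInstance, inferInstance, inferInstance, ρ, hirr, hE, hex⟩
    obtain ⟨α, v, hw⟩ := hex
    have hnt : Nontrivial T := ⟨⟨v, 0, fun h => hw.ne (by rw [h, map_zero])⟩⟩
    have hntS : Nontrivial (Subrepresentation ρ) := by
      refine ⟨⟨⊥, ⊤, fun h => ?_⟩⟩
      have h1 : (⊥ : Subrepresentation ρ).toSubmodule = (⊤ : Subrepresentation ρ).toSubmodule := congrArg _ h
      exact bot_ne_top h1
    obtain ⟨U, hU1, hU2⟩ : ∃ U : Subrepresentation ρ, U ≠ ⊥ ∧ U ≠ ⊤ := by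
      by_contra hcon
      push Not at hcon
      apply hirr
      exact { eq_bot_or_eq_top := fun U => by
                by_cases h : U = ⊥
                · exact Or.inl h
                · exact Or.inr (hcon U h) }
    have hUb : U.toSubmodule ≠ ⊥ := fun h => hU1 (Subrepresentation.toSubmodule_injective h)
    have hUt : U.toSubmodule ≠ ⊤ := fun h => hU2 (Subrepresentation.toSubmodule_injective h)
    have hlt1 : Module.finrank k U.toSubmodule < n := by
      rw [← hn]
      exact Submodule.finrank_lt hUt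
    have hlt2 : Module.finrank k (T ⧸ U.toSubmodule) < n := by
      rw [← hn]
      have h1 := Submodule.finrank_quotient_add_finrank U.toSubmodule
      have h2 : 0 < Module.finrank k U.toSubmodule := Module.finrank_pos_iff.mpr (by
        exact Submodule.nontrivial_iff_ne_bot.mpr hUb)
      omega
    rcases witG_sub_or_quot hHP U.toSubmodule (fun g u hu => U.apply_mem_toSubmodule g hu) hπi hw with
      ⟨u, hu, hnorm, hne⟩ | ⟨α', hα', hw'⟩
    · refine ih _ hlt1 U.toSubmodule U.toRepresentation rfl ?_ ?_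
      · intro w
        apply Subtype.ext
        have := hE w.1
        simpa [Subrepresentation.toRepresentation] using this
      · refine ⟨α ∘ₗ U.toSubmodule.subtype, ⟨u, hu⟩, ?_, ?_, ?_, ?_⟩
        · intro z hz w
          exact hw.inv z hz _
        · intro w
          have h1 : ((piOp U.toRepresentation π w : U.toSubmodule) : T) = piOp ρ π (w : T) := by
            simp [piOp_apply, Subrepresentation.toRepresentation]
          show α ((piOp U.toRepresentation π w : U.toSubmodule) : T) = α (w : T)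
          rw [h1, hw.idem]
        · apply Subtype.ext
          simpa [Subrepresentation.toRepresentation] using hnorm
        · exact hne
    · let ρq := ρ.quotient U.toSubmodule (fun g u hu => U.apply_mem_toSubmodule g hu)
      have hρq : ∀ g (w : T), ρq g (Submodule.Quotient.mk w) = Submodule.Quotient.mk (ρ g w) := fun g w => rfl
      refine ih _ hlt2 (T ⧸ U.toSubmodule) ρq rfl ?_ ?_
      · intro w
        obtain ⟨w, rfl⟩ := Submodule.Quotient.mk_surjective _ w
        simp only [hρq]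
        have h1 := congrArg U.toSubmodule.mkQ (hE w)
        rw [map_sum] at h1
        simpa using h1
      · refine ⟨U.toSubmodule.liftQ α' hα', Submodule.Quotient.mk v, ?_, ?_, ?_, ?_⟩
        · intro z hz w
          obtain ⟨w, rfl⟩ := Submodule.Quotient.mk_surjective _ w
          simp only [hρq, Submodule.liftQ_apply]
          exact hw'.inv z hz w
        · intro w
          obtain ⟨w, rfl⟩ := Submodule.Quotient.mk_surjective _ w
          have h1 : piOp ρq π (Submodule.Quotient.mk w) = Submodule.Quotient.mk (piOp ρ π w) := by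
            rw [piOp_apply, piOp_apply]
            show _ = U.toSubmodule.mkQ (∑ h : H, π h • ρ (h : G) w)
            rw [map_sum]
            refine sum_congr rfl fun h _ => ?_
            rw [map_smul]
            rfl
          rw [h1]
          simp only [Submodule.liftQ_apply]
          exact hw'.idem w
        · simp only [hρq]
          have h1 := congrArg U.toSubmodule.mkQ hw'.norm
          rw [map_sum] at h1
          simpa using h1
        · simp only [Submodule.liftQ_apply]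
          exact hw'.ne

end Descent

section Start

variable {k : Type v} [Field k] {p : ℕ} [hp : Fact p.Prime] [CharP k p]
  {G : Type u} [Group G] [Fintype G]

/-- The space of right `P`-invariant functions cut by `ε`. -/
def startSub (P : Subgroup G) (ε : G → k) : Submodule k (G → k) where
  carrier := {f | (∀ g, ∀ z ∈ P, f (g * z) = f g) ∧ ∀ g, ∑ u, ε u * f (u⁻¹ * g) = f g}
  add_mem' := by
    rintro f f' ⟨h1, h2⟩ ⟨h1', h2'⟩
    refine ⟨fun g z hz => ?_, fun g => ?_⟩
    · simp only [Pi.add_apply, h1 g z hz, h1' g z hz]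
    · simp only [Pi.add_apply, mul_add, sum_add_distrib, h2, h2']
  zero_mem' := by
    refine ⟨fun g z hz => ?_, fun g => ?_⟩ <;> simp
  smul_mem' := by
    rintro c f ⟨h1, h2⟩
    refine ⟨fun g z hz => ?_, fun g => ?_⟩
    · simp only [Pi.smul_apply, smul_eq_mul, h1 g z hz]
    · simp only [Pi.smul_apply, smul_eq_mul]
      rw [← h2 g, mul_sum]
      refine sum_congr rfl fun u _ => ?_
      ring

theorem startSub_invariant {P : Subgroup G} {ε : G → k} (hclass : ∀ g x, ε (x * g * x⁻¹) = ε g) (g₀ : G) {f : G → k}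
    (hf : f ∈ startSub P ε) : leftFun k G g₀ f ∈ startSub P ε := by
  obtain ⟨h1, h2⟩ := hf
  refine ⟨fun g z hz => ?_, fun g => ?_⟩
  · simp only [leftFun_apply]
    rw [← mul_assoc, h1 _ z hz]
  · simp only [leftFun_apply]
    rw [← h2 (g₀⁻¹ * g)]
    refine Fintype.sum_equiv (MulAut.conj g₀⁻¹).toEquiv _ _ fun u => ?_
    have h3 : (MulAut.conj g₀⁻¹).toEquiv u = g₀⁻¹ * u * g₀ := by simp
    rw [h3]
    have h4 : ε (g₀⁻¹ * u * g₀) = ε u := by
      have := hclass u g₀⁻¹
      rwa [inv_inv] at this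
    rw [h4]
    congr 2
    group

/-- The starting representation carrying a witness. -/
theorem exists_startG {y : G} (hy : orderOf y = p) [Fintype (Subgroup.zpowers y)]
    {H : Subgroup G} [Fintype H] (hHP : ∀ (h : H), ∀ z ∈ Subgroup.zpowers y, (h : G)⁻¹ * z * h ∈ Subgroup.zpowers y)
    {ε : G → k} (hclass : ∀ g x, ε (x * g * x⁻¹) = ε g)
    (hid : ∀ t, ∑ w, ε w * ε (w⁻¹ * t) = ε t) {π : H → k} (hπi : ∀ t, ∑ w, π w * π (w⁻¹ * t) = π t)
    (F : G → k) (hFl : ∀ z ∈ Subgroup.zpowers y, ∀ g, F (z * g) = F g)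
    (hFr : ∀ z ∈ Subgroup.zpowers y, ∀ g, F (g * z) = F g)
    (hFπ : ∀ g, ∑ h : H, π h * F ((h : G)⁻¹ * g) = F g)
    (hFval : ∑ u, ε u * F u⁻¹ ≠ 0) :
    ∃ (ρ : Representation k G (startSub (Subgroup.zpowers y) ε)), ActsOne ε ρ ∧
      ∃ α v, WitG ρ (Subgroup.zpowers y) H π α v := by
  classical
  have hpp : p.Prime := hp.out
  let U : Subrepresentation (leftFun k G) := ⟨startSub (Subgroup.zpowers y) ε, fun g f hf => startSub_invariant hclass g hf⟩
  let ρ : Representation k G (startSub (Subgroup.zpowers y) ε) := U.toRepresentation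
  have hρ : ∀ g (f : startSub (Subgroup.zpowers y) ε) x, (ρ g f : G → k) x = (f : G → k) (g⁻¹ * x) := fun g f x => rfl
  let v₀ : G → k := fun g => ∑ u, ε u * F (u⁻¹ * g)
  have hv₀ : v₀ ∈ startSub (Subgroup.zpowers y) ε := by
    refine ⟨fun g z hz => ?_, fun g => ?_⟩
    · simp only [v₀]
      refine sum_congr rfl fun u _ => ?_
      rw [← mul_assoc, hFr z hz]
    · simp only [v₀]
      calc ∑ x, ε x * ∑ u, ε u * F (u⁻¹ * (x⁻¹ * g))
          = ∑ x, ∑ t, ε x * ε (x⁻¹ * t) * F (t⁻¹ * g) := by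
            refine sum_congr rfl fun x _ => ?_
            rw [mul_sum]
            refine Fintype.sum_equiv (Equiv.mulLeft x) _ _ fun u => ?_
            simp only [Equiv.coe_mulLeft, inv_mul_cancel_left]
            rw [mul_assoc]
            congr 3
            group
        _ = ∑ t, ε t * F (t⁻¹ * g) := by
            rw [sum_comm]
            refine sum_congr rfl fun t _ => ?_
            rw [← sum_mul, hid]
  have hcardP : ∀ w : startSub (Subgroup.zpowers y) ε, ∑ z : Subgroup.zpowers y, w = 0 := by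
    intro w
    rw [sum_const, card_univ, ← Nat.card_eq_fintype_card, Nat.card_zpowers, hy,
      ← Nat.cast_smul_eq_nsmul k p w, CharP.cast_eq_zero k p, zero_smul]
  let v : startSub (Subgroup.zpowers y) ε := ⟨v₀, hv₀⟩
  have hvz : ∀ z : Subgroup.zpowers y, ρ (z : G) v = v := by
    intro z
    apply Subtype.ext
    funext g
    show v₀ ((z : G)⁻¹ * g) = v₀ g
    simp only [v₀]
    refine Fintype.sum_equiv (MulAut.conj (z : G)).toEquiv _ _ fun u => ?_
    have h3 : (MulAut.conj (z : G)).toEquiv u = (z : G) * u * (z : G)⁻¹ := by simp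
    rw [h3, hclass]
    congr 1
    rw [← hFl _ (Subgroup.inv_mem _ z.2) (((z : G) * u * (z : G)⁻¹)⁻¹ * g)]
    congr 1
    group
  let αf : (G → k) →ₗ[k] k := ∑ h : H, π h • LinearMap.proj ((h : G)⁻¹)
  have hαf : ∀ f : G → k, αf f = ∑ h : H, π h * f ((h : G)⁻¹) := by
    intro f
    simp [αf, LinearMap.sum_apply]
  refine ⟨ρ, ?_, αf ∘ₗ (startSub (Subgroup.zpowers y) ε).subtype, v, ?_, ?_, ?_, ?_⟩
  · intro w
    apply Subtype.ext
    funext g
    have h1 := w.2.2 g
    rw [← h1]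
    simp only [Submodule.coe_sum, Submodule.coe_smul, Finset.sum_apply, Pi.smul_apply, smul_eq_mul]
    rfl
  · intro z hz w
    show αf ((ρ z w : startSub (Subgroup.zpowers y) ε) : G → k) = αf ((w : startSub (Subgroup.zpowers y) ε) : G → k)
    rw [hαf, hαf]
    refine sum_congr rfl fun h _ => ?_
    congr 1
    rw [hρ]
    have h1 : z⁻¹ * (h : G)⁻¹ = (h : G)⁻¹ * ((h : G) * z⁻¹ * (h : G)⁻¹) := by group
    rw [h1, w.2.1 _ _ ?_]
    have h2 := hHP h⁻¹ z⁻¹ (Subgroup.inv_mem _ hz)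
    simpa using h2
  · intro w
    show αf ((piOp ρ π w : startSub (Subgroup.zpowers y) ε) : G → k) = αf ((w : startSub (Subgroup.zpowers y) ε) : G → k)
    rw [hαf, hαf]
    have h1 : ∀ h : H, ((piOp ρ π w : startSub (Subgroup.zpowers y) ε) : G → k) ((h : G)⁻¹) =
        ∑ h' : H, π h' * (w : G → k) ((h' : G)⁻¹ * (h : G)⁻¹) := by
      intro h
      rw [piOp_apply]
      simp only [Submodule.coe_sum, Submodule.coe_smul, Finset.sum_apply, Pi.smul_apply, smul_eq_mul, hρ]
    rw [sum_congr rfl (fun h _ => by rw [h1 h, mul_sum])]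
    have h2 : ∀ h : H, ∑ h' : H, π h * (π h' * (w : G → k) ((h' : G)⁻¹ * (h : G)⁻¹)) =
        ∑ t : H, π h * π (h⁻¹ * t) * (w : G → k) ((t : G)⁻¹) := by
      intro h
      refine Fintype.sum_equiv (Equiv.mulLeft h) _ _ fun h' => ?_
      simp only [Equiv.coe_mulLeft, inv_mul_cancel_left, Subgroup.coe_mul, mul_inv_rev]
      rw [mul_assoc]
    rw [sum_congr rfl (fun h _ => h2 h), sum_comm]
    refine sum_congr rfl fun t _ => ?_
    rw [← sum_mul, hπi]
  · rw [sum_congr rfl (fun z _ => hvz z)]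
    exact hcardP v
  · show αf v₀ ≠ 0
    have h1 : αf v₀ = ∑ u, ε u * F u⁻¹ := by
      rw [hαf]
      simp only [v₀]
      have h2 : ∀ h : H, ∑ u, ε u * F (u⁻¹ * (h : G)⁻¹) = ∑ u, ε u * F ((h : G)⁻¹ * u⁻¹) := by
        intro h
        refine Fintype.sum_equiv (MulAut.conj (h : G)).toEquiv _ _ fun u => ?_
        have h3 : (MulAut.conj (h : G)).toEquiv u = (h : G) * u * (h : G)⁻¹ := by simp
        rw [h3, hclass]
        congr 2
        group
      rw [sum_congr rfl (fun h _ => by rw [h2 h, mul_sum])]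
      rw [sum_comm]
      refine sum_congr rfl fun u _ => ?_
      rw [← hFπ u⁻¹, mul_sum]
      refine sum_congr rfl fun h _ => ?_
      ring
    rw [h1]
    exact hFval

end Start

section Main

variable {k : Type v} [Field k] {p : ℕ} [hp : Fact p.Prime] [CharP k p]
  {G : Type u} [Group G] [Fintype G]

/-- The main theorem of this file: the traces of irreducible representations carrying witnesses for
pairwise orthogonal idempotents of `H` are linearly independent. -/
theorem exists_independent_tracesG [IsAlgClosed k] {y : G} (hy : orderOf y = p)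
    {N H : Subgroup G} [Fintype H] [Fintype (Subgroup.zpowers y)]
    (hyN : y ∈ N)
    (hN : ∀ n ∈ N, ∃ z ∈ Subgroup.zpowers y, ∃ h : H, n = z * h)
    (hc : (Nat.card H : k) ≠ 0)
    (hHy : ∀ h : H, ∃ a : ℕ, (h : G)⁻¹ * y * h = y ^ a)
    (hfree : ∀ g : G, ∀ z ∈ Subgroup.zpowers y, z ≠ 1 → g⁻¹ * z * g ∈ N → g ∈ N)
    {ε : G → k} (hclass : ∀ g x, ε (x * g * x⁻¹) = ε g)
    (hid : ∀ t, ∑ w, ε w * ε (w⁻¹ * t) = ε t)
    {ι : Type*} [Fintype ι] [DecidableEq ι] (π : ι → H → k)
    (hπc : ∀ i h x, π i (x * h * x⁻¹) = π i h) (hπi : ∀ i t, ∑ w, π i w * π i (w⁻¹ * t) = π i t)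
    (horth : ∀ i j, i ≠ j → ∀ t, ∑ w, π i w * π j (w⁻¹ * t) = 0)
    (F : ι → G → k) (hFl : ∀ i, ∀ z ∈ Subgroup.zpowers y, ∀ g, F i (z * g) = F i g)
    (hFr : ∀ i, ∀ z ∈ Subgroup.zpowers y, ∀ g, F i (g * z) = F i g)
    (hFπ : ∀ i g, ∑ h : H, π i h * F i ((h : G)⁻¹ * g) = F i g)
    (hFval : ∀ i, ∑ u, ε u * F i u⁻¹ ≠ 0) :
    ∃ τ : ι → G → k, LinearIndependent k τ ∧ (∀ i g x, τ i (x * g * x⁻¹) = τ i g) ∧
      (∀ i a b j, Commute a b → orderOf a = p ^ j → τ i (a * b) = τ i b) ∧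
      (∀ i g, ∑ u, ε u * τ i (u * g) = τ i g) := by
  classical
  have hHP' : ∀ (h : H), ∀ z ∈ Subgroup.zpowers y, (h : G)⁻¹ * z * h ∈ Subgroup.zpowers y := by
    intro h z hz
    obtain ⟨i, rfl⟩ := Subgroup.mem_zpowers_iff.mp hz
    have h1 : (h : G)⁻¹ * y ^ i * (h : G) = ((h : G)⁻¹ * y * (h : G)) ^ i := by
      have := conj_zpow (a := (h : G)⁻¹) (b := y) (i := i)
      rw [inv_inv] at this
      exact this.symm
    rw [h1]
    apply Subgroup.zpow_mem
    obtain ⟨a, ha⟩ := hHy h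
    rw [ha]
    exact Subgroup.pow_mem _ (Subgroup.mem_zpowers y) _
  have hHP : ∀ h : H, ∀ z ∈ Subgroup.zpowers y, (h : G) * z * (h : G)⁻¹ ∈ Subgroup.zpowers y := by
    intro h z hz
    have := hHP' h⁻¹ z hz
    simpa using this
  have hPN : Subgroup.zpowers y ≤ N := Subgroup.zpowers_le.mpr hyN
  have hstart : ∀ i, ∃ (T' : Type (max u v)) (_ : AddCommGroup T') (_ : Module k T') (_ : FiniteDimensional k T')
      (ρ' : Representation k G T'), ρ'.IsIrreducible ∧ ActsOne ε ρ' ∧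
        ∃ α v, WitG ρ' (Subgroup.zpowers y) H (π i) α v := by
    intro i
    obtain ⟨ρ, h1, h2⟩ := exists_startG hy hHP' hclass hid (hπi i) (F i) (hFl i) (hFr i) (hFπ i) (hFval i)
    exact exists_irr_of_witG hHP ε _ (hπi i) _ (startSub (Subgroup.zpowers y) ε) ρ rfl h1 h2
  choose T i1 i2 i3 ρ hirr hE hwit using hstart
  letI : ∀ i, AddCommGroup (T i) := i1
  letI : ∀ i, Module k (T i) := i2
  haveI : ∀ i, FiniteDimensional k (T i) := i3
  have hnt : ∀ i, Nontrivial (T i) := by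
    intro i
    obtain ⟨α, v, hw⟩ := hwit i
    exact ⟨⟨v, 0, fun h => hw.ne (by rw [h, map_zero])⟩⟩
  have hS : ∀ i, ∀ ψ : Module.End k (T i), (∀ g, ψ * ρ i g = ρ i g * ψ) → ∃ c : k, ψ = c • 1 := by
    intro i ψ hψ
    haveI := hnt i
    exact schur_of_irr (hirr i) ψ hψ
  -- no homomorphisms
  haveI : ∀ i, (ρ i).IsIrreducible := hirr
  have hne : ∀ i j, i ≠ j → ∀ f : (ρ i).asModule →ₗ[MonoidAlgebra k G] (ρ j).asModule, f = 0 := by
    intro i j hij f
    rcases LinearMap.bijective_or_eq_zero f with hb | h0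
    · exfalso
      obtain ⟨β, w, hw⟩ := hwit j
      obtain ⟨α, v, hw'⟩ := hwit i
      let fk : T i →ₗ[k] T j := (ρ j).asModuleEquiv.toLinearMap ∘ₗ (f.restrictScalars k) ∘ₗ
        (ρ i).asModuleEquiv.symm.toLinearMap
      have hfk : ∀ t, fk t = (ρ j).asModuleEquiv (f ((ρ i).asModuleEquiv.symm t)) := fun t => rfl
      have hf1 : ∀ (g : G) (t : T i), fk (ρ i g t) = ρ j g (fk t) := by
        intro g t
        rw [hfk, hfk, Representation.asModuleEquiv_symm_map_rho, map_smul,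
          Representation.asModuleEquiv_map_smul, Representation.asAlgebraHom_of]
      have hinj' : Function.Injective fk := by
        intro a b hab
        have h1 := hb.1 ((ρ j).asModuleEquiv.injective hab)
        exact (ρ i).asModuleEquiv.symm.injective h1
      obtain ⟨w₁, hw₁⟩ := hb.2 ((ρ j).asModuleEquiv.symm w)
      let w' : T i := (ρ i).asModuleEquiv w₁
      have hw'w : fk w' = w := by
        rw [hfk]
        simp only [w', LinearEquiv.symm_apply_apply, hw₁, LinearEquiv.apply_symm_apply]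
      have hw2 : WitG (ρ i) (Subgroup.zpowers y) H (π j) (β ∘ₗ fk) w' := by
        refine ⟨?_, ?_, ?_, ?_⟩
        · intro z hz t
          show β (fk (ρ i z t)) = β (fk t)
          rw [hf1, hw.inv z hz]
        · intro t
          show β (fk (piOp (ρ i) (π j) t)) = β (fk t)
          have h1 : fk (piOp (ρ i) (π j) t) = piOp (ρ j) (π j) (fk t) := by
            rw [piOp_apply, piOp_apply, map_sum]
            refine sum_congr rfl fun h _ => ?_
            rw [map_smul, hf1]
          rw [h1, hw.idem]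
        · apply hinj'
          rw [map_sum, map_zero]
          rw [← hw.norm]
          refine sum_congr rfl fun z _ => ?_
          rw [hf1, hw'w]
        · show β (fk w') ≠ 0
          rw [hw'w]
          exact hw.ne
      exact not_wit_of_orth hy hc hHy hPN hN hfree (hS i) (hπc i) (hπi i) (hπc j) (horth j i hij.symm) hw' hw2
    · exact h0
  refine ⟨fun i => (ρ i).character, ?_, ?_, ?_, ?_⟩
  · rw [Fintype.linearIndependent_iff]
    intro c hc0 i₀
    haveI := hnt i₀
    obtain ⟨t, ht⟩ := exists_ne (0 : T i₀)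
    obtain ⟨ξ, hξ⟩ : ∃ ξ : T i₀ →ₗ[k] k, ξ t = 1 := by
      obtain ⟨ξ₀, h1, -⟩ := Submodule.exists_le_ker_of_notMem (p := (⊥ : Submodule k (T i₀))) (v := t) (by
        simpa using ht)
      exact ⟨(ξ₀ t)⁻¹ • ξ₀, by simp [h1]⟩
    obtain ⟨a, ha1, ha2⟩ := exists_elt_of_simple k (A := MonoidAlgebra k G) (fun i => (ρ i).asModule) hne i₀
      (ξ.smulRight t)
    have htr1 : LinearMap.trace k (T i₀) ((ρ i₀).asAlgebraHom a) = 1 := by
      have h1 : (ρ i₀).asAlgebraHom a = ξ.smulRight t := by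
        ext m
        exact ha1 m
      rw [h1, LinearMap.trace_smulRight, hξ]
    have htr2 : ∀ j, j ≠ i₀ → LinearMap.trace k (T j) ((ρ j).asAlgebraHom a) = 0 := by
      intro j hj
      have h1 : (ρ j).asAlgebraHom a = 0 := by
        ext m
        exact ha2 j hj m
      rw [h1, map_zero]
    have htr : ∀ j, LinearMap.trace k (T j) ((ρ j).asAlgebraHom a) = ∑ g, a.coeff g * (ρ j).character g := by
      intro j
      rw [asAlgebraHom_eq_sum, map_sum]
      refine sum_congr rfl fun g _ => ?_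
      rw [map_smul, smul_eq_mul]
      rfl
    have h2 : ∑ g, a.coeff g * ∑ i, c i * (ρ i).character g = 0 := by
      refine sum_eq_zero fun g _ => ?_
      have h3 := congrFun hc0 g
      simp only [Finset.sum_apply, Pi.smul_apply, smul_eq_mul, Pi.zero_apply] at h3
      rw [h3, mul_zero]
    have h4 : ∑ g, a.coeff g * ∑ i, c i * (ρ i).character g =
        ∑ i, c i * LinearMap.trace k (T i) ((ρ i).asAlgebraHom a) := by
      simp_rw [htr, mul_sum]
      rw [sum_comm]
      refine sum_congr rfl fun i _ => ?_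
      refine sum_congr rfl fun g _ => ?_
      ring
    rw [h4, sum_eq_single i₀] at h2
    · rw [htr1, mul_one] at h2
      exact h2
    · intro j _ hj
      rw [htr2 j hj, mul_zero]
    · intro h
      exact absurd (mem_univ _) h
  · intro i g x
    simp only [Representation.character]
    rw [map_mul (ρ i), map_mul (ρ i), LinearMap.trace_mul_comm, ← mul_assoc, ← map_mul (ρ i), inv_mul_cancel,
      map_one, one_mul]
  · intro i a b j hab ha
    exact character_mul_of_pPart (ρ i) hab ha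
  · intro i g
    have h1 : ∑ u, ε u • ρ i u = 1 := by
      ext w
      have := hE i w
      simpa [LinearMap.sum_apply] using this
    have h2 : ∑ u, ε u • ρ i (u * g) = ρ i g := by
      have h3 : ∀ u, ε u • ρ i (u * g) = (ε u • ρ i u) * ρ i g := by
        intro u
        rw [map_mul, smul_mul_assoc]
      rw [sum_congr rfl (fun u _ => h3 u), ← sum_mul, h1, one_mul]
    have h3 := congrArg (LinearMap.trace k (T i)) h2
    rw [map_sum] at h3
    simp only [map_smul, smul_eq_mul] at h3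
    exact h3

end Main

end Cfsg.Agent.Lib.DefOne
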