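import Cfsg.Agent.Lib.DefOne.Main
import Cfsg.Agent.Lib.DefOne.AutC
import Cfsg.Agent.Lib.Char.OddExt

/-!
# Power maps on the generalized characters of a block with defect group of prime order
-/

set_option autoImplicit false
set_option linter.unusedSectionVars false
set_option linter.unusedVariables false

namespace Cfsg.Agent.Lib.DefOne

open Cfsg Cfsg.Agent.Lib.Char Cfsg.Agent.Lib.Blocks Finset
open scoped ComplexConjugate

universe u

attribute [local instance] fintypeOfSubgroup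

variable {G : Type u} [Group G] [Fintype G] {p : ℕ} [hp : Fact p.Prime] {P : Sylow p G} {M : Ideal AlgInt}

local notation "𝐐" => ((P : Subgroup G))
local notation "𝐂" => (Subgroup.centralizer (((P : Subgroup G)) : Set G))
local notation "𝐍" => (Subgroup.normalizer (((P : Subgroup G)) : Set G))

/-- The power map on irreducible characters. -/
noncomputable def powI {k : ℕ} (hk : k.Coprime (Nat.card G)) (χ : IrrCharacter G) : IrrCharacter G :=
  ⟨fun g => (χ : G → ℂ) (g ^ k), isIrrCharacter_pow χ.2 hk⟩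

theorem powI_coe {k : ℕ} (hk : k.Coprime (Nat.card G)) (χ : IrrCharacter G) (g : G) :
    (powI hk χ : G → ℂ) g = (χ : G → ℂ) (g ^ k) := rfl

theorem classInner_pow_pow {k : ℕ} (hk : k.Coprime (Nat.card G)) (f g : G → ℂ) :
    classInner (fun x => f (x ^ k)) (fun x => g (x ^ k)) = classInner f g := by
  simp only [classInner]
  congr 1
  exact sum_pow_eq hk (fun x => f x * conj (g x))

/-- A `P`-trivial character takes the same values at `c` and at `c ^ k`. -/
theorem PT.apply_pow (hP : Nat.card (P : Subgroup G) = p) {θ : IrrCharacter 𝐂} (hθ : PT θ) {k : ℕ}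
    (hreg : ∀ y : G, ¬ p ∣ orderOf y → y ^ k = y) (c : 𝐂) : (θ : 𝐂 → ℂ) (c ^ k) = (θ : 𝐂 → ℂ) c := by
  obtain ⟨u, y, rfl, hu, hy⟩ := exists_decomp hP c
  have hcomm : Commute u y := (comm_cent hP hu y).symm
  have hy' : y ^ k = y := by
    apply Subtype.ext
    have h1 : ¬ p ∣ orderOf (y : G) := by rwa [Subgroup.orderOf_coe]
    simpa using hreg y h1
  have hu' : ((u ^ k : 𝐂) : G) ∈ 𝐐 := by
    have : ((u ^ k : 𝐂) : G) = (u : G) ^ k := rfl
    rw [this]
    exact pow_mem hu k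
  rw [hcomm.mul_pow, hy', hθ.mul_left hP hu' y, hθ.mul_left hP hu y]

theorem LL_pow_hom (hP : Nat.card (P : Subgroup G) = p) (a : 𝐐 →* ℂˣ) (k : ℕ) : LL hP (a ^ k) = LL hP a ^ k := by
  induction k with
  | zero =>
    have h1 : a ^ 0 = 1 := pow_zero a
    rw [h1, LL_one]
    exact (pow_zero (LL hP a)).symm
  | succ k ih =>
    have h1 : a ^ (k + 1) = a ^ k * a := pow_succ a k
    rw [h1, LL_mul, ih]
    exact (pow_succ (LL hP a) k).symm

theorem tw_apply_pow (hP : Nat.card (P : Subgroup G) = p) {θ : IrrCharacter 𝐂} (hθ : PT θ) {k : ℕ}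
    (hreg : ∀ y : G, ¬ p ∣ orderOf y → y ^ k = y) (a : 𝐐 →* ℂˣ) (c : 𝐂) :
    (tw hP a θ : 𝐂 → ℂ) (c ^ k) = (tw hP (a ^ k) θ : 𝐂 → ℂ) c := by
  rw [tw_coe, tw_coe, hθ.apply_pow hP hreg, map_pow, LL_pow_hom, MonoidHom.pow_apply]

/-- The behaviour of the generalized characters under power maps. -/
theorem vv_apply_pow (hP : Nat.card (P : Subgroup G) = p) {θ : IrrCharacter 𝐂} (hθ : PT θ) {k : ℕ}
    (hk : k.Coprime (Nat.card G)) (hreg : ∀ y : G, ¬ p ∣ orderOf y → y ^ k = y) (a : 𝐐 →* ℂˣ) (g : G) :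
    vv hP a θ (g ^ k) = vv hP (a ^ k) θ g := by
  simp only [vv, Pi.sub_apply]
  rw [Cfsg.Agent.Lib.Char.OddExt.indFun_pow 𝐂 hk, Cfsg.Agent.Lib.Char.OddExt.indFun_pow 𝐂 hk]
  congr 2
  · funext c
    exact tw_apply_pow hP hθ hreg a c
  · funext c
    exact hθ.apply_pow hP hreg c

/-- The inner product with the power of a character. -/
theorem inner_vv_pow (hP : Nat.card (P : Subgroup G) = p) {θ : IrrCharacter 𝐂} (hθ : PT θ) {k : ℕ}
    (hk : k.Coprime (Nat.card G)) (hreg : ∀ y : G, ¬ p ∣ orderOf y → y ^ k = y) (a : 𝐐 →* ℂˣ) (χ : IrrCharacter G) :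
    classInner (vv hP (a ^ k) θ) (powI hk χ : G → ℂ) = classInner (vv hP a θ) (χ : G → ℂ) := by
  rw [← classInner_pow_pow hk (vv hP a θ) (χ : G → ℂ)]
  congr 1
  funext g
  exact (vv_apply_pow hP hθ hk hreg a g).symm

theorem dual_pow_p (hP : Nat.card (P : Subgroup G) = p) (a : 𝐐 →* ℂˣ) : a ^ p = 1 := by
  ext u
  have h1 : u ^ p = 1 := Subtype.ext (pow_p_of_mem hP u.2)
  have : (a ^ p) u = a (u ^ p) := by
    rw [MonoidHom.pow_apply, map_pow]
  rw [this, h1]
  simp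

theorem dual_pow_modEq (hP : Nat.card (P : Subgroup G) = p) (a : 𝐐 →* ℂˣ) {k m : ℕ} (h : k ≡ m [MOD p]) : a ^ k = a ^ m := by
  ext u
  have h1 : (a u) ^ p = 1 := by
    have h2 : (a ^ p) u = (a u) ^ p := MonoidHom.pow_apply a p u
    rw [← h2, dual_pow_p hP]
    rfl
  rw [MonoidHom.pow_apply, MonoidHom.pow_apply, pow_eq_pow_of_modEq h h1]

/-- Power maps with exponent prime to `p` are bijective on the dual group. -/
theorem exists_root_dual (hP : Nat.card (P : Subgroup G) = p) {k : ℕ} (hk : k.Coprime p) (b : 𝐐 →* ℂˣ) :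
    ∃ a : 𝐐 →* ℂˣ, a ^ k = b := by
  have hpp : p.Prime := hp.out
  obtain ⟨k', hk'⟩ := Nat.exists_mul_mod_eq_one_of_coprime' hk hpp
  refine ⟨b ^ k', ?_⟩
  have h1 : (b ^ k') ^ k = b ^ (k * k') := by
    rw [mul_comm]
    exact (pow_mul b k' k).symm
  rw [h1]
  exact (pow_eq_pow_of_modEq hk' (dual_pow_p hP b)).trans (pow_one b)

theorem pow_ne_one_dual (hP : Nat.card (P : Subgroup G) = p) {k : ℕ} (hk : k.Coprime p) {a : 𝐐 →* ℂˣ} (ha : a ≠ 1) :
    a ^ k ≠ 1 := by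
  intro h
  have hpp : p.Prime := hp.out
  obtain ⟨k', hk'⟩ := Nat.exists_mul_mod_eq_one_of_coprime' hk hpp
  apply ha
  have h1 : (a ^ k) ^ k' = a := by
    have h2 : (a ^ k) ^ k' = a ^ (k * k') := (pow_mul a k k').symm
    rw [h2]
    exact (pow_eq_pow_of_modEq hk' (dual_pow_p hP a)).trans (pow_one a)
  rw [h] at h1
  rw [← h1]
  exact one_pow (M := 𝐐 →* ℂˣ) k'

/-- A nontrivial character generates the dual group. -/
theorem exists_pow_dual (hP : Nat.card (P : Subgroup G) = p) [Fintype (𝐐 →* ℂˣ)] {a : 𝐐 →* ℂˣ} (ha : a ≠ 1) (b : 𝐐 →* ℂˣ) :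
    ∃ m : ℕ, a ^ m = b := by
  have h1 : Nat.card (𝐐 →* ℂˣ) = p := by
    rw [card_dual (hcomm_Q hP), hP]
  have h2 : b ∈ Submonoid.powers a := mem_powers_of_prime_card h1 ha
  obtain ⟨m, hm⟩ := (Submonoid.mem_powers_iff b a).mp h2
  exact ⟨m, hm⟩

end Cfsg.Agent.Lib.DefOne
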