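import Cfsg.Agent.Lib.DefOne.Cliff
import Cfsg.Agent.Lib.DefOne.ModGen
import Cfsg.Agent.Lib.Blocks.PrincipalRank

/-!
# The rank of a block with defect group of prime order is at least the inertial index
-/

set_option autoImplicit false
set_option linter.unusedSectionVars false
set_option linter.unusedVariables false

namespace Cfsg.Agent.Lib.DefOne

open Cfsg Cfsg.Agent.Lib.Char Cfsg.Agent.Lib.Blocks Finset
open scoped ComplexConjugate

universe u

attribute [local instance] fintypeOfSubgroup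

variable {G : Type u} [Group G] [Fintype G] {p : ℕ} [hp : Fact p.Prime] {P : Sylow p G} {M : Ideal AlgInt}

local notation "𝐐" => ((P : Subgroup G))
local notation "𝐂" => (Subgroup.centralizer (((P : Subgroup G)) : Set G))
local notation "𝐍" => (Subgroup.normalizer (((P : Subgroup G)) : Set G))

open scoped Classical in
/-- Orbit sums under conjugation by `⟨y⟩` vanish off the centralizer of `y`. -/
theorem sum_noncomm_eq_zero {k : Type*} [Field k] [CharP k p] {y : G} (hy : orderOf y = p)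
    (hcent : ∀ g : G, ∀ z ∈ Subgroup.zpowers y, z ≠ 1 → g * z = z * g → g * y = y * g)
    (D : G → k) (hD : ∀ z ∈ Subgroup.zpowers y, ∀ u, D (z * u * z⁻¹) = D u) :
    ∑ u ∈ univ.filter (fun u => u * y ≠ y * u), D u = 0 := by
  classical
  refine ModTI.sum_eq_zero_of_free (P := Subgroup.zpowers y) (fun z u => (z : G) * u * (z : G)⁻¹) (fun x => by simp)
      (fun z w x => by simp [mul_assoc]) D _ _ rfl ?_ ?_ ?_
  · intro u hu z
    refine mem_filter.mpr ⟨mem_univ _, fun h => (mem_filter.mp hu).2 ?_⟩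
    obtain ⟨i, hi⟩ := Subgroup.mem_zpowers_iff.mp z.2
    have hzy : (z : G) * y = y * z := by
      rw [← hi]
      exact ((Commute.zpow_self y i).eq)
    have hzy' : (z : G)⁻¹ * y = y * (z : G)⁻¹ := by
      have := (Commute.inv_left (show Commute (z : G) y from hzy)).eq
      exact this
    calc u * y = (z : G)⁻¹ * (((z : G) * u * (z : G)⁻¹) * y) * (z : G) := by
          calc u * y = (z : G)⁻¹ * ((z : G) * u * ((z : G)⁻¹ * y)) * (z : G) := by
                rw [hzy']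
                group
            _ = _ := by group
      _ = (z : G)⁻¹ * (y * ((z : G) * u * (z : G)⁻¹)) * (z : G) := by rw [h]
      _ = ((z : G)⁻¹ * y) * ((z : G) * u * (z : G)⁻¹) * (z : G) := by group
      _ = (y * (z : G)⁻¹) * ((z : G) * u * (z : G)⁻¹) * (z : G) := by rw [hzy']
      _ = y * u := by group
  · intro u hu z hz
    by_contra hz1
    have hz1' : (z : G) ≠ 1 := fun e => hz1 (Subtype.ext e)
    have h1 : u * (z : G) = (z : G) * u := by
      calc u * (z : G) = ((z : G) * u * (z : G)⁻¹) * (z : G) := by rw [hz]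
        _ = (z : G) * u := by group
    exact (mem_filter.mp hu).2 (hcent u z z.2 hz1' h1)
  · intro u _
    have h1 : ∀ z : Subgroup.zpowers y, D ((z : G) * u * (z : G)⁻¹) = D u := fun z => hD z z.2 u
    rw [sum_congr rfl (fun z _ => h1 z), sum_const, card_univ, nsmul_eq_mul]
    have h2 : ((Fintype.card (Subgroup.zpowers y) : ℕ) : k) = 0 := by
      rw [← Nat.card_eq_fintype_card, Nat.card_zpowers, hy]
      exact CharP.cast_eq_zero k p
    rw [h2, zero_mul]

theorem epsRes_orth (M : Ideal AlgInt) [M.IsPrime] {K : Type*} [Group K] [Fintype K] {A B : Set (IrrCharacter K)} (hA : IsPBlock M A) (hB : IsPBlock M B)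
    (hAB : Disjoint A B) (t : K) : ∑ w, epsRes M A hA w * epsRes M B hB (w⁻¹ * t) = 0 := by
  have h1 : ∑ w, (⟨coef (indic A) w, coef_memLocalRing (indic_mem_zS hA) w⟩ : locRing M) *
      (⟨coef (indic B) (w⁻¹ * t), coef_memLocalRing (indic_mem_zS hB) _⟩ : locRing M) = 0 := by
    apply Subtype.ext
    have h2 := congrFun (coef_mul (indic A) (indic B)) t
    have h3 : indic A * indic B = 0 := by
      funext χ
      by_cases hχ : χ ∈ A
      · have h4 : χ ∉ B := fun h => Set.disjoint_left.mp hAB hχ h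
        simp [hχ, h4]
      · simp [hχ]
    rw [h3, coef_zero] at h2
    simp only [conv] at h2
    simpa using h2.symm
  simp only [epsRes]
  simp only [← map_mul]
  rw [← map_sum, h1, map_zero]

/-- The traces of the simple modules attached to the characters of `N` over `θ`. -/
theorem exists_traces_gen (hM : IsPModular p M) [hMp : M.IsPrime] (hP : Nat.card (P : Subgroup G) = p)
    {B : Set (IrrCharacter G)} (hB : IsPBlock M B) {θ : IrrCharacter 𝐂}
    (hind : IsInducedBlock M 𝐂 (blockOf M (θ : 𝐂 → ℂ)) B) {ι : Type} [Fintype ι] [DecidableEq ι]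
    (Ω : ι → 𝐍 → ℂ) (hirr : ∀ i, IsIrrCharacter 𝐍 (Ω i)) (hker : ∀ i (z : 𝐍), (z : G) ∈ 𝐐 → Ω i z = Ω i 1)
    (hne : ∀ i j, i ≠ j → Ω i ≠ Ω j)
    (hres : ∀ i (φ : G → ℂ), IsClassFunction G φ → ∑ c : 𝐂, φ c * Ω i (toN c) =
        (Ω i 1 / (θ : 𝐂 → ℂ) 1) * ∑ c : 𝐂, φ c * (θ : 𝐂 → ℂ) c) :
    ∃ τ : ι → G → ResF M, LinearIndependent (ResF M) τ ∧ (∀ i g x, τ i (x * g * x⁻¹) = τ i g) ∧
      (∀ i a b j, Commute a b → orderOf a = p ^ j → τ i (a * b) = τ i b) ∧
      (∀ i g, ∑ u, epsRes M B hB u * τ i (u * g) = τ i g) := by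
  classical
  have hpp : p.Prime := hp.out
  obtain ⟨y, H, hyo, hyg, hHN, hyN, hN, hHp, hHy, hfree, hCN, hcent⟩ := exists_sylow_setup P hP
  haveI hk : CharP (ResF M) p := (CharP.charP_iff_prime_eq_zero hpp).mpr (by
    have h1 : ((p : locRing M)) ∈ locMax M := by
      rw [mem_locMax]
      simpa using p_memLocalIdeal hM
    have h2 : (Ideal.Quotient.mk (locMax M)) (p : locRing M) = 0 := Ideal.Quotient.eq_zero_iff_mem.mpr h1
    simpa using h2)
  let mk : locRing M →+* ResF M := Ideal.Quotient.mk (locMax M)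
  let inc : H →* 𝐍 := Subgroup.inclusion hHN
  have hyP : ∀ z, z ∈ Subgroup.zpowers y ↔ z ∈ 𝐐 := fun z => by rw [hyg]
  have hPN : ∀ z, z ∈ 𝐐 → z ∈ 𝐍 := fun z hz => Subgroup.le_normalizer hz
  have hΩc : ∀ i, IsCharacter 𝐍 (Ω i) := fun i => IsIrrCharacter.isCharacter (hirr i)
  have hΩl : ∀ i (z : 𝐍), (z : G) ∈ 𝐐 → ∀ n, Ω i (z * n) = Ω i n := fun i z hz n =>
    apply_mem_charKer_mul (hΩc i) ((mem_charKer (hΩc i)).mpr (hker i z hz)) n
  have hΩr : ∀ i (z : 𝐍), (z : G) ∈ 𝐐 → ∀ n, Ω i (n * z) = Ω i n := fun i z hz n =>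
    apply_mul_mem_charKer (hΩc i) ((mem_charKer (hΩc i)).mpr (hker i z hz)) n
  -- `P` meets `H` trivially
  have hPH : ∀ h : H, (h : G) ∈ 𝐐 → h = 1 := by
    intro h hh
    have h1 : orderOf h ∣ Nat.card H := orderOf_dvd_natCard h
    have h2 : orderOf h ∣ p := by
      apply orderOf_dvd_of_pow_eq_one
      apply Subtype.ext
      simpa using pow_p_of_mem hP hh
    rcases (Nat.dvd_prime hpp).mp h2 with h3 | h3
    · exact orderOf_eq_one_iff.mp h3
    · rw [h3] at h1
      exact absurd h1 hHp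
  -- the sum over `N`
  have hsum : ∀ f : 𝐍 → ℂ, (∀ z : 𝐍, (z : G) ∈ 𝐐 → ∀ n, f (z * n) = f n) → ∑ n, f n = (p : ℂ) * ∑ h : H, f (inc h) := by
    intro f hf
    let φ : 𝐐 × H → 𝐍 := fun x => ⟨x.1, hPN _ x.1.2⟩ * inc x.2
    have hφ : Function.Bijective φ := by
      constructor
      · rintro ⟨z, h⟩ ⟨z', h'⟩ heq
        have h1 : (z : G) * h = z' * h' := congrArg Subtype.val heq
        have h2 : ((z' : G))⁻¹ * z = h' * (h : G)⁻¹ := by
          calc ((z' : G))⁻¹ * z = ((z' : G))⁻¹ * ((z : G) * h) * (h : G)⁻¹ := by group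
            _ = ((z' : G))⁻¹ * ((z' : G) * h') * (h : G)⁻¹ := by rw [h1]
            _ = _ := by group
        have h3 : h' * h⁻¹ = 1 := by
          apply hPH
          show (h' : G) * (h : G)⁻¹ ∈ 𝐐
          rw [← h2]
          exact 𝐐.mul_mem (𝐐.inv_mem z'.2) z.2
        have h4 : h' = h := mul_inv_eq_one.mp h3
        subst h4
        have h5 : (z : G) = z' := mul_right_cancel h1
        exact Prod.ext (Subtype.ext h5) rfl
      · intro n
        obtain ⟨z, hz, h, hn⟩ := hN n n.2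
        refine ⟨(⟨z, (hyP z).mp hz⟩, h), Subtype.ext ?_⟩
        exact hn.symm
    rw [← Fintype.sum_bijective φ hφ (fun x => f (φ x)) f (fun _ => rfl), Fintype.sum_prod_type]
    have h1 : ∀ z : 𝐐, ∑ h : H, f (φ (z, h)) = ∑ h : H, f (inc h) := fun z =>
      sum_congr rfl fun h _ => hf _ z.2 _
    rw [sum_congr rfl (fun z _ => h1 z), sum_const, card_univ, nsmul_eq_mul, ← Nat.card_eq_fintype_card, hP]
  have hcardN : (Nat.card 𝐍 : ℂ) = (p : ℂ) * (Nat.card H : ℂ) := by
    have h1 := hsum (fun _ => 1) (fun _ _ _ => rfl)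
    simpa [Nat.card_eq_fintype_card] using h1
  have hHc : (Nat.card H : ℂ) ≠ 0 := by exact_mod_cast (Nat.card_pos (α := H)).ne'
  have hpc : (p : ℂ) ≠ 0 := by exact_mod_cast hpp.ne_zero
  -- irreducible characters of `H`
  have hSirr : ∀ i, IsIrrCharacter H (fun h => Ω i (inc h)) := by
    intro i
    apply isIrrCharacter_of_classInner_self (IsCharacter.comp (hΩc i) inc)
    have h1 := classInner_irr_self (hirr i)
    have h2 := hsum (fun n => Ω i n * conj (Ω i n)) (fun z hz n => by simp only [hΩl i z hz])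
    simp only [classInner] at h1 ⊢
    rw [h2, hcardN] at h1
    have h3 : ((p : ℂ) * (Nat.card H : ℂ))⁻¹ * ((p : ℂ) * ∑ h : H, Ω i (inc h) * conj (Ω i (inc h))) =
        (Nat.card H : ℂ)⁻¹ * ∑ h : H, Ω i (inc h) * conj (Ω i (inc h)) := by
      field_simp
    rw [h3] at h1
    exact h1
  let S : ι → IrrCharacter H := fun i => ⟨fun h => Ω i (inc h), hSirr i⟩
  have hScoe : ∀ i (h : H), (S i : H → ℂ) h = Ω i (inc h) := fun i h => rfl
  have hdecomp : ∀ n : 𝐍, ∃ z : 𝐍, (z : G) ∈ 𝐐 ∧ ∃ h : H, n = z * inc h := by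
    intro n
    obtain ⟨z, hz, h, hn⟩ := hN n n.2
    exact ⟨⟨z, hPN _ ((hyP z).mp hz)⟩, (hyP z).mp hz, h, Subtype.ext hn⟩
  have hSne : ∀ i j, i ≠ j → S i ≠ S j := by
    intro i j hij h
    apply hne i j hij
    funext n
    obtain ⟨z, hz, t, rfl⟩ := hdecomp n
    rw [hΩl i z hz, hΩl j z hz, ← hScoe, ← hScoe, h]
  have hSp : ∀ i, ¬ p ∣ charDegree (S i : H → ℂ) := fun i h => hHp (h.trans (charDegree_dvd_card (S i).2))
  have hSone : ∀ i, (S i : H → ℂ) 1 = Ω i 1 := by
    intro i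
    rw [hScoe, map_one]
  have hSdeg : ∀ i, Ω i 1 = (charDegree (S i : H → ℂ) : ℂ) := by
    intro i
    rw [← hSone]
    exact apply_one_eq_charDegree (IsIrrCharacter.isCharacter (S i).2)
  have hbS : ∀ i, blockOf M (S i : H → ℂ) = {S i} := by
    intro i
    rw [← not_dvd_iff_blockOf_singleton hM]
    intro h
    exact hHp (h.trans (Nat.div_dvd_of_dvd (charDegree_dvd_card (S i).2)))
  have hSb : ∀ i, IsPBlock M ({S i} : Set (IrrCharacter H)) := fun i => by
    rw [← hbS]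
    exact isPBlock_blockOf _
  let π : ι → H → ResF M := fun i => epsRes M {S i} (hSb i)
  have hπc : ∀ i h x, π i (x * h * x⁻¹) = π i h := fun i h x => epsRes_class M _ (hSb i) h x
  have hπi : ∀ i t, ∑ w, π i w * π i (w⁻¹ * t) = π i t := fun i t => epsRes_id M _ (hSb i) t
  have horth : ∀ i j, i ≠ j → ∀ t, ∑ w, π i w * π j (w⁻¹ * t) = 0 := fun i j hij t =>
    epsRes_orth M (hSb i) (hSb j) (by simpa using hSne i j hij) t
  have hcoefS : ∀ i (h : H), coef (indic ({S i} : Set (IrrCharacter H))) h = (Ω i 1 / (Nat.card H : ℂ)) * conj (Ω i (inc h)) := by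
    intro i h
    simp only [coef]
    rw [Finset.sum_eq_single (S i)]
    · rw [indic_apply_of_mem (Set.mem_singleton (S i)), one_mul, hSone, hScoe]
      ring
    · intro χ _ hχ
      rw [indic_apply_of_notMem (by simpa using hχ), zero_mul]
    · intro h'
      exact absurd (mem_univ _) h'
  -- the functions
  let c₀ : ι → ℂ := fun i => Ω i 1 / (Nat.card H : ℂ)
  have hc₀ : ∀ i, MemLocalRing M (c₀ i) := by
    intro i
    simp only [c₀]
    rw [hSdeg, div_eq_mul_inv]
    exact MemLocalRing.mul (MemLocalRing.natCast _) (inv_natCast_memLocalRing hM hHp)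
  have hloc : ∀ i (n : 𝐍), MemLocalRing M (c₀ i * conj (Ω i n)) := by
    intro i n
    refine MemLocalRing.mul (hc₀ i) ?_
    rw [← irr_apply_inv ⟨Ω i, hirr i⟩ n]
    exact memLocalRing_of_isIntegral (irr_isIntegral ⟨Ω i, hirr i⟩ _)
  let Fl : ι → G → locRing M := fun i g => if hg : g ∈ 𝐍 then ⟨c₀ i * conj (Ω i ⟨g, hg⟩), hloc i _⟩ else 0
  let F : ι → G → ResF M := fun i g => mk (Fl i g)
  have hFin : ∀ i g (hg : g ∈ 𝐍), F i g = mk ⟨c₀ i * conj (Ω i ⟨g, hg⟩), hloc i _⟩ := by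
    intro i g hg
    simp only [F, Fl, dif_pos hg]
  have hFout : ∀ i g, g ∉ 𝐍 → F i g = 0 := by
    intro i g hg
    simp only [F, Fl, dif_neg hg, map_zero]
  have hπF : ∀ i (h : H), π i h = F i h := by
    intro i h
    rw [hFin i h (hHN h.2)]
    simp only [π, epsRes]
    congr 1
    apply Subtype.ext
    exact hcoefS i h
  have hzN : ∀ z ∈ Subgroup.zpowers y, z ∈ 𝐍 := fun z hz => hPN z ((hyP z).mp hz)
  have hFl : ∀ i, ∀ z ∈ Subgroup.zpowers y, ∀ g, F i (z * g) = F i g := by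
    intro i z hz g
    by_cases hg : g ∈ 𝐍
    · have hzg : z * g ∈ 𝐍 := 𝐍.mul_mem (hzN z hz) hg
      rw [hFin i _ hzg, hFin i _ hg]
      congr 1
      apply Subtype.ext
      show c₀ i * conj (Ω i ⟨z * g, hzg⟩) = c₀ i * conj (Ω i ⟨g, hg⟩)
      have h1 : (⟨z * g, hzg⟩ : 𝐍) = ⟨z, hzN z hz⟩ * ⟨g, hg⟩ := rfl
      rw [h1, hΩl i _ ((hyP z).mp hz)]
    · have hzg : z * g ∉ 𝐍 := fun h => hg (by
        have := 𝐍.mul_mem (𝐍.inv_mem (hzN z hz)) h
        simpa using this)
      rw [hFout i _ hzg, hFout i _ hg]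
  have hFr : ∀ i, ∀ z ∈ Subgroup.zpowers y, ∀ g, F i (g * z) = F i g := by
    intro i z hz g
    by_cases hg : g ∈ 𝐍
    · have hzg : g * z ∈ 𝐍 := 𝐍.mul_mem hg (hzN z hz)
      rw [hFin i _ hzg, hFin i _ hg]
      congr 1
      apply Subtype.ext
      show c₀ i * conj (Ω i ⟨g * z, hzg⟩) = c₀ i * conj (Ω i ⟨g, hg⟩)
      have h1 : (⟨g * z, hzg⟩ : 𝐍) = ⟨g, hg⟩ * ⟨z, hzN z hz⟩ := rfl
      rw [h1, hΩr i _ ((hyP z).mp hz)]
    · have hzg : g * z ∉ 𝐍 := fun h => hg (by
        have := 𝐍.mul_mem h (𝐍.inv_mem (hzN z hz))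
        simpa using this)
      rw [hFout i _ hzg, hFout i _ hg]
  have hHP' : ∀ (h : H), ∀ z ∈ Subgroup.zpowers y, (h : G)⁻¹ * z * h ∈ Subgroup.zpowers y := by
    intro h z hz
    rw [hyP] at hz ⊢
    have h1 := (Subgroup.mem_normalizer_iff.mp (𝐍.inv_mem (hHN h.2)) z).mp hz
    simpa using h1
  have hFπ : ∀ i g, ∑ h : H, π i h * F i ((h : G)⁻¹ * g) = F i g := by
    intro i g
    by_cases hg : g ∈ 𝐍
    · obtain ⟨z, hz, h₀, rfl⟩ := hN g hg
      have h1 : ∀ h : H, F i ((h : G)⁻¹ * (z * h₀)) = π i (h⁻¹ * h₀) := by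
        intro h
        have h2 : (h : G)⁻¹ * (z * h₀) = ((h : G)⁻¹ * z * h) * ((h⁻¹ * h₀ : H) : G) := by
          simp only [Subgroup.coe_mul, Subgroup.coe_inv]
          group
        rw [h2, hFl i _ (hHP' h z hz), ← hπF]
      rw [sum_congr rfl (fun h _ => by rw [h1 h]), hπi, hFl i z hz, hπF]
    · rw [hFout i g hg]
      refine sum_eq_zero fun h _ => ?_
      have h1 : (h : G)⁻¹ * g ∉ 𝐍 := fun h2 => hg (by
        have := 𝐍.mul_mem (hHN h.2) h2
        simpa using this)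
      rw [hFout i _ h1, mul_zero]
  -- the value
  have hmemC : ∀ x : G, x ∈ 𝐂 ↔ x * y = y * x := by
    intro x
    constructor
    · intro hx
      have hyP' : y ∈ 𝐐 := (hyP y).mp (Subgroup.mem_zpowers y)
      exact (Subgroup.mem_centralizer_iff.mp hx y hyP').symm
    · intro hx
      rw [Subgroup.mem_centralizer_iff]
      intro t ht
      have ht' : t ∈ Subgroup.zpowers y := (hyP t).mpr ht
      obtain ⟨i, rfl⟩ := Subgroup.mem_zpowers_iff.mp ht'
      have hc : Commute x y := hx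
      exact (hc.zpow_right i).eq.symm
  have hFval : ∀ i, ∑ u, epsRes M B hB u * F i u⁻¹ ≠ 0 := by
    intro i
    let D : G → ResF M := fun u => epsRes M B hB u * F i u⁻¹
    have hD : ∀ z ∈ Subgroup.zpowers y, ∀ u, D (z * u * z⁻¹) = D u := by
      intro z hz u
      simp only [D]
      rw [epsRes_class]
      congr 1
      have h1 : (z * u * z⁻¹)⁻¹ = z * (u⁻¹ * z⁻¹) := by group
      rw [h1, hFl i z hz, hFr i _ (Subgroup.inv_mem _ hz)]
    have h1 := sum_noncomm_eq_zero hyo hcent D hD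
    have h2 : ∑ u, D u = ∑ c : 𝐂, D c := by
      rw [← Finset.sum_filter_add_sum_filter_not univ (fun u => u * y = y * u), ]
      have h3 : ∑ u ∈ univ.filter (fun u => ¬ u * y = y * u), D u = 0 := h1
      rw [h3, add_zero]
      exact Finset.sum_subtype _ (fun x => by
        rw [Finset.mem_filter]
        simp only [Finset.mem_univ, true_and]
        exact (hmemC x).symm) D
    have hcoefloc : ∀ c : 𝐂, MemLocalRing M (coef (indic B) c * (c₀ i * Ω i (toN c))) := by
      intro c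
      refine MemLocalRing.mul (coef_memLocalRing (indic_mem_zS hB) _) (MemLocalRing.mul (hc₀ i) ?_)
      exact memLocalRing_of_isIntegral (irr_isIntegral ⟨Ω i, hirr i⟩ _)
    have h4 : ∀ c : 𝐂, D c = mk ⟨coef (indic B) c * (c₀ i * Ω i (toN c)), hcoefloc c⟩ := by
      intro c
      simp only [D]
      have hci : ((c : G))⁻¹ ∈ 𝐍 := 𝐍.inv_mem (centralizer_le_normalizer_coe _ c.2)
      rw [hFin i _ hci]
      simp only [epsRes]
      change mk _ * mk _ = mk _
      rw [← map_mul]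
      congr 1
      apply Subtype.ext
      show coef (indic B) c * (c₀ i * conj (Ω i ⟨(c : G)⁻¹, hci⟩)) = coef (indic B) c * (c₀ i * Ω i (toN c))
      have h5 : (⟨(c : G)⁻¹, hci⟩ : 𝐍) = (toN c)⁻¹ := rfl
      have h6 : Ω i (toN c)⁻¹ = conj (Ω i (toN c)) := irr_apply_inv ⟨Ω i, hirr i⟩ (toN c)
      rw [h5, h6, Complex.conj_conj]
    rw [← sum_congr rfl (fun u _ => rfl), h2, sum_congr rfl (fun c _ => h4 c), ← map_sum]
    intro h0
    have h5 : (∑ c : 𝐂, (⟨coef (indic B) c * (c₀ i * Ω i (toN c)), hcoefloc c⟩ : locRing M)) ∈ locMax M :=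
      Ideal.Quotient.eq_zero_iff_mem.mp h0
    rw [mem_locMax] at h5
    have h6 : (((∑ c : 𝐂, (⟨coef (indic B) c * (c₀ i * Ω i (toN c)), hcoefloc c⟩ : locRing M)) : locRing M) : ℂ) =
        c₀ i * (Ω i 1 * resPhi 𝐂 θ (indic B)) := by
      rw [AddSubmonoidClass.coe_finsetSum]
      show ∑ c : 𝐂, coef (indic B) c * (c₀ i * Ω i (toN c)) = _
      have h7 := hres i (coef (indic B)) (coef_isClassFunction _)
      simp only [mul_left_comm (coef (indic B) _), ← mul_sum]
      rw [h7]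
      simp only [resPhi, spec]
      have h8 : (Cfsg.Agent.Lib.Blocks.resFun 𝐂 (coef (indic B))) = fun c : 𝐂 => coef (indic B) c := rfl
      rw [h8]
      ring
    rw [h6] at h5
    obtain ⟨χ₀, hχ₀⟩ := IsPBlock.nonempty hB
    have h7 := IsInducedBlock.resPhi_congr 𝐂 hind (self_mem_blockOf θ) hχ₀ (indic_mem_zS hB)
    rw [indic_apply_of_mem hχ₀] at h7
    have h8 : MemLocalIdeal M (c₀ i * Ω i 1) := by
      have hΩ1 : MemLocalRing M (Ω i 1) := by
        rw [hSdeg]
        exact MemLocalRing.natCast _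
      have h9 := MemLocalIdeal.sub h5 (MemLocalIdeal.mul_left (MemLocalRing.mul (hc₀ i) hΩ1) h7)
      convert h9 using 1
      ring
    have h9 : MemLocalIdeal M ((charDegree (S i : H → ℂ) ^ 2 : ℕ) : ℂ) := by
      have h10 := MemLocalIdeal.mul_left (MemLocalRing.natCast (M := M) (Nat.card H)) h8
      convert h10 using 1
      simp only [c₀]
      rw [hSdeg]
      push_cast
      field_simp
    have h10 := (natCast_memLocalIdeal_iff hM _).mp h9
    exact hSp i (hpp.dvd_of_dvd_pow h10)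
  have hc : (Nat.card H : ResF M) ≠ 0 := fun h => hHp ((CharP.cast_eq_zero_iff (ResF M) p _).mp h)
  exact exists_independent_tracesG hyo hyN hN hc hHy hfree (epsRes_class M B hB) (epsRes_id M B hB)
    π hπc hπi horth F hFl hFr hFπ hFval

/-- The rank bound. -/
theorem rank_bound (hM : IsPModular p M) (hP : Nat.card (P : Subgroup G) = p)
    {B : Set (IrrCharacter G)} (hB : IsPBlock M B) {θ : IrrCharacter 𝐂} (hθ : PT θ)
    (hind : IsInducedBlock M 𝐂 (blockOf M (θ : 𝐂 → ℂ)) B) {e : ℕ}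
    (hTe : Nat.card (stabT θ) = e * Nat.card 𝐂) (X : Finset (IrrCharacter G))
    (hX : ∀ χ ∈ B, ∃ c : IrrCharacter G → ℂ, ∀ g, ¬ p ∣ orderOf g →
      (χ : G → ℂ) g = ∑ ξ ∈ X, c ξ * (ξ : G → ℂ) g) : e ≤ X.card := by
  classical
  haveI hMp : M.IsPrime := isPrime_of_modular hM
  obtain ⟨Ω, h1, h2, h3, h4⟩ := exists_chars_over hP hθ hTe
  obtain ⟨τ, hτ1, hτ2, hτ3, hτ4⟩ := exists_traces_gen hM hP hB hind Ω h1 h2 h3 h4
  obtain ⟨f, hf1, hf2⟩ := exists_block_functions_aux hM hB τ hτ1 hτ2 hτ3 hτ4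
  let R := {g : G // ¬ p ∣ orderOf g}
  have hX' : ∀ χ : IrrCharacter G, ∃ c : IrrCharacter G → ℂ, χ ∈ B → ∀ g, ¬ p ∣ orderOf g →
      (χ : G → ℂ) g = ∑ ξ ∈ X, c ξ * (ξ : G → ℂ) g := by
    intro χ
    by_cases hχ : χ ∈ B
    · obtain ⟨c, hc⟩ := hX χ hχ
      exact ⟨c, fun _ => hc⟩
    · exact ⟨0, fun h => absurd h hχ⟩
  choose c' hc' using hX'
  have h5 := card_le_of_span (fun i (r : R) => f i (r : G)) (by
      rw [Fintype.linearIndependent_iff]
      intro a ha i
      refine hf2 a (fun g hg => ?_) i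
      have h6 := congrFun ha ⟨g, hg⟩
      simpa [Finset.sum_apply] using h6) X (fun χ (r : R) => (χ : G → ℂ) (r : G)) (by
      intro i
      obtain ⟨c, hc⟩ := hf1 i
      refine ⟨fun ξ => ∑ χ : IrrCharacter G, indic B χ * (c χ * c' χ ξ), fun r => ?_⟩
      rw [hc]
      simp only [sum_mul]
      rw [sum_comm]
      refine sum_congr rfl fun χ _ => ?_
      by_cases hχ : χ ∈ B
      · rw [hc' χ hχ r r.2, mul_sum, mul_sum]
        refine sum_congr rfl fun ξ _ => ?_
        ring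
      · rw [indic_apply_of_notMem hχ]
        simp)
  simpa using h5

end Cfsg.Agent.Lib.DefOne
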