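import Cfsg.Agent.Lib.DefOne.Lift

/-!
# Irreducible characters of the centralizer of a Sylow subgroup of prime order
-/

set_option autoImplicit false
set_option linter.unusedSectionVars false
set_option linter.unusedVariables false

namespace Cfsg.Agent.Lib.DefOne

open Cfsg Cfsg.Agent.Lib.Char Cfsg.Agent.Lib.Blocks Finset
open scoped ComplexConjugate

universe u

attribute [local instance] fintypeOfSubgroup

variable {G : Type u} [Group G] [Fintype G] {p : ℕ} [hp : Fact p.Prime] {P : Sylow p G}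

local notation "𝐐" => ((P : Subgroup G))
local notation "𝐂" => (Subgroup.centralizer (((P : Subgroup G)) : Set G))
local notation "𝐍" => (Subgroup.normalizer (((P : Subgroup G)) : Set G))

/-- `P` lies in the kernel. -/
def PT (θ : IrrCharacter 𝐂) : Prop := ∀ x : 𝐂, (x : G) ∈ 𝐐 → (θ : 𝐂 → ℂ) x = (θ : 𝐂 → ℂ) 1

theorem tw_coe (hP : Nat.card (P : Subgroup G) = p) (a : 𝐐 →* ℂˣ) (θ : IrrCharacter 𝐂) (c : 𝐂) :
    (tw hP a θ : 𝐂 → ℂ) c = ((LL hP a c : ℂˣ) : ℂ) * (θ : 𝐂 → ℂ) c := rfl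

theorem tw_one (hP : Nat.card (P : Subgroup G) = p) (θ : IrrCharacter 𝐂) : tw hP 1 θ = θ := by
  apply Subtype.ext
  funext c
  rw [tw_coe, LL_one]
  simp

theorem tw_mul (hP : Nat.card (P : Subgroup G) = p) (a b : 𝐐 →* ℂˣ) (θ : IrrCharacter 𝐂) :
    tw hP (a * b) θ = tw hP a (tw hP b θ) := by
  apply Subtype.ext
  funext c
  rw [tw_coe, tw_coe, tw_coe, LL_mul, MonoidHom.mul_apply]
  push_cast
  ring

theorem tw_reg (hP : Nat.card (P : Subgroup G) = p) (a : 𝐐 →* ℂˣ) (θ : IrrCharacter 𝐂) {y : 𝐂} (hy : ¬ p ∣ orderOf y) :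
    (tw hP a θ : 𝐂 → ℂ) y = (θ : 𝐂 → ℂ) y := by
  rw [tw_coe, LL_reg hP a y hy]
  simp

theorem comm_cent (hP : Nat.card (P : Subgroup G) = p) {u : 𝐂} (hu : (u : G) ∈ 𝐐) (w : 𝐂) : Commute w u := by
  apply Subtype.ext
  exact (Subgroup.mem_centralizer_iff.mp w.2 u hu).symm

theorem PT.mul_left (hP : Nat.card (P : Subgroup G) = p) {θ : IrrCharacter 𝐂} (h : PT θ) {u : 𝐂} (hu : (u : G) ∈ 𝐐)
    (c : 𝐂) : (θ : 𝐂 → ℂ) (u * c) = (θ : 𝐂 → ℂ) c := by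
  rw [irr_central_mul θ (comm_cent hP hu), h u hu, div_self (IsIrrCharacter.apply_one_ne_zero θ.2), one_mul]

theorem PT.tw_mem (hP : Nat.card (P : Subgroup G) = p) {θ : IrrCharacter 𝐂} (h : PT θ) (a : 𝐐 →* ℂˣ)
    {u : 𝐂} (hu : (u : G) ∈ 𝐐) : (tw hP a θ : 𝐂 → ℂ) u = ((a ⟨u, hu⟩ : ℂˣ) : ℂ) * (θ : 𝐂 → ℂ) 1 := by
  rw [tw_coe, LL_mem hP a u hu, h u hu]

theorem tw_eq_iff (hP : Nat.card (P : Subgroup G) = p) {θ₁ θ₂ : IrrCharacter 𝐂} (h₁ : PT θ₁) (h₂ : PT θ₂)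
    (a b : 𝐐 →* ℂˣ) : tw hP a θ₁ = tw hP b θ₂ ↔ a = b ∧ θ₁ = θ₂ := by
  constructor
  · intro h
    have hab : a = b := by
      have h1 : (θ₁ : 𝐂 → ℂ) 1 = (θ₂ : 𝐂 → ℂ) 1 := by
        have h2 := congrArg (fun χ : IrrCharacter 𝐂 => (χ : 𝐂 → ℂ) 1) h
        simpa [tw_coe] using h2
      ext u
      have hu' : (u : G) ∈ 𝐂 := le_cent hP u.2
      have h2 : (tw hP a θ₁ : 𝐂 → ℂ) ⟨u, hu'⟩ = (tw hP b θ₂ : 𝐂 → ℂ) ⟨u, hu'⟩ := by rw [h]
      rw [h₁.tw_mem hP a (u := ⟨u, hu'⟩) u.2, h₂.tw_mem hP b (u := ⟨u, hu'⟩) u.2, h1] at h2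
      exact mul_right_cancel₀ (IsIrrCharacter.apply_one_ne_zero θ₂.2) h2
    subst hab
    refine ⟨rfl, ?_⟩
    apply Subtype.ext
    funext c
    have h2 := congrArg (fun χ : IrrCharacter 𝐂 => (χ : 𝐂 → ℂ) c) h
    simp only [tw_coe] at h2
    exact mul_left_cancel₀ (Units.ne_zero _) h2
  · rintro ⟨rfl, rfl⟩
    rfl

theorem PT.of_tw (hP : Nat.card (P : Subgroup G) = p) (ξ : IrrCharacter 𝐂) :
    ∃ (a : 𝐐 →* ℂˣ) (θ : IrrCharacter 𝐂), PT θ ∧ ξ = tw hP a θ := by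
  classical
  have hP1 : ∀ u : 𝐐, ((u : G) : G) ∈ 𝐂 := fun u => le_cent hP u.2
  have hne := IsIrrCharacter.apply_one_ne_zero ξ.2
  let f : 𝐐 →* ℂ :=
    { toFun := fun u => (ξ : 𝐂 → ℂ) ⟨u, hP1 u⟩ / (ξ : 𝐂 → ℂ) 1
      map_one' := by
        have : (⟨((1 : 𝐐) : G), hP1 1⟩ : 𝐂) = 1 := rfl
        simp only [this]
        exact div_self hne
      map_mul' := by
        intro u v
        have h1 : (⟨((u * v : 𝐐) : G), hP1 (u * v)⟩ : 𝐂) = ⟨u, hP1 u⟩ * ⟨v, hP1 v⟩ := rfl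
        simp only [h1]
        rw [irr_central_mul ξ (comm_cent hP (u := ⟨u, hP1 u⟩) u.2)]
        field_simp }
  let a : 𝐐 →* ℂˣ := f.toHomUnits
  have ha : ∀ u : 𝐐, ((a u : ℂˣ) : ℂ) = (ξ : 𝐂 → ℂ) ⟨u, hP1 u⟩ / (ξ : 𝐂 → ℂ) 1 := fun u => rfl
  refine ⟨a, tw hP a⁻¹ ξ, ?_, ?_⟩
  · intro x hx
    rw [tw_coe, tw_coe, map_one, LL_mem hP _ x hx]
    have h1 := ha ⟨x, hx⟩
    have hx2 : (⟨(x : G), hP1 ⟨x, hx⟩⟩ : 𝐂) = x := rfl
    simp only [hx2] at h1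
    have hne2 : (ξ : 𝐂 → ℂ) x ≠ 0 := by
      intro h0
      rw [h0, zero_div] at h1
      exact Units.ne_zero _ h1
    have hv : ((a⁻¹ ⟨x, hx⟩ : ℂˣ) : ℂ) = ((ξ : 𝐂 → ℂ) x / (ξ : 𝐂 → ℂ) 1)⁻¹ := by
      rw [MonoidHom.inv_apply, Units.val_inv_eq_inv_val, h1]
    rw [hv]
    simp only [Units.val_one, one_mul]
    field_simp
  · have h1 : a * a⁻¹ = 1 := by
      ext u
      simp
    rw [← tw_mul, h1, tw_one]

noncomputable instance fintypePT : Fintype {θ : IrrCharacter 𝐂 // PT θ} := Fintype.ofFinite _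

/-- The bijection onto the irreducible characters of the centralizer. -/
theorem sum_irr_cent (hP : Nat.card (P : Subgroup G) = p) [Fintype (𝐐 →* ℂˣ)] (F : IrrCharacter 𝐂 → ℂ) :
    ∑ ξ, F ξ = ∑ θ : {θ : IrrCharacter 𝐂 // PT θ}, ∑ a : 𝐐 →* ℂˣ, F (tw hP a θ.1) := by
  classical
  rw [← Finset.sum_product', Finset.univ_product_univ]
  refine (Fintype.sum_bijective (fun x : {θ : IrrCharacter 𝐂 // PT θ} × (𝐐 →* ℂˣ) => tw hP x.2 x.1.1) ?_ _ _ (fun _ => rfl)).symm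
  constructor
  · rintro ⟨⟨θ₁, h₁⟩, a⟩ ⟨⟨θ₂, h₂⟩, b⟩ h
    obtain ⟨rfl, rfl⟩ := (tw_eq_iff hP h₁ h₂ a b).mp h
    rfl
  · intro ξ
    obtain ⟨a, θ, hθ, rfl⟩ := PT.of_tw hP ξ
    exact ⟨(⟨θ, hθ⟩, a), rfl⟩

open scoped Classical in
theorem classInner_tw_tw (hP : Nat.card (P : Subgroup G) = p) {θ₁ θ₂ : IrrCharacter 𝐂} (h₁ : PT θ₁) (h₂ : PT θ₂)
    (a b : 𝐐 →* ℂˣ) :
    classInner (tw hP a θ₁ : 𝐂 → ℂ) (tw hP b θ₂ : 𝐂 → ℂ) = if a = b ∧ θ₁ = θ₂ then 1 else 0 := by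
  by_cases h : a = b ∧ θ₁ = θ₂
  · rw [if_pos h, h.1, h.2]
    exact classInner_irr_self (tw hP b θ₂).2
  · rw [if_neg h]
    refine classInner_irr_of_ne (tw hP a θ₁).2 (tw hP b θ₂).2 fun h3 => h ?_
    exact (tw_eq_iff hP h₁ h₂ a b).mp (Subtype.ext h3)

/-- Conjugation as an automorphism. -/
def cjE (n : 𝐍) : 𝐂 ≃* 𝐂 :=
  { cjC n with
    invFun := cjC n⁻¹
    left_inv := cjC_inv_cjC n
    right_inv := by
      intro c
      have := cjC_inv_cjC n⁻¹ c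
      rwa [inv_inv] at this }

@[simp] theorem cjE_apply (n : 𝐍) (c : 𝐂) : cjE n c = cjC n c := rfl

/-- The conjugate of a character of the centralizer. -/
noncomputable def cjI (n : 𝐍) (θ : IrrCharacter 𝐂) : IrrCharacter 𝐂 :=
  ⟨(θ : 𝐂 → ℂ) ∘ cjE n, isIrrCharacter_comp_mulEquiv (cjE n) θ.2⟩

theorem cjI_coe (n : 𝐍) (θ : IrrCharacter 𝐂) (c : 𝐂) : (cjI n θ : 𝐂 → ℂ) c = (θ : 𝐂 → ℂ) (cjC n c) := rfl

theorem cjI_one (θ : IrrCharacter 𝐂) : cjI (1 : 𝐍) θ = θ := by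
  apply Subtype.ext
  funext c
  rw [cjI_coe, cjC_one]

theorem cjI_mul (n m : 𝐍) (θ : IrrCharacter 𝐂) : cjI (n * m) θ = cjI n (cjI m θ) := by
  apply Subtype.ext
  funext c
  rw [cjI_coe, cjI_coe, cjI_coe, cjC_mul]

theorem cjI_inv_cjI (n : 𝐍) (θ : IrrCharacter 𝐂) : cjI n⁻¹ (cjI n θ) = θ := by
  rw [← cjI_mul, inv_mul_cancel, cjI_one]

theorem cjI_cjI_inv (n : 𝐍) (θ : IrrCharacter 𝐂) : cjI n (cjI n⁻¹ θ) = θ := by
  rw [← cjI_mul, mul_inv_cancel, cjI_one]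

theorem PT.cjI {θ : IrrCharacter 𝐂} (h : PT θ) (n : 𝐍) : PT (cjI n θ) := by
  intro x hx
  rw [cjI_coe, cjI_coe, map_one]
  apply h
  have h2 := (Subgroup.mem_normalizer_iff.mp (n⁻¹).2 (x : G)).mp hx
  show (n : G)⁻¹ * (x : G) * (n : G) ∈ 𝐐
  simpa using h2

theorem cjI_tw (hP : Nat.card (P : Subgroup G) = p) (n : 𝐍) (a : 𝐐 →* ℂˣ) (θ : IrrCharacter 𝐂) :
    cjI n (tw hP a θ) = tw hP (twist 𝐐 n a) (cjI n θ) := by
  apply Subtype.ext
  funext c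
  rw [cjI_coe, tw_coe, tw_coe, cjI_coe, LL_cjC]

/-- The stabilizer of a character of the centralizer in the normalizer. -/
def stabT (θ : IrrCharacter 𝐂) : Subgroup 𝐍 where
  carrier := {n | cjI n θ = θ}
  mul_mem' := by
    intro a b ha hb
    simp only [Set.mem_ofPred_eq] at ha hb ⊢
    rw [cjI_mul, hb, ha]
  one_mem' := cjI_one θ
  inv_mem' := by
    intro a ha
    simp only [Set.mem_ofPred_eq] at ha ⊢
    have h := cjI_inv_cjI a θ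
    rwa [ha] at h

theorem mem_stabT {θ : IrrCharacter 𝐂} {n : 𝐍} : n ∈ stabT θ ↔ cjI n θ = θ := Iff.rfl

/-- An element of the centralizer as an element of the normalizer. -/
def toN (c : 𝐂) : 𝐍 := ⟨c, centralizer_le_normalizer_coe _ c.2⟩

theorem cjI_toN (c : 𝐂) (θ : IrrCharacter 𝐂) : cjI (toN c) θ = θ := by
  apply Subtype.ext
  funext x
  rw [cjI_coe]
  have h := IsCharacter.isClassFunction (IsIrrCharacter.isCharacter θ.2) x c⁻¹
  have h2 : cjC (toN c) x = c⁻¹ * x * c⁻¹⁻¹ := by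
    apply Subtype.ext
    show (c : G)⁻¹ * (x : G) * (c : G) = _
    simp
  rw [h2]
  exact h

theorem toN_mem_stabT (c : 𝐂) (θ : IrrCharacter 𝐂) : toN c ∈ stabT θ := cjI_toN c θ

/-- The multiplicity of a character of the centralizer in the restriction of a class function. -/
noncomputable def mu (χ : G → ℂ) (ξ : 𝐂 → ℂ) : ℂ := classInner (fun c : 𝐂 => χ c) ξ

theorem mu_cjI (χ : IrrCharacter G) (n : 𝐍) (ξ : IrrCharacter 𝐂) :
    mu (χ : G → ℂ) (cjI n ξ : 𝐂 → ℂ) = mu (χ : G → ℂ) (ξ : 𝐂 → ℂ) := by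
  have h := classInner_comp_mulEquiv (cjE n) (fun c : 𝐂 => (χ : G → ℂ) c) (ξ : 𝐂 → ℂ)
  rw [mu, mu, ← h]
  congr 1
  funext c
  simp only [Function.comp_apply, cjE_apply, coe_cjC]
  have h2 := IsCharacter.isClassFunction (IsIrrCharacter.isCharacter χ.2) (c : G) (n : G)⁻¹
  rw [inv_inv] at h2
  rw [h2]

theorem exists_mu_nat (χ : IrrCharacter G) (ξ : IrrCharacter 𝐂) :
    ∃ m : ℕ, mu (χ : G → ℂ) (ξ : 𝐂 → ℂ) = m :=
  IsCharacter.classInner_irr_eq_nat (isCharacter_resFun 𝐂 (IsIrrCharacter.isCharacter χ.2)) ξ.2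

theorem classInner_ind_irr (ϕ : IrrCharacter 𝐂) (χ : IrrCharacter G) :
    classInner (indFun 𝐂 (ϕ : 𝐂 → ℂ)) (χ : G → ℂ) = mu (χ : G → ℂ) (ϕ : 𝐂 → ℂ) := by
  obtain ⟨m, hm⟩ := exists_mu_nat χ ϕ
  rw [classInner_indFun_left _ _ _ (IsCharacter.isClassFunction (IsIrrCharacter.isCharacter χ.2)),
    classInner_conj_symm]
  change conj (mu (χ : G → ℂ) (ϕ : 𝐂 → ℂ)) = _
  rw [hm]
  simp

/-- The generalized character attached to a non-principal character of `P`. -/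
noncomputable def vv (hP : Nat.card (P : Subgroup G) = p) (a : 𝐐 →* ℂˣ) (θ : IrrCharacter 𝐂) : G → ℂ :=
  indFun 𝐂 (tw hP a θ : 𝐂 → ℂ) - indFun 𝐂 (θ : 𝐂 → ℂ)

theorem vv_gen (hP : Nat.card (P : Subgroup G) = p) (a : 𝐐 →* ℂˣ) (θ : IrrCharacter 𝐂) :
    IsGeneralizedCharacter G (vv hP a θ) :=
  ⟨_, _, isCharacter_indFun 𝐂 (IsIrrCharacter.isCharacter (tw hP a θ).2),
    isCharacter_indFun 𝐂 (IsIrrCharacter.isCharacter θ.2), rfl⟩

theorem vv_eq_ind (hP : Nat.card (P : Subgroup G) = p) (a : 𝐐 →* ℂˣ) (θ : IrrCharacter 𝐂) :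
    vv hP a θ = indFun 𝐂 ((tw hP a θ : 𝐂 → ℂ) - (θ : 𝐂 → ℂ)) := by
  rw [vv, indFun_sub]

theorem vv_inner (hP : Nat.card (P : Subgroup G) = p) (a : 𝐐 →* ℂˣ) (θ : IrrCharacter 𝐂) (χ : IrrCharacter G) :
    classInner (vv hP a θ) (χ : G → ℂ) = mu (χ : G → ℂ) (tw hP a θ : 𝐂 → ℂ) - mu (χ : G → ℂ) (θ : 𝐂 → ℂ) := by
  rw [vv, classInner_sub_left, classInner_ind_irr, classInner_ind_irr]

/-- Functions vanishing on the regular elements of the centralizer induce to functions vanishing on all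
regular elements. -/
theorem ind_regular (ϕ : 𝐂 → ℂ) (hϕ : ∀ y : 𝐂, ¬ p ∣ orderOf y → ϕ y = 0) {g : G} (hg : ¬ p ∣ orderOf g) :
    indFun 𝐂 ϕ g = 0 := by
  classical
  rw [indFun_apply]
  refine mul_eq_zero_of_right _ (Finset.sum_eq_zero fun x _ => ?_)
  by_cases hx : x⁻¹ * g * x ∈ 𝐂
  · rw [extendByZero_of_mem _ _ hx]
    apply hϕ
    rw [← Subgroup.orderOf_coe]
    show ¬ p ∣ orderOf (x⁻¹ * g * x)
    have h3 : x⁻¹ * g * x = MulAut.conj x⁻¹ g := by simp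
    rw [h3, MulEquiv.orderOf_eq]
    exact hg
  · rw [extendByZero_of_notMem _ _ hx]

theorem tw_sub_regular (hP : Nat.card (P : Subgroup G) = p) (a : 𝐐 →* ℂˣ) (θ : IrrCharacter 𝐂) (y : 𝐂)
    (hy : ¬ p ∣ orderOf y) : ((tw hP a θ : 𝐂 → ℂ) - (θ : 𝐂 → ℂ)) y = 0 := by
  rw [Pi.sub_apply, tw_reg hP a θ hy, sub_self]

theorem vv_regular (hP : Nat.card (P : Subgroup G) = p) (a : 𝐐 →* ℂˣ) (θ : IrrCharacter 𝐂) {g : G}
    (hg : ¬ p ∣ orderOf g) : vv hP a θ g = 0 := by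
  rw [vv_eq_ind]
  exact ind_regular _ (tw_sub_regular hP a θ) hg

/-- A singular element of the centralizer determines the normalizer. -/
theorem mem_normalizer_of_conj (hP : Nat.card (P : Subgroup G) = p) (c : 𝐂) (hc : p ∣ orderOf c) (x : G)
    (hx : x⁻¹ * c * x ∈ 𝐂) : x ∈ 𝐍 := by
  classical
  have hpp : p.Prime := hp.out
  obtain ⟨y, H, hyo, hyg, hHN, hyN, hN, hHp, hHy, hfree, hCN, hcent⟩ := exists_sylow_setup P hP
  obtain ⟨u, r, rfl, hu, hr⟩ := exists_decomp hP c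
  have hu1 : (u : G) ≠ 1 := by
    intro h
    have h1 : u = 1 := Subtype.ext h
    rw [h1, one_mul] at hc
    exact hr hc
  obtain ⟨u', r', hur, hu', hr'⟩ := exists_decomp hP (⟨_, hx⟩ : 𝐂)
  obtain ⟨α, hα⟩ := exists_isPExp G p
  have hpow : ∀ {t : G}, t ∈ 𝐐 → t ≠ 1 → orderOf t = p := by
    intro t ht ht1
    have h1 : orderOf (⟨t, ht⟩ : 𝐐) ∣ Nat.card 𝐐 := orderOf_dvd_natCard _
    rw [hP, Subgroup.orderOf_mk] at h1
    rcases (Nat.dvd_prime hpp).mp h1 with h | h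
    · exact absurd (orderOf_eq_one_iff.mp h) ht1
    · exact h
  have hval : (x⁻¹ * u * x : G) = (u' : G) := by
    have h1 : x⁻¹ * ((u * r : 𝐂) : G) * x = (u' : G) * r' := by
      have := congrArg (Subtype.val) hur
      simpa using this
    have hp1 : IsPPart p (x⁻¹ * ((u * r : 𝐂) : G) * x) (x⁻¹ * u * x) := by
      refine ⟨x⁻¹ * r * x, ?_, ?_, ⟨1, ?_⟩, ?_⟩
      · simp only [Subgroup.coe_mul]
        group
      · have h2 : Commute (u : G) (r : G) := by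
          have := (comm_cent hP hu r)
          exact (congrArg Subtype.val this.eq).symm
        show (x⁻¹ * u * x) * (x⁻¹ * r * x) = (x⁻¹ * r * x) * (x⁻¹ * u * x)
        have h3 : (u : G) * r = r * u := h2
        calc (x⁻¹ * u * x) * (x⁻¹ * r * x) = x⁻¹ * (u * r) * x := by group
          _ = x⁻¹ * (r * u) * x := by rw [h3]
          _ = _ := by group
      · have h3 : x⁻¹ * u * x = MulAut.conj x⁻¹ (u : G) := by simp
        rw [h3, MulEquiv.orderOf_eq, pow_one]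
        exact hpow hu hu1
      · have h3 : x⁻¹ * r * x = MulAut.conj x⁻¹ (r : G) := by simp
        rw [h3, MulEquiv.orderOf_eq, Subgroup.orderOf_coe]
        exact hr
    have hp2 : IsPPart p (x⁻¹ * ((u * r : 𝐂) : G) * x) (u' : G) := by
      rw [h1]
      refine ⟨r', rfl, ?_, ?_, ?_⟩
      · exact (congrArg Subtype.val (comm_cent hP hu' r').eq).symm
      · by_cases h5 : (u' : G) = 1
        · exact ⟨0, by rw [h5]; simp⟩
        · exact ⟨1, by rw [hpow hu' h5, pow_one]⟩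
      · rwa [Subgroup.orderOf_coe]
    rw [← hα.eq_of_isPPart hp1, ← hα.eq_of_isPPart hp2]
  refine hfree x u ?_ hu1 ?_
  · rw [← hyg]
    exact hu
  · rw [hval]
    exact Subgroup.le_normalizer hu'

theorem sum_subgroup (H : Subgroup G) (F : G → ℂ) (hF : ∀ x, x ∉ H → F x = 0) :
    ∑ x, F x = ∑ h : H, F h := by
  classical
  have h1 : ∑ x, F x = ∑ x ∈ univ.filter (· ∈ H), F x := by
    symm
    refine Finset.sum_subset (subset_univ _) fun x _ hx => ?_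
    apply hF
    simpa using hx
  rw [h1]
  exact Finset.sum_subtype _ (by simp) F

/-- The isometry formula. -/
theorem ind_inner (hP : Nat.card (P : Subgroup G) = p) (ϕ ϕ' : 𝐂 → ℂ) (hϕ : ∀ y : 𝐂, ¬ p ∣ orderOf y → ϕ y = 0) :
    classInner (indFun 𝐂 ϕ) (indFun 𝐂 ϕ') =
      (Nat.card 𝐂 : ℂ)⁻¹ * ∑ n : 𝐍, classInner ϕ (ϕ' ∘ cjC n) := by
  classical
  have hc : (Nat.card 𝐂 : ℂ) ≠ 0 := by exact_mod_cast Nat.card_pos.ne'
  have key : ∀ c : 𝐂, ϕ c * conj (indFun 𝐂 ϕ' c) = (Nat.card 𝐂 : ℂ)⁻¹ * ∑ n : 𝐍, ϕ c * conj (ϕ' (cjC n c)) := by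
    intro c
    by_cases hreg : p ∣ orderOf c
    · have h1 : indFun 𝐂 ϕ' c = (Nat.card 𝐂 : ℂ)⁻¹ * ∑ n : 𝐍, ϕ' (cjC n c) := by
        rw [indFun_apply, sum_subgroup 𝐍 _ (fun x hx => extendByZero_of_notMem _ _
          (fun h => hx (mem_normalizer_of_conj hP c hreg x h)))]
        congr 1
        refine Finset.sum_congr rfl fun n _ => ?_
        show extendByZero 𝐂 ϕ' ((cjC n c : 𝐂) : G) = _
        rw [extendByZero_coe]
      rw [h1, map_mul, map_sum, map_inv₀, Complex.conj_natCast, Finset.mul_sum, Finset.mul_sum, Finset.mul_sum]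
      refine Finset.sum_congr rfl fun n _ => ?_
      ring
    · rw [hϕ c hreg]
      simp
  rw [classInner_indFun_left _ _ _ (isClassFunction_indFun _ _)]
  simp only [classInner, Function.comp_apply]
  rw [Finset.sum_congr rfl (fun c _ => key c), ← Finset.mul_sum]
  congr 1
  simp only [Finset.mul_sum]
  rw [Finset.sum_comm]

end Cfsg.Agent.Lib.DefOne
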